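import Mathlib
import Cfsg.Agent.H19.SxDefs

/-!
# SX-VK (piece of helper19's EXIST project for S2948 / S2949), helper13

`[V, K]` has order 4.
-/

set_option autoImplicit false
open Cfsg

namespace Cfsg.Agent.H13.Sx

open Cfsg.Agent.H19.Sx
open scoped commutatorElement

universe u

/-- **SX-VK**. -/
theorem vk : StVK.{u} := by
  intro X _ _ V K W k x hVn hV hW hkW hK hxK hxodd hxC
  classical
  obtain ⟨-, hVe⟩ := hV
  have hconj : ∀ g : X, ∀ v ∈ V, g * v * g⁻¹ ∈ V := fun g v hv => hVn.conj_mem v hv g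
  have Pmul : ∀ g h : X, (∀ v ∈ V, g * v * g⁻¹ * v⁻¹ ∈ W) → (∀ v ∈ V, h * v * h⁻¹ * v⁻¹ ∈ W) →
      ∀ v ∈ V, (g * h) * v * (g * h)⁻¹ * v⁻¹ ∈ W := by
    intro g h hg hh v hv
    have e : (g * h) * v * (g * h)⁻¹ * v⁻¹ =
        (g * (h * v * h⁻¹) * g⁻¹ * (h * v * h⁻¹)⁻¹) * (h * v * h⁻¹ * v⁻¹) := by group
    rw [e]
    exact W.mul_mem (hg _ (hconj h v hv)) (hh v hv)
  have Pone : ∀ v ∈ V, (1 : X) * v * (1 : X)⁻¹ * v⁻¹ ∈ W := by
    intro v _
    have e : (1 : X) * v * (1 : X)⁻¹ * v⁻¹ = 1 := by group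
    rw [e]; exact W.one_mem
  have Ppow : ∀ (g : X), (∀ v ∈ V, g * v * g⁻¹ * v⁻¹ ∈ W) → ∀ n : ℕ, ∀ v ∈ V,
      g ^ n * v * (g ^ n)⁻¹ * v⁻¹ ∈ W := by
    intro g hg n
    induction n with
    | zero =>
      intro v hv
      rw [pow_zero]
      exact Pone v hv
    | succ n ih =>
      intro v hv
      rw [pow_succ]
      exact Pmul _ _ ih hg v hv
  let S : Subgroup X :=
    { carrier := {g | ∀ v ∈ V, g * v * g⁻¹ * v⁻¹ ∈ W}
      mul_mem' := fun {g h} hg hh => Pmul g h hg hh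
      one_mem' := Pone
      inv_mem' := by
        intro g hg
        have hinv : g⁻¹ = g ^ (orderOf g - 1) := by
          apply inv_eq_of_mul_eq_one_right
          rw [← pow_succ', Nat.sub_add_cancel (orderOf_pos g), pow_orderOf_eq_one]
        show ∀ v ∈ V, g⁻¹ * v * g⁻¹⁻¹ * v⁻¹ ∈ W
        rw [hinv]
        exact Ppow g hg _ }
  have hKS : K ≤ S := by
    refine hK.trans (sup_le ?_ ?_)
    · rw [Subgroup.zpowers_le]
      exact hkW
    · intro c hc v hv
      have h1 : v * c = c * v := (Subgroup.mem_centralizer_iff.mp hc) v hv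
      have e : c * v * c⁻¹ * v⁻¹ = 1 := by
        rw [← h1]; group
      rw [e]; exact W.one_mem
  have hcomm_le : ⁅V, K⁆ ≤ W := by
    rw [Subgroup.commutator_le]
    intro v hv g hg
    have h1 : g * v * g⁻¹ * v⁻¹ ∈ W := hKS hg v hv
    have e : ⁅v, g⁆ = (g * v * g⁻¹ * v⁻¹)⁻¹ := by rw [commutatorElement_def]; group
    rw [e]; exact W.inv_mem h1
  have hdvd : Nat.card ↥⁅V, K⁆ ∣ 2 ^ 2 := by
    have h := Subgroup.card_dvd_of_le hcomm_le
    rw [hW] at h
    exact h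
  -- `x` moves some `v`
  have hxv : ∃ v ∈ V, v * x ≠ x * v := by
    by_contra h
    push_neg at h
    exact hxC (Subgroup.mem_centralizer_iff.mpr h)
  obtain ⟨v0, hv0, hv0x⟩ := hxv
  have hne1 : Nat.card ↥⁅V, K⁆ ≠ 1 := by
    intro h1
    have hbot : ⁅V, K⁆ = ⊥ := Subgroup.card_eq_one.mp h1
    have hmem : ⁅v0, x⁆ ∈ ⁅V, K⁆ := Subgroup.commutator_mem_commutator hv0 hxK
    rw [hbot, Subgroup.mem_bot, commutatorElement_eq_one_iff_mul_comm] at hmem
    exact hv0x hmem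
  have hne2 : Nat.card ↥⁅V, K⁆ ≠ 2 := by
    intro h2
    have huniq : ∀ a ∈ ⁅V, K⁆, ∀ b ∈ ⁅V, K⁆, a ≠ 1 → b ≠ 1 → a = b := by
      intro a ha b hb ha1 hb1
      obtain ⟨c, -, hc⟩ := (Nat.card_eq_two_iff' (1 : ↥⁅V, K⁆)).mp h2
      have e1 := hc ⟨a, ha⟩ (fun h => ha1 (congrArg Subtype.val h))
      have e2 := hc ⟨b, hb⟩ (fun h => hb1 (congrArg Subtype.val h))
      exact congrArg Subtype.val (e1.trans e2.symm)
    have hVK_V : ⁅V, K⁆ ≤ V := Subgroup.commutator_le_left V K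
    have hsq : ∀ g ∈ K, ∀ v ∈ V, v * (g * g) = (g * g) * v := by
      intro g hg v hv
      obtain ⟨c1, hc1⟩ : ∃ c1 : X, c1 = g * v * g⁻¹ * v⁻¹ := ⟨_, rfl⟩
      have hc1N : c1 ∈ ⁅V, K⁆ := by
        have : c1 = ⁅v, g⁆⁻¹ := by rw [hc1, commutatorElement_def]; group
        rw [this]; exact Subgroup.inv_mem _ (Subgroup.commutator_mem_commutator hv hg)
      have hc2N : g * c1 * g⁻¹ ∈ ⁅V, K⁆ := by
        have : g * c1 * g⁻¹ = ⁅g * v * g⁻¹, g⁆⁻¹ := by
          rw [hc1, commutatorElement_def]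
          simp only [mul_inv_rev, inv_inv, mul_assoc, inv_mul_cancel_left, mul_inv_cancel_left]
        rw [this]
        exact Subgroup.inv_mem _ (Subgroup.commutator_mem_commutator (hconj g v hv) hg)
      have hc1sq : c1 * c1 = 1 := by
        have := hVe c1 (hVK_V hc1N)
        rw [pow_two] at this; exact this
      have hc21 : g * c1 * g⁻¹ = c1 := by
        by_cases h1 : c1 = 1
        · rw [h1]; group
        · apply huniq _ hc2N _ hc1N _ h1
          intro h; apply h1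
          have : c1 = g⁻¹ * (g * c1 * g⁻¹) * g := by group
          rw [this, h]; group
      have e : (g * g) * v * (g * g)⁻¹ * v⁻¹ = (g * c1 * g⁻¹) * c1 := by rw [hc1]; group
      rw [hc21, hc1sq] at e
      have : (g * g) * v = ((g * g) * v * (g * g)⁻¹ * v⁻¹) * v * (g * g) := by group
      rw [this, e, one_mul]
    obtain ⟨m, hm⟩ := hxodd
    have hx2 : x = x ^ (m + 1) * x ^ (m + 1) := by
      rw [← pow_add]
      have : m + 1 + (m + 1) = orderOf x + 1 := by omega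
      rw [this, pow_succ, pow_orderOf_eq_one, one_mul]
    apply hxC
    rw [Subgroup.mem_centralizer_iff]
    intro v hv
    rw [hx2]
    exact hsq _ (K.pow_mem hxK _) v hv
  obtain ⟨i, hi, e⟩ := (Nat.dvd_prime_pow Nat.prime_two).mp hdvd
  interval_cases i
  · exact absurd e hne1
  · exact absurd e hne2
  · exact e

example : Cfsg.Agent.H19.Sx.StVK.{u} := vk

end Cfsg.Agent.H13.Sx

#print axioms Cfsg.Agent.H13.Sx.vk
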