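import Cfsg.Agent.H51.SyDefs
import Cfsg.Agent.H14.SxStruct
import Cfsg.Agent.H84.SpGLPA

set_option autoImplicit false
set_option linter.unusedVariables false

/-!
# SY-GENS (piece of helper51's S2949 project), helper13

Glauberman's structure theorem S0617 in the holomorph of `V`: every element of odd order of `J(X)`
lies in the subgroup generated by the component elements and `C_X(V)`.  The set-up (`psi`, `Vh`,
`hS1`, `hS3`) is copied from helper14's `H14/SxStruct.lean`.
-/

open Cfsg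
open scoped commutatorElement Pointwise

namespace Cfsg.Agent.H13.Sy

open Cfsg.Agent.H14.Holo Cfsg.Agent.H51.Sy

universe u

theorem sl22_sq_facts : ∀ A : Matrix.SpecialLinearGroup (Fin 2) (ZMod 2),
    (A * A) ^ 3 = 1 ∧
    ∀ Z : Matrix.SpecialLinearGroup (Fin 2) (ZMod 2), Z ≠ 1 → Z ^ 3 = 1 →
      Z = A * A ∨ Z = (A * A)⁻¹ ∨ A * A = 1 := by
  decide

/-- The same facts in any group isomorphic to `SL(2,2)`. -/
theorem s3_sq_facts {E : Type*} [Group E]
    (e : E ≃* Matrix.SpecialLinearGroup (Fin 2) (ZMod 2)) (a : E) :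
    (a * a) ^ 3 = 1 ∧ ∀ z : E, z ≠ 1 → z ^ 3 = 1 → z = a * a ∨ z = (a * a)⁻¹ ∨ a * a = 1 := by
  obtain ⟨h1, h2⟩ := sl22_sq_facts (e a)
  refine ⟨?_, ?_⟩
  · apply e.injective
    rw [map_pow, map_mul, h1, map_one]
  · intro z hz hz3
    rcases h2 (e z) (by intro h; apply hz; apply e.injective; rw [h, map_one])
      (by rw [← map_pow, hz3, map_one]) with h | h | h
    · left
      apply e.injective
      rw [h, map_mul]
    · right; left
      apply e.injective
      rw [h, map_inv, map_mul]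
    · right; right
      apply e.injective
      rw [map_mul, h, map_one]

/-- The holomorph-level statement. -/
theorem gens_core {Y : Type u} [Group Y] [Finite Y] (V H : Subgroup Y)
    (hV : IsElementaryAbelian 2 V) (hHV : H ≤ Subgroup.normalizer (V : Set Y))
    (hf : H ⊓ Subgroup.centralizer (V : Set Y) = ⊥)
    (hS1 : Subgroup.centralizer (pPrimeCore 2 ↥H : Set ↥H) ≤ pPrimeCore 2 ↥H)
    (hS3 : H = ⨆ A : {A : Subgroup Y // A ≤ H ∧ IsBestOffenderOn 2 V A}, (A : Subgroup Y))
    (hH1 : H ≠ ⊥) (z : Y) (hz : z ∈ H) (hodd : Odd (orderOf z)) :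
    z ∈ Subgroup.closure {y : Y | y ∈ H ∧ y ≠ 1 ∧ y ^ 3 = 1 ∧
      (∀ g ∈ H, g * y * g⁻¹ = y ∨ g * y * g⁻¹ = y⁻¹) ∧
      ∃ W : Subgroup Y, W ≤ V ∧ Nat.card ↥W = 4 ∧ ∀ v ∈ V, y * v * y⁻¹ * v⁻¹ ∈ W} := by
  have : Fact (Nat.Prime 2) := ⟨Nat.prime_two⟩
  obtain ⟨-, hE, hind, hsup, -, -⟩ := Cfsg.Agent.S0617.result V H hV hHV hf hS1 hS3 hH1
  have hmem := Cfsg.Agent.H84.Sn.glpa_odd_mem _ H (fun i => (hE i).1) hind hsup z hz hodd
  refine (Subgroup.closure_le _).mpr ?_ hmem
  rintro s ⟨E, a, haE, rfl⟩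
  obtain ⟨hEnorm, ⟨e⟩, hEcard⟩ := hE E
  have hEH : (E : Subgroup Y) ≤ H := by
    have h0 := le_iSup (fun E : {E : Subgroup Y // ∃ A : Subgroup Y, A ≤ H ∧
      Cfsg.IsBestOffenderOn 2 V A ∧ ⁅V, A⁆ ≠ ⊥ ∧
      (∀ B : Subgroup Y, B ≤ A → Cfsg.IsBestOffenderOn 2 V B → ⁅V, B⁆ ≠ ⊥ → B = A) ∧
      E = ⁅((Cfsg.pPrimeCore 2 ↥H).map H.subtype), A⁆ ⊔ A} => (E : Subgroup Y)) E
    exact le_of_le_of_eq h0 hsup
  obtain ⟨hs3, hsz⟩ := s3_sq_facts e (⟨a, haE⟩ : ↥(E : Subgroup Y))
  by_cases hs1 : a * a = 1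
  · rw [hs1]
    exact Subgroup.one_mem _
  apply Subgroup.subset_closure
  have hsE : a * a ∈ (E : Subgroup Y) := (E : Subgroup Y).mul_mem haE haE
  have hs3' : (a * a) ^ 3 = 1 := by
    have := congrArg Subtype.val hs3
    simpa using this
  refine ⟨hEH hsE, hs1, hs3', ?_, ?_⟩
  · intro g hg
    have hgn := hEnorm hg
    rw [Subgroup.mem_normalizer_iff] at hgn
    have hz : g * (a * a) * g⁻¹ ∈ (E : Subgroup Y) := (hgn (a * a)).mp hsE
    have h := hsz ⟨g * (a * a) * g⁻¹, hz⟩
      (by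
        intro h
        apply hs1
        have h' : g * (a * a) * g⁻¹ = 1 := congrArg Subtype.val h
        have : a * a = g⁻¹ * (g * (a * a) * g⁻¹) * g := by group
        rw [this, h']
        group)
      (by
        apply Subtype.ext
        rw [Subgroup.coe_pow, Subgroup.coe_one]
        show (g * (a * a) * g⁻¹) ^ 3 = 1
        rw [conj_pow, hs3']
        group)
    rcases h with h | h | h
    · left
      exact congrArg Subtype.val h
    · right
      have := congrArg Subtype.val h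
      simpa using this
    · exfalso
      apply hs1
      exact congrArg Subtype.val h
  · refine ⟨⁅V, (E : Subgroup Y)⁆, ?_, ?_, ?_⟩
    · rw [Subgroup.commutator_le]
      intro v hv g hg
      have hgn := hHV (hEH hg)
      rw [Subgroup.mem_normalizer_iff] at hgn
      have h1 : g * v⁻¹ * g⁻¹ ∈ V := (hgn v⁻¹).mp (V.inv_mem hv)
      have : ⁅v, g⁆ = v * (g * v⁻¹ * g⁻¹) := by
        rw [commutatorElement_def]
        group
      rw [this]
      exact V.mul_mem hv h1
    · exact hEcard.trans (by norm_num)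
    · intro v hv
      have h1 : ⁅a * a, v⁆ ∈ ⁅(E : Subgroup Y), V⁆ :=
        Subgroup.commutator_mem_commutator hsE hv
      rw [Subgroup.commutator_comm] at h1
      rw [commutatorElement_def] at h1
      exact h1

/-- **SY-GENS**. -/
theorem genS : StGenS.{u} := by
  intro X _ _ V _ hV hsep hO y hy hodd
  have : Fact (Nat.Prime 2) := ⟨Nat.prime_two⟩
  have hJn := thompsonSubgroup_normal 2 X
  have hV' := Vh_elemAb V hV
  have hHV : (thompsonSubgroup 2 X).map (psi V) ≤
      Subgroup.normalizer ((Vh V : Subgroup (Hol V)) : Set (Hol V)) := by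
    have := Vh_normal V
    rw [Subgroup.normalizer_eq_top]
    exact le_top
  have hHR : (thompsonSubgroup 2 X).map (psi V) ≤ (psi V).range := by
    rintro _ ⟨j, -, rfl⟩
    exact ⟨j, rfl⟩
  have hf : (thompsonSubgroup 2 X).map (psi V) ⊓
      Subgroup.centralizer ((Vh V : Subgroup (Hol V)) : Set (Hol V)) = ⊥ := by
    rw [eq_bot_iff, ← range_faithful V]
    exact inf_le_inf_right _ hHR
  have hnorm : (psi V).range ≤
      Subgroup.normalizer (((thompsonSubgroup 2 X).map (psi V) : Subgroup (Hol V)) :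
        Set (Hol V)) := by
    rintro _ ⟨g, rfl⟩
    rw [Subgroup.mem_normalizer_iff]
    intro h
    constructor
    · rintro ⟨j, hj, rfl⟩
      refine ⟨g * j * g⁻¹, hJn.conj_mem j hj g, ?_⟩
      simp
    · rintro ⟨j, hj, hjh⟩
      refine ⟨g⁻¹ * j * g, ?_, ?_⟩
      · have := hJn.conj_mem j hj g⁻¹
        simpa using this
      · rw [map_mul, map_mul, hjh, map_inv]
        group
  have hS1 := hS1_of_normal (p := 2) (psi V).range ((thompsonSubgroup 2 X).map (psi V)) hHR
    hnorm (range_isPSolvable V hsep) (range_pCore_eq_bot V hO)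
  have hS3 : (thompsonSubgroup 2 X).map (psi V) = ⨆ A : {A : Subgroup (Hol V) //
      A ≤ (thompsonSubgroup 2 X).map (psi V) ∧ IsBestOffenderOn 2 (Vh V) A},
      (A : Subgroup (Hol V)) := by
    apply le_antisymm
    · conv_lhs => unfold Cfsg.thompsonSubgroup
      rw [Subgroup.map_le_iff_le_comap]
      apply sSup_le
      intro A hA
      rw [← Subgroup.map_le_iff_le_comap]
      exact le_iSup (fun A : {A : Subgroup (Hol V) //
        A ≤ (thompsonSubgroup 2 X).map (psi V) ∧ IsBestOffenderOn 2 (Vh V) A} =>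
          (A : Subgroup (Hol V)))
        ⟨A.map (psi V), Subgroup.map_mono (le_sSup hA), bestOffender_map V hV hA⟩
    · exact iSup_le fun A => A.2.1
  have hyH : psi V y ∈ (thompsonSubgroup 2 X).map (psi V) := Subgroup.mem_map_of_mem _ hy
  have hCle : Subgroup.centralizer (V : Set X) ≤
      Subgroup.closure {k : X | IsCompElt V k} ⊔ Subgroup.centralizer (V : Set X) := le_sup_right
  by_cases hH1 : (thompsonSubgroup 2 X).map (psi V) = ⊥
  · rw [hH1, Subgroup.mem_bot] at hyH
    apply hCle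
    rw [← psi_ker, MonoidHom.mem_ker]
    exact hyH
  have hcore := gens_core (Vh V) _ hV' hHV hf hS1 hS3 hH1 (psi V y) hyH
    (Odd.of_dvd_nat hodd (orderOf_map_dvd (psi V) y))
  have hle : Subgroup.closure {s : Hol V | s ∈ (thompsonSubgroup 2 X).map (psi V) ∧ s ≠ 1 ∧
      s ^ 3 = 1 ∧
      (∀ g ∈ (thompsonSubgroup 2 X).map (psi V), g * s * g⁻¹ = s ∨ g * s * g⁻¹ = s⁻¹) ∧
      ∃ W : Subgroup (Hol V), W ≤ Vh V ∧ Nat.card ↥W = 4 ∧
        ∀ v ∈ Vh V, s * v * s⁻¹ * v⁻¹ ∈ W} ≤
      (Subgroup.closure {k : X | IsCompElt V k} ⊔ Subgroup.centralizer (V : Set X)).map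
        (psi V) := by
    rw [Subgroup.closure_le]
    rintro s ⟨hsH, hs1, hs3, hgs, W, hWV, hW4, hWs⟩
    obtain ⟨k, hk, rfl⟩ := hsH
    refine Subgroup.mem_map_of_mem _ ((le_sup_left : Subgroup.closure {k : X | IsCompElt V k} ≤
      _) (Subgroup.subset_closure ?_))
    refine ⟨hk, ?_, ?_, ?_, ?_⟩
    · intro hkC
      apply hs1
      rw [← psi_ker, MonoidHom.mem_ker] at hkC
      exact hkC
    · rw [← psi_ker, MonoidHom.mem_ker, map_pow]
      exact hs3
    · intro g hg
      rcases hgs (psi V g) (Subgroup.mem_map_of_mem _ hg) with h | h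
      · left
        rw [← psi_ker, MonoidHom.mem_ker, map_mul, map_mul, map_mul, map_inv, map_inv, h]
        group
      · right
        rw [← psi_ker, MonoidHom.mem_ker, map_mul, map_mul, map_mul, map_inv, h]
        group
    · refine ⟨(W.comap (SemidirectProduct.inl : ↥V →* Hol V)).map V.subtype, ?_, ?_⟩
      · have e1 : Nat.card ↥((W.comap (SemidirectProduct.inl : ↥V →* Hol V)).map V.subtype) =
            Nat.card ↥(W.comap (SemidirectProduct.inl : ↥V →* Hol V)) :=
          Nat.card_congr ((W.comap (SemidirectProduct.inl : ↥V →* Hol V)).equivMapOfInjective _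
            V.subtype_injective).symm.toEquiv
        have e2 : Nat.card ↥(W.comap (SemidirectProduct.inl : ↥V →* Hol V)) = Nat.card ↥W := by
          apply Nat.card_congr
          refine Equiv.ofBijective
            (fun v : ↥(W.comap (SemidirectProduct.inl : ↥V →* Hol V)) =>
              (⟨SemidirectProduct.inl (v : ↥V), Subgroup.mem_comap.mp v.2⟩ : ↥W)) ⟨?_, ?_⟩
          · intro v1 v2 h12
            have h3 : (SemidirectProduct.inl (v1 : ↥V) : Hol V) =
                SemidirectProduct.inl (v2 : ↥V) := congrArg Subtype.val h12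
            exact Subtype.ext (SemidirectProduct.inl_injective h3)
          · intro w
            obtain ⟨v, hv⟩ := hWV w.2
            refine ⟨⟨v, ?_⟩, ?_⟩
            · rw [Subgroup.mem_comap, hv]
              exact w.2
            · exact Subtype.ext hv
        rw [e1, e2, hW4]
      · intro v hv
        have h1 := hWs (SemidirectProduct.inl (⟨v, hv⟩ : ↥V)) ⟨_, rfl⟩
        rw [psi_conj, ← map_inv, ← map_mul] at h1
        refine ⟨MulAut.conjNormal k (⟨v, hv⟩ : ↥V) * (⟨v, hv⟩ : ↥V)⁻¹, ?_, ?_⟩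
        · exact h1
        · rw [Subgroup.coe_subtype, Subgroup.coe_mul, MulAut.conjNormal_apply, Subgroup.coe_inv]
  obtain ⟨z, hz, hzy⟩ := hle hcore
  have hker : z⁻¹ * y ∈ Subgroup.centralizer (V : Set X) := by
    rw [← psi_ker, MonoidHom.mem_ker, map_mul, map_inv, hzy]
    group
  have : y = z * (z⁻¹ * y) := by group
  rw [this]
  exact Subgroup.mul_mem _ hz (hCle hker)

example : Cfsg.Agent.H51.Sy.StGenS.{u} := genS

end Cfsg.Agent.H13.Sy

#print axioms Cfsg.Agent.H13.Sy.genS
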