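import Mathlib
import Cfsg.Agent.H51.SyDefs
import Cfsg.Agent.H63.SnIfSyl

/-!
# SY-IFGEN (piece of helper51's S2949 project), helper13

Inside `↥L` (`T` Sylow in `L`), `J(T)` is generated by the largest elementary abelian subgroups of
`↥L` that it contains.
-/

set_option autoImplicit false
open Cfsg

namespace Cfsg.Agent.H13.Sy

open Cfsg.Agent.H51.Sy

universe u

/-- **SY-IFGEN**. -/
theorem ifGen : StIfGen.{u} := by
  intro G _ _ T L hL
  obtain ⟨hle, hT2, hodd⟩ := hL
  have hodd' : Odd (T.subgroupOf L).index := hodd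
  apply le_antisymm
  · intro x hx
    rw [Subgroup.mem_subgroupOf] at hx
    unfold thompsonSubgroupOf at hx
    obtain ⟨y, hy, hyx⟩ := hx
    have hxy : x = Subgroup.inclusion hle y := Subtype.ext hyx.symm
    have h1 : thompsonSubgroup 2 ↥T ≤ (Subgroup.closure {a : ↥L | ∃ A : Subgroup ↥L,
        A ∈ maxElementaryAbelianSubgroups 2 ↥L ∧
        A ≤ (thompsonSubgroupOf 2 T).subgroupOf L ∧ a ∈ A}).comap (Subgroup.inclusion hle) := by
      unfold thompsonSubgroup
      refine sSup_le ?_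
      intro A' hA' a ha
      rw [Subgroup.mem_comap]
      refine Subgroup.subset_closure ⟨A'.map (Subgroup.inclusion hle),
        Cfsg.Agent.H63.Sn.maxEA_inclusion T L hle hT2 hodd' A' hA', ?_, ⟨a, ha, rfl⟩⟩
      rintro _ ⟨b, hb, rfl⟩
      rw [Subgroup.mem_subgroupOf]
      unfold thompsonSubgroupOf thompsonSubgroup
      exact ⟨b, (le_sSup hA' : A' ≤ sSup (maxElementaryAbelianSubgroups 2 ↥T)) hb, rfl⟩
    have h2 := h1 hy
    rw [Subgroup.mem_comap] at h2
    rw [hxy]
    exact h2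
  · rw [Subgroup.closure_le]
    rintro a ⟨A, -, hAJ, haA⟩
    exact hAJ haA

example : Cfsg.Agent.H51.Sy.StIfGen.{u} := ifGen

end Cfsg.Agent.H13.Sy

#print axioms Cfsg.Agent.H13.Sy.ifGen
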