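import Mathlib

set_option autoImplicit false
open Pointwise

namespace Cfsg.Agent.H13

/-- the image in `G` of a Sylow subgroup of a Hall subgroup has Sylow order -/
theorem card_sylow_map {G : Type*} [Group G] [Finite G] (H : Subgroup G)
    (hHall : (Nat.card H).Coprime H.index) {p : ℕ} [Fact p.Prime] (hpd : p ∣ Nat.card H)
    (P : Sylow p H) :
    Nat.card ((P : Subgroup H).map H.subtype) = p ^ (Nat.card G).factorization p := by
  rw [Subgroup.card_map_of_injective (Subgroup.subtype_injective _), Sylow.card_eq_multiplicity,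
    ← Subgroup.card_mul_index H, Nat.factorization_mul Nat.card_pos.ne'
      (Subgroup.index_ne_zero_of_finite)]
  have hnd : ¬ p ∣ H.index := by
    intro h
    have := Nat.dvd_gcd hpd h
    rw [Nat.Coprime.gcd_eq_one hHall] at this
    exact (Fact.out : p.Prime).one_lt.ne' (Nat.dvd_one.mp this)
  rw [Finsupp.add_apply, Nat.factorization_eq_zero_of_not_dvd hnd, add_zero]

/-- subgroups of Sylow order are conjugate -/
theorem exists_conj_of_card {G : Type*} [Group G] [Finite G] (p : ℕ) [Fact p.Prime]
    (P₁ P₂ : Subgroup G) (h₁ : Nat.card P₁ = p ^ (Nat.card G).factorization p)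
    (h₂ : Nat.card P₂ = p ^ (Nat.card G).factorization p) :
    ∃ g : G, MulAut.conj g • P₂ = P₁ := by
  obtain ⟨g, hg⟩ := MulAction.exists_smul_eq G (Sylow.ofCard P₂ h₂) (Sylow.ofCard P₁ h₁)
  refine ⟨g, ?_⟩
  have := congrArg (fun S : Sylow p G => (S : Subgroup G)) hg
  simpa [Sylow.coe_subgroup_smul] using this

/-- a `p`-subgroup is conjugate into any subgroup of Sylow order -/
theorem exists_conj_le_of_card {G : Type*} [Group G] [Finite G] (p : ℕ) [Fact p.Prime]
    (P₁ A : Subgroup G) (h₁ : Nat.card P₁ = p ^ (Nat.card G).factorization p)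
    (hA : IsPGroup p A) : ∃ g : G, MulAut.conj g • A ≤ P₁ := by
  obtain ⟨S, hS⟩ := hA.exists_le_sylow
  obtain ⟨g, hg⟩ := MulAction.exists_smul_eq G S (Sylow.ofCard P₁ h₁)
  refine ⟨g, ?_⟩
  have h2 := congrArg (fun S : Sylow p G => (S : Subgroup G)) hg
  have h3 : MulAut.conj g • (S : Subgroup G) = P₁ := by
    simpa [Sylow.coe_subgroup_smul] using h2
  rw [← h3]
  exact Subgroup.pointwise_smul_le_pointwise_smul_iff.mpr hS

theorem le_normalizer_map_normal {G : Type*} [Group G] (H : Subgroup G) (P : Subgroup H)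
    [P.Normal] : H ≤ Subgroup.normalizer ((P.map H.subtype : Subgroup G) : Set G) := by
  have h1 := Subgroup.le_normalizer_map (H := P) H.subtype
  rw [Subgroup.normalizer_eq_top, ← MonoidHom.range_eq_map, Subgroup.range_subtype] at h1
  exact h1

theorem orderOf_dvd_card_of_mem {G : Type*} [Group G] [Finite G] {H : Subgroup G} {a : G}
    (ha : a ∈ H) : orderOf a ∣ Nat.card H := by
  have := orderOf_dvd_natCard (⟨a, ha⟩ : H)
  rwa [Subgroup.orderOf_mk] at this

end Cfsg.Agent.H13
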