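import Cfsg.Agent.H13.D4Graph

/-!
# S2607 (helper96's project, `m = 4` half): graph and field automorphisms of `D₄(F)` commute (helper13)

Light version (D₄-only closure) of S2160 for `chevD4`.
-/

set_option autoImplicit false

namespace Cfsg.Agent.H13.D4N

open Cfsg Cfsg.Lie Cfsg.Agent.H23 Cfsg.Agent.H23.Stb Cfsg.Agent.H78.StbG

universe u

/-- A field automorphism (Prelude predicate) of `D₄(F)` maps `x_r(t)` to `x_r(σ t)`. -/
theorem act_of_isFieldAut (F : Type u) [Field F] (f : ↥(chevD4.group F) ≃* ↥(chevD4.group F))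
    (hf : chevD4.IsFieldAut f) :
    ∃ σ : F ≃+* F, ∀ r < chevD4.nroots, ∀ t : F,
      f (xG (packS_D4 F).hP.sem r t) = xG (packS_D4 F).hP.sem r (σ t) := by
  obtain ⟨σ, hσ⟩ := hf
  exact ⟨σ, fun r hr t => eq_xG _ _ _ _ (hσ (xG (packS_D4 F).hP.sem r t) r t hr rfl)⟩

/-- **Graph and field automorphisms of `D₄(F)` commute.** -/
theorem d4_graph_field_comm (F : Type u) [Field F] (g f : ↥(chevD4.group F) ≃* ↥(chevD4.group F))
    (hg : chevD4.IsGraphAut g) (hf : chevD4.IsFieldAut f) (y : ↥(chevD4.group F)) :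
    g (f y) = f (g y) := by
  have hS : Sem chevD4 F zD4 := (packS_D4 F).hP.sem
  have hT := (packS_D4 F).hP.tab
  obtain ⟨L, hLmem, hL⟩ := actS_of_isGraphAut F g hg
  obtain ⟨σ, hσ⟩ := act_of_isFieldAut F f hf
  have hLlt : ∀ i < chevD4.rank, L.getD i 0 < chevD4.rank := by
    have h6 : ∀ L ∈ [[0, 1, 2, 3], [0, 1, 3, 2], [2, 1, 0, 3], [3, 1, 2, 0], [2, 1, 3, 0], [3, 1, 0, 2]],
        ∀ i < chevD4.rank, L.getD i 0 < chevD4.rank := by decide
    exact h6 L hLmem
  have key : (f.trans g).toMonoidHom = (g.trans f).toMonoidHom := by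
    apply hom_ext_fundG hS (packS_D4 F).hP.semN hT
    intro w i t hi hw
    rcases hw with hw | hw
    · rw [eq_xG hS w _ t hw]
      show g (f _) = f (g _)
      rw [hσ _ (hT.simple_lt i hi) t, (hL i hi (σ t)).1, (hL i hi t).1,
        hσ _ (hT.simple_lt _ (hLlt i hi)) t]
    · rw [eq_xG hS w _ t hw]
      show g (f _) = f (g _)
      rw [hσ _ (hT.neg_lt _ (hT.simple_lt i hi)) t, (hL i hi (σ t)).2, (hL i hi t).2,
        hσ _ (hT.neg_lt _ (hT.simple_lt _ (hLlt i hi))) t]
  exact congrArg (fun φ : ↥(chevD4.group F) →* ↥(chevD4.group F) => φ y) key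

/-- The same statement in `MulAut`. -/
theorem d4_graph_field_commute (F : Type u) [Field F] (g f : MulAut ↥(chevD4.group F))
    (hg : chevD4.IsGraphAut g) (hf : chevD4.IsFieldAut f) : g * f = f * g := by
  apply MulEquiv.ext
  intro y
  exact d4_graph_field_comm F g f hg hf y

end Cfsg.Agent.H13.D4N

#print axioms Cfsg.Agent.H13.D4N.d4_graph_field_commute
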