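import Cfsg.Agent.H13.CopHH9

/-!
# Bender–Glauberman 3.7 (core): `[x, K] ≤ F(K)` when `C_{F(K)}(x) = 1`
-/

set_option autoImplicit false
set_option linter.style.haveILetI false
set_option linter.unusedVariables false
set_option linter.unusedSectionVars false

namespace Cfsg.Agent.H13.CopHH

open Cfsg Cfsg.Agent.H13.FitInt

universe u

variable {G : Type u} [Group G] [Finite G]

/-- `K ⊴ G` solvable of odd order prime to `r`, `x ^ r = 1` (`r` an odd prime),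
`C_{F(K)}(x) = 1`.  Then `[x, K] ≤ F(K)`. -/
theorem comm_mem_fittingOf (r : ℕ) [hrf : Fact r.Prime] (hr2 : r ≠ 2)
    (K : Subgroup G) [hKn : K.Normal] [hKs : Group.IsSolvable K]
    (hKodd : Odd (Nat.card K)) (hKr : (Nat.card K).Coprime r) (x : G) (hxr : x ^ r = 1)
    (hCF : Cfsg.fittingOf K ⊓ Subgroup.centralizer {x} = ⊥) :
    ∀ k ∈ K, x * k * x⁻¹ * k⁻¹ ∈ Cfsg.fittingOf K := by
  classical
  have hr : r.Prime := hrf.out
  obtain ⟨F, hF⟩ : ∃ F : Subgroup G, F = Cfsg.fittingOf K := ⟨_, rfl⟩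
  haveI hFn : F.Normal := by rw [hF]; infer_instance
  have hFK : F ≤ K := by rw [hF]; exact fittingOf_le K
  obtain ⟨π, hπ⟩ : ∃ π : G →* G ⧸ F, π = QuotientGroup.mk' F := ⟨_, rfl⟩
  have hπker : ∀ g, π g = 1 ↔ g ∈ F := by
    intro g; rw [hπ]; exact QuotientGroup.eq_one_iff g
  have hπsurj : Function.Surjective π := by rw [hπ]; exact QuotientGroup.mk'_surjective F
  obtain ⟨Kb, hKb⟩ : ∃ Kb : Subgroup (G ⧸ F), Kb = K.map π := ⟨_, rfl⟩
  haveI hKbn : Kb.Normal := by rw [hKb]; exact Subgroup.Normal.map hKn π hπsurj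
  haveI hKbs : Group.IsSolvable Kb := by
    rw [hKb]
    exact Group.isSolvable_of_surjective (f := π.subgroupMap K) (π.subgroupMap_surjective K)
  -- Step 1: `π x` centralises `O_q(K / F)` for every prime `q`
  have hstep1 : ∀ q : Nat.Primes, opInt (q : ℕ) Kb ≤ Subgroup.centralizer {π x} := by
    intro q
    haveI : Fact (q : ℕ).Prime := ⟨q.2⟩
    obtain ⟨N, hN⟩ : ∃ N : Subgroup G, N = (opInt (q : ℕ) Kb).comap π := ⟨_, rfl⟩
    haveI hNn : N.Normal := by rw [hN]; infer_instance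
    have hFN : F ≤ N := by
      intro f hf
      rw [hN, Subgroup.mem_comap, (hπker f).mpr hf]; exact Subgroup.one_mem _
    have hNK : N ≤ K := by
      intro n hn
      rw [hN, Subgroup.mem_comap] at hn
      have h1 : π n ∈ Kb := opInt_le _ Kb hn
      rw [hKb] at h1
      obtain ⟨k, hk, hkn⟩ := h1
      have h2 : k⁻¹ * n ∈ F := by rw [← hπker, map_mul, map_inv, hkn, inv_mul_cancel]
      have h3 := K.mul_mem hk (hFK h2)
      rwa [mul_inv_cancel_left] at h3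
    have hNq : ∀ n ∈ N, ∃ k : ℕ, n ^ ((q : ℕ) ^ k) ∈ F := by
      intro n hn
      rw [hN, Subgroup.mem_comap] at hn
      obtain ⟨k, hk⟩ := (opInt_isPGroup (q : ℕ) Kb) ⟨π n, hn⟩
      refine ⟨k, ?_⟩
      rw [← hπker, map_pow]
      have h4 := congrArg Subtype.val hk
      rw [Subgroup.coe_pow] at h4
      exact h4
    rw [hF] at hFN hNq
    have hB := comm_mem_fitting_of_quot_pgroup r hr2 K hKodd hKr x hxr hCF (q : ℕ) N hFN hNK hNq
    intro y hy
    obtain ⟨n, rfl⟩ := hπsurj y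
    have hn : n ∈ N := by rw [hN]; exact hy
    have h1 := hB n hn
    rw [← hF, ← hπker] at h1
    simp only [map_mul, map_inv] at h1
    rw [Subgroup.mem_centralizer_iff]
    intro z hz
    rw [Set.mem_singleton_iff] at hz
    rw [hz]
    calc π x * π n = (π x * π n * (π x)⁻¹ * (π n)⁻¹) * (π n * π x) := by group
      _ = π n * π x := by rw [h1, one_mul]
  -- Step 2: `π x` centralises `F(K / F)`
  have hstep2 : Cfsg.fittingOf Kb ≤ Subgroup.centralizer {π x} := by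
    rw [fittingOf_eq_iSup]; exact iSup_le hstep1
  -- Step 3
  intro k hk
  rw [← hF, ← hπker]
  simp only [map_mul, map_inv]
  obtain ⟨X, hX⟩ : ∃ X : G ⧸ F, X = π x := ⟨_, rfl⟩
  obtain ⟨kb, hkb⟩ : ∃ kb : G ⧸ F, kb = π k := ⟨_, rfl⟩
  rw [← hX, ← hkb]
  have hkbK : kb ∈ Kb := by rw [hkb, hKb]; exact Subgroup.mem_map_of_mem π hk
  have hXr : X ^ r = 1 := by rw [hX, ← map_pow, hxr, map_one]
  obtain ⟨c, hc⟩ : ∃ c : G ⧸ F, c = X * kb * X⁻¹ * kb⁻¹ := ⟨_, rfl⟩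
  rw [← hc]
  have hcK : c ∈ Kb := by
    rw [hc]; exact Kb.mul_mem (hKbn.conj_mem kb hkbK X) (Kb.inv_mem hkbK)
  have hF₂n : (Cfsg.fittingOf Kb).Normal := inferInstance
  have hXF₂ : ∀ f ∈ Cfsg.fittingOf Kb, X * f = f * X := by
    intro f hf
    have h1 := (Subgroup.mem_centralizer_iff.mp (hstep2 hf)) (π x) (Set.mem_singleton _)
    rw [hX]; exact h1
  have hcc : c ∈ Subgroup.centralizer (Cfsg.fittingOf Kb : Set (G ⧸ F)) := by
    rw [Subgroup.mem_centralizer_iff]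
    intro f hf
    have h1 : kb⁻¹ * f * kb ∈ Cfsg.fittingOf Kb := by
      have h0 := hF₂n.conj_mem f hf kb⁻¹
      rwa [inv_inv] at h0
    have h2 := hXF₂ _ h1
    have h3 := hXF₂ f hf
    have h4 : X⁻¹ * (kb⁻¹ * f * kb) = (kb⁻¹ * f * kb) * X⁻¹ := by
      calc X⁻¹ * (kb⁻¹ * f * kb) = X⁻¹ * ((kb⁻¹ * f * kb) * X) * X⁻¹ := by group
        _ = X⁻¹ * (X * (kb⁻¹ * f * kb)) * X⁻¹ := by rw [h2]
        _ = (kb⁻¹ * f * kb) * X⁻¹ := by group
    rw [hc]
    calc f * (X * kb * X⁻¹ * kb⁻¹) = (f * X) * kb * X⁻¹ * kb⁻¹ := by group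
      _ = (X * f) * kb * X⁻¹ * kb⁻¹ := by rw [h3]
      _ = X * kb * ((kb⁻¹ * f * kb) * X⁻¹) * kb⁻¹ := by group
      _ = X * kb * (X⁻¹ * (kb⁻¹ * f * kb)) * kb⁻¹ := by rw [h4]
      _ = X * kb * X⁻¹ * kb⁻¹ * f := by group
  have hcF₂ : c ∈ Cfsg.fittingOf Kb :=
    centralizer_fittingOf_le Kb (Subgroup.mem_inf.mpr ⟨hcK, hcc⟩)
  have hXc : X * c = c * X := hXF₂ c hcF₂
  have hiter : ∀ i : ℕ, X ^ i * kb * (X ^ i)⁻¹ = c ^ i * kb := by
    intro i
    induction i with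
    | zero => simp
    | succ i ih =>
      have hXci : X * c ^ i = c ^ i * X := (Commute.pow_right (show Commute X c from hXc) i).eq
      calc X ^ (i + 1) * kb * (X ^ (i + 1))⁻¹ = X * (X ^ i * kb * (X ^ i)⁻¹) * X⁻¹ := by
            rw [pow_succ']; group
        _ = X * (c ^ i * kb) * X⁻¹ := by rw [ih]
        _ = (X * c ^ i) * (kb * X⁻¹) := by group
        _ = c ^ i * X * (kb * X⁻¹) := by rw [hXci]
        _ = c ^ i * (X * kb * X⁻¹ * kb⁻¹) * kb := by group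
        _ = c ^ (i + 1) * kb := by rw [← hc, ← pow_succ]
  have hcr : c ^ r = 1 := by
    have h1 := hiter r
    rw [hXr, one_mul, inv_one, mul_one] at h1
    exact mul_eq_right.mp h1.symm
  have hKbcard : Nat.card Kb ∣ Nat.card K := by rw [hKb]; exact Subgroup.card_map_dvd K π
  have hcop : (Nat.card Kb).Coprime r := Nat.Coprime.coprime_dvd_left hKbcard hKr
  have hc2 : c ^ Nat.card Kb = 1 := by
    have h5 : (⟨c, hcK⟩ : ↥Kb) ^ Nat.card Kb = 1 := pow_card_eq_one'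
    have h6 := congrArg Subtype.val h5
    rw [Subgroup.coe_pow] at h6
    exact h6
  have ho : orderOf c = 1 := Nat.eq_one_of_dvd_coprimes hcop (orderOf_dvd_of_pow_eq_one hc2)
    (orderOf_dvd_of_pow_eq_one hcr)
  exact orderOf_eq_one_iff.mp ho

end Cfsg.Agent.H13.CopHH
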