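import Mathlib
import Cfsg.Prelude.Def_OddOrderLocal
import Cfsg.Agent.H13.PCore
import Cfsg.Agent.H1.Fitting
import Cfsg.Agent.H1.HallHigman

/-!
# The Fitting subgroup and `O_p` of a normal subgroup, as subgroups of the ambient group
-/

set_option autoImplicit false
set_option linter.style.haveILetI false
set_option linter.unusedVariables false
set_option linter.unusedSectionVars false

namespace Cfsg.Agent.H13.FitInt

open Cfsg

universe u

variable {G : Type u} [Group G]

theorem pCore_char (p : ℕ) (K : Type*) [Group K] : (Cfsg.pCore p K).Characteristic := by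
  rw [Subgroup.characteristic_iff_map_le]
  intro ϕ
  exact Cfsg.Agent.H13.le_pCore ((Cfsg.Agent.H13.pCore_normal p K).map ϕ.toMonoidHom ϕ.surjective)
    ((Cfsg.Agent.H13.pCore_isPGroup p K).map ϕ.toMonoidHom)

/-- `O_p(K)` as a subgroup of `G`. -/
def opInt (p : ℕ) (K : Subgroup G) : Subgroup G := (Cfsg.pCore p ↥K).map K.subtype

theorem opInt_le (p : ℕ) (K : Subgroup G) : opInt p K ≤ K := Subgroup.map_subtype_le _

theorem opInt_isPGroup (p : ℕ) (K : Subgroup G) : IsPGroup p (opInt p K) :=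
  (Cfsg.Agent.H13.pCore_isPGroup p ↥K).map K.subtype

instance opInt_normal (p : ℕ) (K : Subgroup G) [K.Normal] : (opInt p K).Normal := by
  haveI := pCore_char p ↥K
  show ((Cfsg.pCore p ↥K).map K.subtype).Normal
  infer_instance

theorem le_opInt (p : ℕ) (K N : Subgroup G) [hN : N.Normal] (hNK : N ≤ K) (hNp : IsPGroup p N) :
    N ≤ opInt p K := by
  have h1 : N.subgroupOf K ≤ Cfsg.pCore p ↥K :=
    Cfsg.Agent.H13.le_pCore (Subgroup.normal_subgroupOf) (hNp.comap_subtype)
  have h2 := Subgroup.map_mono (f := K.subtype) h1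
  rw [Subgroup.map_subgroupOf_eq_of_le hNK] at h2
  exact h2

theorem fittingOf_le (K : Subgroup G) : Cfsg.fittingOf K ≤ K := Subgroup.map_subtype_le _

theorem fittingOf_eq_iSup [Finite G] (K : Subgroup G) :
    Cfsg.fittingOf K = ⨆ p : Nat.Primes, opInt (p : ℕ) K := by
  unfold Cfsg.fittingOf
  rw [Cfsg.Agent.H1.fitting_eq_iSup_pCore, Subgroup.map_iSup]
  rfl

instance fittingOf_normal [Finite G] (K : Subgroup G) [K.Normal] : (Cfsg.fittingOf K).Normal := by
  rw [fittingOf_eq_iSup]
  infer_instance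

theorem le_fittingOf (K N : Subgroup G) [hN : N.Normal] (hNK : N ≤ K)
    (hnil : Group.IsNilpotent N) : N ≤ Cfsg.fittingOf K := by
  haveI : (N.subgroupOf K).Normal := Subgroup.normal_subgroupOf
  have hnil' : Group.IsNilpotent (N.subgroupOf K) :=
    (Group.isNilpotent_congr (Subgroup.subgroupOfEquivOfLe hNK)).mpr hnil
  have h1 : N.subgroupOf K ≤ Cfsg.fittingSubgroup ↥K := Cfsg.Agent.H1.le_fitting _ hnil'
  have h2 := Subgroup.map_mono (f := K.subtype) h1
  rw [Subgroup.map_subgroupOf_eq_of_le hNK] at h2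
  exact h2

theorem centralizer_fittingOf_le [Finite G] (K : Subgroup G) [hK : Group.IsSolvable K] :
    K ⊓ Subgroup.centralizer (Cfsg.fittingOf K : Set G) ≤ Cfsg.fittingOf K := by
  intro k hk
  obtain ⟨hkK, hkc⟩ := Subgroup.mem_inf.mp hk
  have h1 : (⟨k, hkK⟩ : ↥K) ∈ Subgroup.centralizer (Cfsg.fittingSubgroup ↥K : Set ↥K) := by
    rw [Subgroup.mem_centralizer_iff]
    intro f hf
    apply Subtype.ext
    rw [Subgroup.coe_mul, Subgroup.coe_mul]
    exact (Subgroup.mem_centralizer_iff.mp hkc) (f : G) ⟨f, hf, rfl⟩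
  have h2 := Cfsg.Agent.H1.centralizer_fitting_le h1
  exact ⟨⟨k, hkK⟩, h2, rfl⟩

end Cfsg.Agent.H13.FitInt
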