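import Mathlib
import Cfsg.Prelude.Def_SolvableStructure
import Cfsg.Agent.H1.Basic
import Cfsg.Agent.H1.MinNormal
import Cfsg.Agent.H12.Basic
import Cfsg.Agent.H12.Index
import Cfsg.Agent.H13.HallAux

/-!
# Carter subgroups of finite solvable groups: conjugacy (helper13)
-/

set_option autoImplicit false
set_option linter.style.haveILetI false
open Pointwise

namespace Cfsg.Agent.H13

universe u

section Basic

variable {G : Type*} [Group G]

/-- `C` is a Carter subgroup of the subgroup `X` (stated inside `G`). -/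
def CarterIn (X C : Subgroup G) : Prop :=
  C ≤ X ∧ Group.IsNilpotent C ∧ ∀ x ∈ X, x ∈ Subgroup.normalizer (C : Set G) → x ∈ C

theorem carterIn_of_isCarter {X C : Subgroup G} (hC : Cfsg.IsCarterSubgroup C) (h : C ≤ X) :
    CarterIn X C :=
  ⟨h, hC.1, fun x _ hx => by rw [hC.2] at hx; exact hx⟩

theorem isCarter_of_carterIn_top {C : Subgroup G} (hC : CarterIn ⊤ C) :
    Cfsg.IsCarterSubgroup C :=
  ⟨hC.2.1, le_antisymm (fun x hx => hC.2.2 x (Subgroup.mem_top x) hx) Subgroup.le_normalizer⟩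

theorem carterIn_iff_subgroupOf {X C : Subgroup G} (h : C ≤ X) :
    CarterIn X C ↔ Cfsg.IsCarterSubgroup (C.subgroupOf X) := by
  have e := Subgroup.subgroupOfEquivOfLe h
  constructor
  · rintro ⟨-, hnil, hn⟩
    refine ⟨?_, ?_⟩
    · haveI := hnil
      exact Group.nilpotent_of_mulEquiv e.symm
    · rw [← Subgroup.subgroupOf_normalizer_eq h]
      ext x
      rw [Subgroup.mem_subgroupOf, Subgroup.mem_subgroupOf]
      exact ⟨fun hx => hn x x.2 hx, fun hx => Subgroup.le_normalizer hx⟩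
  · rintro ⟨hnil, hn⟩
    refine ⟨h, ?_, ?_⟩
    · haveI := hnil
      exact Group.nilpotent_of_mulEquiv e
    · intro x hxX hx
      rw [← Subgroup.subgroupOf_normalizer_eq h] at hn
      have h1 : (⟨x, hxX⟩ : X) ∈ (Subgroup.normalizer (C : Set G)).subgroupOf X := by
        rw [Subgroup.mem_subgroupOf]; exact hx
      rw [hn, Subgroup.mem_subgroupOf] at h1
      exact h1

theorem normalizer_conj_smul (g : G) (C : Subgroup G) :
    Subgroup.normalizer ((MulAut.conj g • C : Subgroup G) : Set G) =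
      MulAut.conj g • Subgroup.normalizer (C : Set G) := by
  apply le_antisymm
  · have h1 := Cfsg.Agent.H1.conj_smul_le_normalizer g⁻¹
      (Subgroup.normalizer ((MulAut.conj g • C : Subgroup G) : Set G)) (MulAut.conj g • C) le_rfl
    rw [Cfsg.Agent.H1.conj_inv_smul_conj_smul] at h1
    have h2 : MulAut.conj g • (MulAut.conj g⁻¹ •
        Subgroup.normalizer ((MulAut.conj g • C : Subgroup G) : Set G)) ≤
        MulAut.conj g • Subgroup.normalizer (C : Set G) := by
      intro x hx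
      rw [Cfsg.Agent.H1.mem_conj_smul_iff] at hx ⊢
      exact h1 hx
    rwa [Cfsg.Agent.H1.conj_smul_conj_inv_smul] at h2
  · exact Cfsg.Agent.H1.conj_smul_le_normalizer g _ C le_rfl

theorem isCarter_conj {C : Subgroup G} (hC : Cfsg.IsCarterSubgroup C) (g : G) :
    Cfsg.IsCarterSubgroup (MulAut.conj g • C) := by
  refine ⟨?_, ?_⟩
  · haveI := hC.1
    exact Group.nilpotent_of_mulEquiv (Subgroup.equivSMul (MulAut.conj g) C)
  · rw [normalizer_conj_smul, hC.2]

/-- conjugacy of Carter subgroups inside `X` -/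
def ConjIn (X : Subgroup G) : Prop :=
  ∀ C₁ C₂ : Subgroup G, CarterIn X C₁ → CarterIn X C₂ → ∃ x ∈ X, MulAut.conj x • C₁ = C₂

/-- conjugacy of Carter subgroups of a group -/
def ConjAll (G : Type*) [Group G] : Prop :=
  ∀ C₁ C₂ : Subgroup G, Cfsg.IsCarterSubgroup C₁ → Cfsg.IsCarterSubgroup C₂ →
    ∃ g : G, MulAut.conj g • C₁ = C₂

theorem conjIn_of_conjAll (X : Subgroup G) (h : ConjAll ↥X) : ConjIn X := by
  intro C₁ C₂ h₁ h₂
  obtain ⟨x, hx⟩ := h _ _ ((carterIn_iff_subgroupOf h₁.1).mp h₁)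
    ((carterIn_iff_subgroupOf h₂.1).mp h₂)
  exact ⟨x, x.2, Cfsg.Agent.H1.conj_smul_eq_of_subgroupOf h₁.1 h₂.1 x hx⟩

/-- The image of a Carter subgroup in a quotient is a Carter subgroup, provided Carter subgroups
of `C ⊔ N` are conjugate. -/
theorem isCarter_map_of_conjIn (N : Subgroup G) [N.Normal] (C : Subgroup G)
    (hC : Cfsg.IsCarterSubgroup C) (hconj : C ⊔ N = ⊤ ∨ ConjIn (C ⊔ N)) :
    Cfsg.IsCarterSubgroup (C.map (QuotientGroup.mk' N)) := by
  refine ⟨?_, le_antisymm ?_ Subgroup.le_normalizer⟩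
  · haveI := hC.1
    exact Group.nilpotent_of_surjective ((QuotientGroup.mk' N).subgroupMap C)
      ((QuotientGroup.mk' N).subgroupMap_surjective C)
  · intro xb hxb
    obtain ⟨x, rfl⟩ := QuotientGroup.mk'_surjective N xb
    have h6 : x ∈ C ⊔ N := by
      rcases hconj with htop | hconj
      · rw [htop]; exact Subgroup.mem_top x
      have h1 : (MulAut.conj x • C).map (QuotientGroup.mk' N) = C.map (QuotientGroup.mk' N) := by
        rw [Cfsg.Agent.H1.map_conj_smul]
        exact (Cfsg.Agent.H1.mem_normalizer_iff_conj_smul _ _).mp hxb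
      have h2 := congrArg (Subgroup.comap (QuotientGroup.mk' N)) h1
      rw [Subgroup.comap_map_eq, Subgroup.comap_map_eq, QuotientGroup.ker_mk'] at h2
      have h3 : MulAut.conj x • C ≤ C ⊔ N := h2 ▸ le_sup_left
      obtain ⟨y, hy, hyx⟩ := hconj C (MulAut.conj x • C) (carterIn_of_isCarter hC le_sup_left)
        (carterIn_of_isCarter (isCarter_conj hC x) h3)
      have h4 : MulAut.conj (y⁻¹ * x) • C = C := by
        rw [Cfsg.Agent.H1.conj_mul_smul, ← hyx, Cfsg.Agent.H1.conj_inv_smul_conj_smul]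
      have h5 : y⁻¹ * x ∈ C := by
        have := (Cfsg.Agent.H1.mem_normalizer_iff_conj_smul _ _).mpr h4
        rwa [hC.2] at this
      have e : x = y * (y⁻¹ * x) := by group
      rw [e]
      exact Subgroup.mul_mem _ hy (Subgroup.mem_sup_left h5)
    obtain ⟨c, hc, n, hn, rfl⟩ := Subgroup.mem_sup_of_normal_right.mp h6
    refine ⟨c, hc, ?_⟩
    rw [map_mul]
    have : QuotientGroup.mk' N n = 1 := (QuotientGroup.eq_one_iff n).mpr hn
    rw [this, mul_one]

/-- The Sylow `q`-subgroup of a nilpotent subgroup `C` with `C ⊔ N = ⊤`, `N` a normal `p`-group,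
`q ≠ p`, is a Sylow subgroup of `G` normalized by `C`. -/
theorem exists_sylow_of_sup_eq_top [Finite G] {p q : ℕ} [Fact p.Prime] [Fact q.Prime]
    (hqp : q ≠ p) (N C : Subgroup G) [N.Normal] (hN : IsPGroup p N) (hC : Group.IsNilpotent C)
    (hCN : C ⊔ N = ⊤) (T : Sylow q C) :
    ∃ S : Sylow q G, (S : Subgroup G) = (T : Subgroup C).map C.subtype ∧
      C ≤ Subgroup.normalizer ((S : Subgroup G) : Set G) := by
  have hidx : ¬ q ∣ ((T : Subgroup C).map C.subtype).index := by
    rw [Subgroup.index_map_subtype]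
    have h1 : ¬ q ∣ (T : Subgroup C).index := T.not_dvd_index
    have h2 : C.index ∣ Nat.card N := by
      have h3 : C.relIndex (C ⊔ N) = C.relIndex N :=
        Cfsg.Agent.H12.relIndex_sup_eq_relIndex_of_normal C N
      rw [hCN, Subgroup.relIndex_top_right] at h3
      rw [h3]; exact Subgroup.relIndex_dvd_card C N
    obtain ⟨k, hk⟩ := IsPGroup.iff_card.mp hN
    rw [hk] at h2
    intro hdvd
    rcases (Nat.Prime.dvd_mul Fact.out).mp hdvd with h | h
    · exact h1 h
    · have h4 : q ∣ p := Nat.Prime.dvd_of_dvd_pow Fact.out (h.trans h2)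
      exact hqp ((Nat.prime_dvd_prime_iff_eq Fact.out Fact.out).mp h4)
  refine ⟨(T.isPGroup'.map C.subtype).toSylow hidx, rfl, ?_⟩
  haveI := hC
  exact le_normalizer_map_normal C (T : Subgroup C)

end Basic

/-- Conjugacy of Carter subgroups of finite solvable groups. -/
theorem conjAll_aux (n : ℕ) : ∀ (G : Type u) [Group G] [Finite G] [Group.IsSolvable G],
    Nat.card G = n → ConjAll G := by
  induction n using Nat.strong_induction_on with
  | _ n ih =>
  intro G _ _ _ hn C₁ C₂ h₁ h₂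
  rcases subsingleton_or_nontrivial G with hsub | hnt
  · refine ⟨1, ?_⟩
    ext x
    have : x = 1 := Subsingleton.elim _ _
    subst this
    simp
  have hsub : ∀ X : Subgroup G, X ≠ ⊤ → ConjIn X := by
    intro X hX
    apply conjIn_of_conjAll
    refine ih (Nat.card X) ?_ ↥X rfl
    rw [← hn, ← Subgroup.card_top (G := G)]
    exact Cfsg.Agent.H1.card_lt_card_of_lt (lt_top_iff_ne_top.mpr hX)
  obtain ⟨N, hNn, hN1, hNmin⟩ := Cfsg.Agent.H1.exists_minimal_normal (G := G)
  haveI := hNn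
  obtain ⟨p, hp, hNpg⟩ := Cfsg.Agent.H1.minimal_normal_isPGroup N hN1 hNmin
  haveI : Fact p.Prime := ⟨hp⟩
  have himg : ∀ C : Subgroup G, Cfsg.IsCarterSubgroup C →
      Cfsg.IsCarterSubgroup (C.map (QuotientGroup.mk' N)) := by
    intro C hC
    apply isCarter_map_of_conjIn N C hC
    by_cases hCN : C ⊔ N = ⊤
    · exact Or.inl hCN
    · exact Or.inr (hsub _ hCN)
  have hcardQ : Nat.card (G ⧸ N) < n := by
    rw [← hn]; exact Cfsg.Agent.H12.card_quotient_lt_of_ne_bot N hN1
  obtain ⟨gb, hgb⟩ := ih _ hcardQ (G ⧸ N) rfl _ _ (himg C₁ h₁) (himg C₂ h₂)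
  obtain ⟨g, rfl⟩ := QuotientGroup.mk'_surjective N gb
  have hX : MulAut.conj g • C₁ ⊔ N = C₂ ⊔ N := by
    rw [← Cfsg.Agent.H1.map_conj_smul] at hgb
    have := congrArg (Subgroup.comap (QuotientGroup.mk' N)) hgb
    rwa [Subgroup.comap_map_eq, Subgroup.comap_map_eq, QuotientGroup.ker_mk'] at this
  suffices h : ∃ y, MulAut.conj y • (MulAut.conj g • C₁) = C₂ by
    obtain ⟨y, hy⟩ := h
    exact ⟨y * g, by rw [Cfsg.Agent.H1.conj_mul_smul]; exact hy⟩
  have h₁' := isCarter_conj h₁ g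
  obtain ⟨C₁', hC₁'⟩ : ∃ C₁' : Subgroup G, C₁' = MulAut.conj g • C₁ := ⟨_, rfl⟩
  rw [← hC₁'] at hX h₁' ⊢
  by_cases hXtop : C₂ ⊔ N = ⊤
  swap
  · obtain ⟨x, -, hx⟩ := hsub _ hXtop C₁' C₂ (carterIn_of_isCarter h₁' (hX ▸ le_sup_left))
      (carterIn_of_isCarter h₂ le_sup_left)
    exact ⟨x, hx⟩
  have hX1 : C₁' ⊔ N = ⊤ := hX.trans hXtop
  by_cases hA : ∃ (q : ℕ) (_ : Fact q.Prime), q ≠ p ∧ ∃ T : Sylow q C₁',
      ¬ ((T : Subgroup C₁').map C₁'.subtype).Normal
  · obtain ⟨q, hqF, hqp, T₁, hT₁⟩ := hA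
    obtain ⟨S₁, hS₁, hCS₁⟩ := exists_sylow_of_sup_eq_top hqp N C₁' hNpg h₁'.1 hX1 T₁
    obtain ⟨T₂⟩ : Nonempty (Sylow q C₂) := inferInstance
    obtain ⟨S₂, hS₂, hCS₂⟩ := exists_sylow_of_sup_eq_top hqp N C₂ hNpg h₂.1 hXtop T₂
    obtain ⟨g', hg'⟩ := MulAction.exists_smul_eq G S₁ S₂
    have hg'' : MulAut.conj g' • (S₁ : Subgroup G) = S₂ := by
      have := congrArg (fun S : Sylow q G => (S : Subgroup G)) hg'
      simpa [Sylow.coe_subgroup_smul] using this
    have hM : Subgroup.normalizer ((S₂ : Subgroup G) : Set G) ≠ ⊤ := by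
      intro htop
      apply hT₁
      have hn2 : (S₂ : Subgroup G).Normal := Subgroup.normalizer_eq_top_iff.mp htop
      have h3 : (S₁ : Subgroup G) = S₂ := by
        have h4 := congrArg (fun X : Subgroup G => MulAut.conj g'⁻¹ • X) hg''
        simp only [Cfsg.Agent.H1.conj_inv_smul_conj_smul] at h4
        rw [h4]
        exact Subgroup.Normal.conj_smul_eq_self g'⁻¹ (S₂ : Subgroup G)
      rw [← hS₁, h3]; exact hn2
    have hc1 : MulAut.conj g' • C₁' ≤ Subgroup.normalizer ((S₂ : Subgroup G) : Set G) := by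
      rw [← hg'']; exact Cfsg.Agent.H1.conj_smul_le_normalizer g' C₁' S₁ hCS₁
    obtain ⟨m, -, hm⟩ := hsub _ hM (MulAut.conj g' • C₁') C₂
      (carterIn_of_isCarter (isCarter_conj h₁' g') hc1) (carterIn_of_isCarter h₂ hCS₂)
    exact ⟨m * g', by rw [Cfsg.Agent.H1.conj_mul_smul]; exact hm⟩
  · -- all Sylow subgroups of `G` are normal, so `G` is nilpotent
    have hB : ∀ (q : ℕ) (_ : Fact q.Prime), q ≠ p → ∀ T : Sylow q C₁',
        ((T : Subgroup C₁').map C₁'.subtype).Normal := by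
      intro q hqF hqp T
      by_contra hcon
      exact hA ⟨q, hqF, hqp, T, hcon⟩
    haveI hQnil : Group.IsNilpotent (G ⧸ N) := by
      haveI := h₁'.1
      apply Group.nilpotent_of_surjective ((QuotientGroup.mk' N).comp C₁'.subtype)
      intro qb
      obtain ⟨x, rfl⟩ := QuotientGroup.mk'_surjective N qb
      have hx : x ∈ C₁' ⊔ N := hX1 ▸ Subgroup.mem_top x
      obtain ⟨c, hc, n', hn', rfl⟩ := Subgroup.mem_sup_of_normal_right.mp hx
      refine ⟨⟨c, hc⟩, ?_⟩
      rw [MonoidHom.comp_apply, Subgroup.coe_subtype, map_mul]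
      have : QuotientGroup.mk' N n' = 1 := (QuotientGroup.eq_one_iff n').mpr hn'
      rw [this, mul_one]
    have hGnil : Group.IsNilpotent G := by
      refine (Group.isNilpotent_of_finite_tfae.out 0 3 rfl rfl).mpr ?_
      intro q hqF S
      by_cases hqp : q = p
      · subst hqp
        have hNS : N ≤ (S : Subgroup G) := hNpg.le_sylow_of_normal S
        have hn : ((S.mapSurjective (QuotientGroup.mk'_surjective N) :
            Sylow q (G ⧸ N)) : Subgroup (G ⧸ N)).Normal := inferInstance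
        rw [Sylow.coe_mapSurjective] at hn
        have h2 : (((S : Subgroup G).map (QuotientGroup.mk' N)).comap
            (QuotientGroup.mk' N)).Normal := Subgroup.Normal.comap hn _
        rw [Subgroup.comap_map_eq, QuotientGroup.ker_mk', sup_eq_left.mpr hNS] at h2
        exact h2
      · obtain ⟨T⟩ : Nonempty (Sylow q C₁') := inferInstance
        obtain ⟨S₁, hS₁, -⟩ := exists_sylow_of_sup_eq_top hqp N C₁' hNpg h₁'.1 hX1 T
        have hn1 : (S₁ : Subgroup G).Normal := hS₁ ▸ hB q hqF hqp T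
        obtain ⟨g', hg'⟩ := MulAction.exists_smul_eq G S₁ S
        have hg'' : MulAut.conj g' • (S₁ : Subgroup G) = S := by
          have := congrArg (fun S : Sylow q G => (S : Subgroup G)) hg'
          simpa [Sylow.coe_subgroup_smul] using this
        rw [← hg'', Subgroup.Normal.conj_smul_eq_self g' (S₁ : Subgroup G)]
        exact hn1
    have hnc := (normalizerCondition_iff_only_full_group_self_normalizing (G := G)).mp
      Group.normalizerCondition_of_isNilpotent
    refine ⟨1, ?_⟩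
    rw [hnc C₁' h₁'.2, hnc C₂ h₂.2, Cfsg.Agent.H1.conj_one_smul]

section Main

variable {G : Type u} [Group G] [Finite G] [Group.IsSolvable G]

/-- Carter subgroups of a finite solvable group are conjugate. -/
theorem isCarter_conj_exists (C₁ C₂ : Subgroup G) (h₁ : Cfsg.IsCarterSubgroup C₁)
    (h₂ : Cfsg.IsCarterSubgroup C₂) : ∃ g : G, MulAut.conj g • C₁ = C₂ :=
  conjAll_aux _ G rfl C₁ C₂ h₁ h₂

theorem conjIn_of_solvable (X : Subgroup G) : ConjIn X :=
  conjIn_of_conjAll X (conjAll_aux _ ↥X rfl)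

/-- The image of a Carter subgroup in a quotient is a Carter subgroup. -/
theorem isCarter_map (N : Subgroup G) [N.Normal] (C : Subgroup G)
    (hC : Cfsg.IsCarterSubgroup C) : Cfsg.IsCarterSubgroup (C.map (QuotientGroup.mk' N)) :=
  isCarter_map_of_conjIn N C hC (Or.inr (conjIn_of_solvable _))

end Main

end Cfsg.Agent.H13
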