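import Mathlib

/-!
# Coprime Hall–Higman: linear algebra and counting lemmas

* `exists_orbit_reps`: orbit representatives for a map of period `r` acting freely off one point.
* `sum_range_shift`: cyclic shift of a periodic sum.
* `sq_finrank_le_commutant`: an endomorphism `g` with `g ^ r = 1`, `∑ g ^ i = 0` (no eigenvalue
  `1`) over an algebraically closed field in which `r ≠ 0` has a commutant of dimension at least
  `n² / (r - 1)`.
-/

set_option autoImplicit false
set_option linter.unusedVariables false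
set_option linter.unusedSectionVars false
set_option linter.style.haveILetI false

namespace Cfsg.Agent.H13.CopHH

open Module

section OrbitReps

theorem iterate_mod {α : Type*} (τ : α → α) (r : ℕ) (hτr : ∀ a, τ^[r] a = a) (k : ℕ) (a : α) :
    τ^[k] a = τ^[k % r] a := by
  conv_lhs => rw [← Nat.mod_add_div k r]
  rw [Function.iterate_add_apply, Function.iterate_mul]
  have h : (τ^[r])^[k / r] a = a := by
    have h1 : τ^[r] = id := funext hτr
    rw [h1, Function.iterate_id]; rfl
  rw [h]

theorem orbit_reps_aux {α : Type*} [DecidableEq α] (τ : α → α) (r : ℕ) (hr : 0 < r)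
    (hτr : ∀ a, τ^[r] a = a) :
    ∀ (n : ℕ) (U : Finset α), U.card = n → (∀ a ∈ U, τ a ∈ U) →
      (∀ a ∈ U, ∀ i, 0 < i → i < r → τ^[i] a ≠ a) →
      ∃ S : Finset α, S ⊆ U ∧ r * S.card = U.card ∧
        ∀ a ∈ U, ∃ s ∈ S, ∃ i < r, τ^[i] s = a := by
  intro n
  induction n using Nat.strong_induction_on with
  | _ n ih =>
  intro U hUn hinv hfree
  rcases U.eq_empty_or_nonempty with hU | ⟨u, hu⟩
  · subst hU
    exact ⟨∅, by simp, by simp, by simp⟩
  · have hiter : ∀ i, τ^[i] u ∈ U := by
      intro i
      induction i with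
      | zero => exact hu
      | succ i ih' => rw [Function.iterate_succ_apply']; exact hinv _ ih'
    obtain ⟨O, hO⟩ : ∃ O : Finset α, O = (Finset.range r).image (fun i => τ^[i] u) := ⟨_, rfl⟩
    have key : ∀ i j, i < j → j < r → τ^[i] u ≠ τ^[j] u := by
      intro i j hij hj h
      apply hfree (τ^[i] u) (hiter i) (j - i) (by omega) (by omega)
      rw [← Function.iterate_add_apply]
      have h1 : j - i + i = j := by omega
      rw [h1]; exact h.symm
    have hinj : Set.InjOn (fun i => τ^[i] u) (Finset.range r : Set ℕ) := by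
      intro i hi j hj h
      simp only [Finset.coe_range, Set.mem_Iio] at hi hj
      by_contra hne
      rcases Nat.lt_or_gt_of_ne hne with h1 | h1
      · exact key i j h1 hj h
      · exact key j i h1 hi h.symm
    have hOcard : O.card = r := by
      rw [hO, Finset.card_image_of_injOn hinj, Finset.card_range]
    have hOU : O ⊆ U := by
      intro a ha
      rw [hO] at ha
      obtain ⟨i, -, rfl⟩ := Finset.mem_image.mp ha
      exact hiter i
    have hOmem : ∀ k, τ^[k] u ∈ O := by
      intro k
      rw [iterate_mod τ r hτr k u, hO]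
      exact Finset.mem_image.mpr ⟨k % r, Finset.mem_range.mpr (Nat.mod_lt _ hr), rfl⟩
    have hinv' : ∀ a ∈ U \ O, τ a ∈ U \ O := by
      intro a ha
      rw [Finset.mem_sdiff] at ha ⊢
      refine ⟨hinv a ha.1, fun h => ha.2 ?_⟩
      rw [hO] at h
      obtain ⟨i, -, hi⟩ := Finset.mem_image.mp h
      have h1 : a = τ^[r - 1 + i] u := by
        rw [Function.iterate_add_apply, hi, ← Function.iterate_succ_apply]
        have h2 : (r - 1).succ = r := by omega
        rw [h2, hτr]
      rw [h1]; exact hOmem _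
    have hrn : r ≤ n := by rw [← hUn, ← hOcard]; exact Finset.card_le_card hOU
    have hcard' : (U \ O).card = n - r := by
      rw [Finset.card_sdiff_of_subset hOU, hUn, hOcard]
    obtain ⟨S', hS'sub, hS'card, hS'cov⟩ := ih (n - r) (by omega) (U \ O) hcard' hinv'
      (fun a ha => hfree a (Finset.mem_sdiff.mp ha).1)
    have huS' : u ∉ S' := by
      intro h
      have h1 := hS'sub h
      rw [Finset.mem_sdiff] at h1
      exact h1.2 (hOmem 0)
    refine ⟨insert u S', ?_, ?_, ?_⟩
    · intro a ha
      rcases Finset.mem_insert.mp ha with rfl | ha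
      · exact hu
      · exact (Finset.mem_sdiff.mp (hS'sub ha)).1
    · rw [Finset.card_insert_of_notMem huS', Nat.mul_succ, hS'card, hcard', hUn]
      omega
    · intro a ha
      by_cases haO : a ∈ O
      · rw [hO] at haO
        obtain ⟨i, hi, rfl⟩ := Finset.mem_image.mp haO
        exact ⟨u, Finset.mem_insert_self u S', i, Finset.mem_range.mp hi, rfl⟩
      · obtain ⟨s, hs, i, hi, hsa⟩ := hS'cov a (Finset.mem_sdiff.mpr ⟨ha, haO⟩)
        exact ⟨s, Finset.mem_insert_of_mem hs, i, hi, hsa⟩

theorem exists_orbit_reps {α : Type*} [Fintype α] [DecidableEq α] (τ : α → α) (r : ℕ) (hr : 0 < r)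
    (w₀ : α) (hτ0 : τ w₀ = w₀) (hτr : ∀ a, τ^[r] a = a)
    (hfree : ∀ a, a ≠ w₀ → ∀ i, 0 < i → i < r → τ^[i] a ≠ a) :
    ∃ S : Finset α, r * S.card + 1 = Fintype.card α ∧
      ∀ a, a ≠ w₀ → ∃ s ∈ S, ∃ i < r, τ^[i] s = a := by
  have hinv : ∀ a ∈ Finset.univ.erase w₀, τ a ∈ Finset.univ.erase w₀ := by
    intro a ha
    rw [Finset.mem_erase] at ha ⊢
    refine ⟨fun h => ha.1 ?_, Finset.mem_univ _⟩
    have h1 : a = τ^[r - 1] (τ a) := by
      rw [← Function.iterate_succ_apply]
      have h2 : (r - 1).succ = r := by omega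
      rw [h2, hτr]
    rw [h1, h]
    exact Function.iterate_fixed hτ0 _
  obtain ⟨S, -, hcard, hcov⟩ := orbit_reps_aux τ r hr hτr _ (Finset.univ.erase w₀) rfl hinv
    (fun a ha => hfree a (Finset.mem_erase.mp ha).1)
  refine ⟨S, ?_, fun a ha => hcov a (Finset.mem_erase.mpr ⟨ha, Finset.mem_univ _⟩)⟩
  rw [hcard, Finset.card_erase_of_mem (Finset.mem_univ _), Finset.card_univ]
  have : 0 < Fintype.card α := Fintype.card_pos_iff.mpr ⟨w₀⟩
  omega

theorem sum_range_shift {M : Type*} [AddCommGroup M] (f : ℕ → M) (r : ℕ)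
    (hf : ∀ i, f (i + r) = f i) (k : ℕ) :
    ∑ i ∈ Finset.range r, f (i + k) = ∑ i ∈ Finset.range r, f i := by
  induction k with
  | zero => simp
  | succ k ih =>
    have h1 := Finset.sum_range_succ (fun i => f (i + k)) r
    have h2 := Finset.sum_range_succ' (fun i => f (i + k)) r
    have h3 : f (r + k) = f (0 + k) := by
      rw [zero_add, add_comm, hf]
    have h4 : ∑ i ∈ Finset.range r, f (i + (k + 1)) = ∑ i ∈ Finset.range r, f (i + 1 + k) := by
      apply Finset.sum_congr rfl
      intro i _
      congr 1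
      omega
    rw [h4, ← ih]
    rw [h1, h3] at h2
    exact (add_right_cancel h2).symm

end OrbitReps

section Commutant

variable {K : Type*} [Field K] {V : Type*} [AddCommGroup V] [Module K V]

/-- The commutant of an endomorphism, as a submodule. -/
def commutant (g : Module.End K V) : Submodule K (Module.End K V) where
  carrier := {B | B * g = g * B}
  add_mem' := by
    intro a b ha hb
    simp only [Set.mem_ofPred_eq] at *
    rw [add_mul, mul_add, ha, hb]
  zero_mem' := by simp
  smul_mem' := by
    intro c B hB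
    simp only [Set.mem_ofPred_eq] at *
    rw [smul_mul_assoc, mul_smul_comm, hB]

theorem mem_commutant (g B : Module.End K V) : B ∈ commutant g ↔ B * g = g * B := Iff.rfl

theorem card_le_finrank_commutant [FiniteDimensional K V] {ι : Type*} [Fintype ι] [DecidableEq ι]
    (b : Basis ι K V) (g : Module.End K V) (d : ι → K) (hg : ∀ k, g (b k) = d k • b k) :
    Nat.card {p : ι × ι // d p.1 = d p.2} ≤ Module.finrank K (commutant g) := by
  classical
  rw [Nat.card_eq_fintype_card]
  obtain ⟨F, hF⟩ : ∃ F : ι × ι → Module.End K V,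
      F = fun p => Matrix.toLin b b (Matrix.single p.1 p.2 (1 : K)) := ⟨_, rfl⟩
  have hFli : LinearIndependent K F := by
    have h1 : LinearIndependent K (Matrix.stdBasis K ι ι) := (Matrix.stdBasis K ι ι).linearIndependent
    have h2 := h1.map' (Matrix.toLin b b).toLinearMap (LinearEquiv.ker _)
    have h3 : (Matrix.toLin b b).toLinearMap ∘ (Matrix.stdBasis K ι ι) = F := by
      rw [hF]
      funext p
      obtain ⟨i, j⟩ := p
      simp [Matrix.stdBasis_eq_single]
    rwa [h3] at h2
  have hFapply : ∀ (k l l' : ι), F (k, l) (b l') = if l' = l then b k else 0 := by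
    intro k l l'
    rw [hF]
    simp only [Matrix.toLin_self, Matrix.single_apply]
    by_cases h : l' = l
    · subst h
      simp
    · have h' : ¬ l = l' := fun e => h e.symm
      simp [h, h']
  have hFmem : ∀ p : {p : ι × ι // d p.1 = d p.2}, F p.1 ∈ commutant g := by
    rintro ⟨⟨k, l⟩, hkl⟩
    simp only at hkl
    rw [mem_commutant]
    apply b.ext
    intro l'
    rw [Module.End.mul_apply, Module.End.mul_apply, hg, map_smul, hFapply]
    by_cases h : l' = l
    · subst h
      simp only [if_true]
      rw [hg, hkl]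
    · simp [h]
  obtain ⟨F', hF'⟩ : ∃ F' : {p : ι × ι // d p.1 = d p.2} → commutant g,
      F' = fun p => ⟨F p.1, hFmem p⟩ := ⟨_, rfl⟩
  have hF'li : LinearIndependent K F' := by
    apply LinearIndependent.of_comp (commutant g).subtype
    have h1 : (commutant g).subtype ∘ F' = F ∘ Subtype.val := by
      rw [hF']; rfl
    rw [h1]
    exact hFli.comp _ Subtype.val_injective
  exact hF'li.fintype_card_le_finrank

theorem sq_card_le_card_pairs {ι : Type*} [Fintype ι] [DecidableEq ι] {β : Type*} [DecidableEq β]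
    (d : ι → β) (D : Finset β) (hD : ∀ k, d k ∈ D) :
    (Fintype.card ι) ^ 2 ≤ D.card * Nat.card {p : ι × ι // d p.1 = d p.2} := by
  classical
  rw [Nat.card_eq_fintype_card]
  have h1 : Fintype.card ι = ∑ z ∈ D, (Finset.univ.filter (fun k => d k = z)).card := by
    rw [← Finset.card_univ]
    exact Finset.card_eq_sum_card_fiberwise (fun k _ => hD k)
  have h2 : Fintype.card {p : ι × ι // d p.1 = d p.2} =
      ∑ z ∈ D, (Finset.univ.filter (fun k => d k = z)).card ^ 2 := by
    rw [Fintype.card_subtype]
    rw [Finset.card_eq_sum_card_fiberwise (f := fun p : ι × ι => d p.1) (t := D)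
      (fun p _ => hD p.1)]
    apply Finset.sum_congr rfl
    intro z _
    rw [sq, ← Finset.card_product]
    congr 1
    ext ⟨k, l⟩
    simp only [Finset.mem_filter, Finset.mem_univ, true_and, Finset.mem_product]
    constructor
    · rintro ⟨h, h'⟩
      exact ⟨h', h ▸ h'⟩
    · rintro ⟨h, h'⟩
      exact ⟨h.trans h'.symm, h⟩
  rw [h1, h2]
  exact sq_sum_le_card_mul_sum_sq

theorem pow_apply_eigen (g : Module.End K V) (v : V) (c : K) (h : g v = c • v) (i : ℕ) :
    (g ^ i) v = c ^ i • v := by
  induction i with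
  | zero => simp
  | succ i ih => rw [pow_succ, Module.End.mul_apply, h, map_smul, ih, smul_smul, pow_succ, mul_comm]

theorem sq_finrank_le_commutant [IsAlgClosed K] [FiniteDimensional K V] (g : Module.End K V)
    (r : ℕ) (hr : 0 < r) (hrK : (r : K) ≠ 0) (hgr : g ^ r = 1)
    (hN : ∑ i ∈ Finset.range r, g ^ i = 0) :
    (Module.finrank K V) ^ 2 ≤ (r - 1) * Module.finrank K (commutant g) := by
  classical
  have hsq : Squarefree ((Polynomial.X : Polynomial K) ^ r - Polynomial.C 1) :=
    (Polynomial.separable_X_pow_sub_C (1 : K) hrK one_ne_zero).squarefree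
  have hss : g.IsSemisimple := by
    apply Module.End.isSemisimple_of_squarefree_aeval_eq_zero hsq
    simp [hgr]
  have hsup : ⨆ μ : K, g.eigenspace μ = ⊤ := hss.iSup_eigenspace_eq_top
  have hint := DirectSum.isInternal_submodule_of_iSupIndep_of_iSup_eq_top
    g.eigenspaces_iSupIndep hsup
  obtain ⟨b, hb⟩ : ∃ b : Basis (Σ μ : K, Fin (Module.finrank K (g.eigenspace μ))) K V,
      b = hint.collectedBasis (fun μ => Module.finBasis K (g.eigenspace μ)) := ⟨_, rfl⟩
  haveI : Finite (Σ μ : K, Fin (Module.finrank K (g.eigenspace μ))) := Module.Finite.finite_basis b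
  haveI : Fintype (Σ μ : K, Fin (Module.finrank K (g.eigenspace μ))) := Fintype.ofFinite _
  have hg : ∀ a, g (b a) = a.1 • b a := by
    intro a
    have h1 : b a ∈ g.eigenspace a.1 := by
      rw [hb]; exact hint.collectedBasis_mem _ a
    exact Module.End.mem_eigenspace_iff.mp h1
  have hd1 : ∀ a : (Σ μ : K, Fin (Module.finrank K (g.eigenspace μ))), a.1 ^ r = 1 := by
    intro a
    have h1 := pow_apply_eigen g (b a) a.1 (hg a) r
    rw [hgr, Module.End.one_apply] at h1
    have h2 : (a.1 ^ r - 1) • b a = 0 := by rw [sub_smul, one_smul, ← h1, sub_self]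
    rcases smul_eq_zero.mp h2 with h3 | h3
    · exact sub_eq_zero.mp h3
    · exact absurd h3 (b.ne_zero a)
  have hd2 : ∀ a : (Σ μ : K, Fin (Module.finrank K (g.eigenspace μ))), a.1 ≠ 1 := by
    intro a h
    have h1 : (∑ i ∈ Finset.range r, g ^ i) (b a) = (r : K) • b a := by
      rw [LinearMap.sum_apply]
      rw [Finset.sum_congr rfl (fun i _ => pow_apply_eigen g (b a) a.1 (hg a) i)]
      simp [h, Nat.cast_smul_eq_nsmul]
    rw [hN, LinearMap.zero_apply] at h1
    rcases smul_eq_zero.mp h1.symm with h3 | h3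
    · exact hrK h3
    · exact b.ne_zero a h3
  obtain ⟨D, hD⟩ : ∃ D : Finset K, D = (Polynomial.nthRootsFinset r (1 : K)).erase 1 := ⟨_, rfl⟩
  have hDmem : ∀ a : (Σ μ : K, Fin (Module.finrank K (g.eigenspace μ))), a.1 ∈ D := by
    intro a
    rw [hD, Finset.mem_erase]
    exact ⟨hd2 a, (Polynomial.mem_nthRootsFinset hr 1).mpr (hd1 a)⟩
  have hDcard : D.card ≤ r - 1 := by
    have h1 : (1 : K) ∈ Polynomial.nthRootsFinset r (1 : K) :=
      (Polynomial.mem_nthRootsFinset hr 1).mpr (one_pow r)
    rw [hD, Finset.card_erase_of_mem h1]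
    have h2 : (Polynomial.nthRootsFinset r (1 : K)).card ≤ r := by
      unfold Polynomial.nthRootsFinset
      exact (Multiset.toFinset_card_le _).trans (Polynomial.card_nthRoots r 1)
    omega
  have h1 := sq_card_le_card_pairs (fun a : (Σ μ : K, Fin (Module.finrank K (g.eigenspace μ))) => a.1)
    D hDmem
  have h2 := card_le_finrank_commutant b g (fun a => a.1) hg
  rw [Module.finrank_eq_card_basis b]
  calc _ ≤ D.card * Nat.card {p : (Σ μ : K, Fin (Module.finrank K (g.eigenspace μ))) ×
        (Σ μ : K, Fin (Module.finrank K (g.eigenspace μ))) // p.1.1 = p.2.1} := h1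
    _ ≤ (r - 1) * Module.finrank K (commutant g) := Nat.mul_le_mul hDcard h2

end Commutant

end Cfsg.Agent.H13.CopHH
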