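import Cfsg.Agent.H66.HHB
import Cfsg.Agent.H13.CopHH1

/-!
# Coprime Hall–Higman: the critical (extraspecial) case

`Γ` finite, `Z ≤ Γ` central-type subgroup acting by scalars with nondegenerate commutator pairing,
`σ` an automorphism of prime order `r` trivial on `Z` and free on `Γ/Z`, `K` algebraically closed
with `r` and the divisors of `|Γ|` invertible.  If a compatible operator `X` (`X^r = 1`) on a
module `V` has vanishing norm `∑ X^i` (no fixed vectors), then `|Γ : Z| = (r - 1)^2`.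
-/

set_option autoImplicit false
set_option linter.style.haveILetI false
set_option linter.unusedVariables false
set_option linter.unusedSectionVars false

namespace Cfsg.Agent.H13.CopHH

open Module Cfsg.Agent.H66

section Irr

variable {K : Type*} [Field K] {Γ : Type*} [Group Γ] [Finite Γ] {V₁ : Type*} [AddCommGroup V₁]
  [Module K V₁] [FiniteDimensional K V₁] [Nontrivial V₁]
  (ρ₁ : Γ →* Module.End K V₁) (Z : Subgroup Γ)

theorem cop_exists_intertwiner [IsAlgClosed K] (r : ℕ) (hr : 1 < r)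
    (hcast : ∀ k : ℕ, k ∣ Nat.card Γ → (k : K) ≠ 0)
    (hirr : ∀ W : Submodule K V₁, (∀ a : Γ, ∀ w ∈ W, ρ₁ a w ∈ W) → W = ⊥ ∨ W = ⊤)
    (hcomm : ∀ a b : Γ, a * b * a⁻¹ * b⁻¹ ∈ Z)
    (hZs : ∀ z ∈ Z, ∃ c : K, ρ₁ z = c • 1)
    (hnd : ∀ a : Γ, (∀ b : Γ, ρ₁ (b * a * b⁻¹ * a⁻¹) = 1) → a ∈ Z)
    (σ : Γ ≃* Γ) (hσZ : ∀ z ∈ Z, σ z = z) (hσm : ∀ a, σ^[r] a = a)
    (hfree : ∀ a, a ∉ Z → ∀ i, 0 < i → i < r → σ^[i] a * a⁻¹ ∉ Z) :
    ∃ g : Module.End K V₁, g ^ r = 1 ∧ (∀ a, g * ρ₁ a = ρ₁ (σ a) * g) := by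
  classical
  haveI : Fintype Γ := Fintype.ofFinite Γ
  have hr0 : 0 < r := by omega
  obtain ⟨d, hd⟩ : ∃ d, d = Module.finrank K V₁ := ⟨_, rfl⟩
  have hd2 : d ^ 2 = Z.index := by
    rw [hd]; exact finrank_sq_eq_index ρ₁ Z hirr hcomm hZs hnd
  have hidx : Z.index ∣ Nat.card Γ := Subgroup.index_dvd_card Z
  have hcardZ : Nat.card Z ∣ Nat.card Γ := Subgroup.card_subgroup_dvd_card Z
  have hdK : (d : K) ≠ 0 :=
    hcast d ((dvd_pow_self d two_ne_zero).trans (hd2 ▸ hidx))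
  have hZK : (Nat.card Z : K) ≠ 0 := hcast _ hcardZ
  obtain ⟨g₀, hg₀⟩ : ∃ g₀ : Module.End K V₁, g₀ = ∑ a : Γ, ρ₁ (σ a) * ρ₁ a⁻¹ := ⟨_, rfl⟩
  have hint₀ : ∀ b, g₀ * ρ₁ b = ρ₁ (σ b) * g₀ := by
    intro b
    rw [hg₀, Finset.sum_mul, Finset.mul_sum]
    rw [← Equiv.sum_comp (Equiv.mulLeft b⁻¹) (fun a => ρ₁ (σ b) * (ρ₁ (σ a) * ρ₁ a⁻¹))]
    apply Finset.sum_congr rfl
    intro a _
    show _ = ρ₁ (σ b) * (ρ₁ (σ (b⁻¹ * a)) * ρ₁ (b⁻¹ * a)⁻¹)
    have e : σ b * (σ (b⁻¹ * a) * (b⁻¹ * a)⁻¹) = σ a * a⁻¹ * b := by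
      rw [map_mul σ, map_inv σ]; group
    rw [← map_mul ρ₁, ← map_mul ρ₁, ← map_mul ρ₁, ← map_mul ρ₁, e]
  have htr : LinearMap.trace K V₁ g₀ = (Nat.card Z : K) * d := by
    rw [hg₀, map_sum]
    have hterm : ∀ a : Γ, LinearMap.trace K V₁ (ρ₁ (σ a) * ρ₁ a⁻¹) =
        if a ∈ Z then (d : K) else 0 := by
      intro a
      rw [← map_mul ρ₁]
      split_ifs with ha
      · rw [hσZ a ha, mul_inv_cancel, map_one, LinearMap.trace_one, hd]
      · exact trace_rho_eq_zero ρ₁ Z hcomm hZs hnd _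
          (by simpa using hfree a ha 1 Nat.one_pos hr)
    rw [Finset.sum_congr rfl (fun a _ => hterm a), Finset.sum_ite, Finset.sum_const_zero,
      add_zero, Finset.sum_const, nsmul_eq_mul]
    congr 2
    rw [Nat.card_eq_fintype_card, Fintype.card_subtype]
  have hcommute : ∀ b, g₀ ^ r * ρ₁ b = ρ₁ b * g₀ ^ r := by
    intro b
    have := intertwine_pow ρ₁ g₀ σ hint₀ r b
    rw [hσm] at this
    exact this
  obtain ⟨μ, hμ⟩ := schur_scalar ρ₁ hirr _ hcommute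
  have hμ0 : μ ≠ 0 := by
    intro h
    rw [h, zero_smul] at hμ
    have hnil : IsNilpotent g₀ := ⟨r, hμ⟩
    have h1 := LinearMap.isNilpotent_trace_of_isNilpotent hnil
    rw [htr] at h1
    exact mul_ne_zero hZK hdK (IsNilpotent.eq_zero h1)
  obtain ⟨κ, hκ⟩ := IsAlgClosed.exists_pow_nat_eq μ⁻¹ hr0
  refine ⟨κ • g₀, ?_, ?_⟩
  · rw [smul_pow, hκ, hμ, smul_smul, inv_mul_cancel₀ hμ0, one_smul]
  · intro a
    rw [smul_mul_assoc, hint₀, mul_smul_comm]

theorem cop_irr_dim [IsAlgClosed K] (r : ℕ) [hrp : Fact r.Prime] (hrK : (r : K) ≠ 0)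
    (hirr : ∀ W : Submodule K V₁, (∀ a : Γ, ∀ w ∈ W, ρ₁ a w ∈ W) → W = ⊥ ∨ W = ⊤)
    (hcomm : ∀ a b : Γ, a * b * a⁻¹ * b⁻¹ ∈ Z)
    (hZs : ∀ z ∈ Z, ∃ c : K, ρ₁ z = c • 1)
    (hnd : ∀ a : Γ, (∀ b : Γ, ρ₁ (b * a * b⁻¹ * a⁻¹) = 1) → a ∈ Z)
    (hZtop : Z ≠ ⊤)
    (σ : Γ ≃* Γ) (hσZ : ∀ z ∈ Z, σ z = z) (hσm : ∀ a, σ^[r] a = a)
    (hfree : ∀ a, a ∉ Z → ∀ i, 0 < i → i < r → σ^[i] a * a⁻¹ ∉ Z)
    (g : Module.End K V₁) (hg1 : g ^ r = 1) (hint : ∀ a, g * ρ₁ a = ρ₁ (σ a) * g)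
    (hN : ∑ i ∈ Finset.range r, g ^ i = 0) :
    Module.finrank K V₁ = r - 1 := by
  classical
  haveI : Fintype Γ := Fintype.ofFinite Γ
  have hrprime : r.Prime := hrp.out
  have hr0 : 0 < r := hrprime.pos
  have hr1 : 1 < r := hrprime.one_lt
  obtain ⟨d, hd⟩ : ∃ d, d = Module.finrank K V₁ := ⟨_, rfl⟩
  have hd2 : d ^ 2 = Z.index := by
    rw [hd]; exact finrank_sq_eq_index ρ₁ Z hirr hcomm hZs hnd
  have hdpos : 0 < d := by rw [hd]; exact Module.finrank_pos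
  -- normality of `Z`
  haveI hZn : Z.Normal := by
    constructor
    intro z hz a
    have h1 := hcomm a z
    have h2 : a * z * a⁻¹ = a * z * a⁻¹ * z⁻¹ * z := by group
    rw [h2]
    exact Z.mul_mem h1 hz
  haveI : Fintype (Γ ⧸ Z) := Fintype.ofFinite _
  have hσZ' : Z ≤ Z.comap σ.toMonoidHom := by
    intro z hz
    rw [Subgroup.mem_comap]
    show σ z ∈ Z
    rw [hσZ z hz]; exact hz
  obtain ⟨τ, hτ⟩ : ∃ τ : Γ ⧸ Z →* Γ ⧸ Z, τ = QuotientGroup.map Z Z σ.toMonoidHom hσZ' := ⟨_, rfl⟩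
  have hτmk : ∀ a : Γ, τ (QuotientGroup.mk a) = QuotientGroup.mk (σ a) := by
    intro a; rw [hτ]; rfl
  have hτiter : ∀ (i : ℕ) (a : Γ), (⇑τ)^[i] (QuotientGroup.mk a) = QuotientGroup.mk ((⇑σ)^[i] a) := by
    intro i
    induction i with
    | zero => intro a; rfl
    | succ i ih =>
      intro a
      rw [Function.iterate_succ_apply, hτmk, ih, Function.iterate_succ_apply]
  obtain ⟨S, hScard, hScov⟩ := exists_orbit_reps (⇑τ) r hr0 (1 : Γ ⧸ Z) (map_one τ)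
    (by
      intro w
      obtain ⟨a, rfl⟩ := QuotientGroup.mk_surjective w
      rw [hτiter, hσm])
    (by
      intro w hw i hi0 hi h
      obtain ⟨a, rfl⟩ := QuotientGroup.mk_surjective w
      have ha : a ∉ Z := fun h' => hw ((QuotientGroup.eq_one_iff a).mpr h')
      apply hfree a ha i hi0 hi
      rw [hτiter] at h
      have h1 : ((⇑σ)^[i] a)⁻¹ * a ∈ Z := QuotientGroup.eq.mp h
      have h2 := hZn.conj_mem _ (Z.inv_mem h1) a
      have e : a * (((⇑σ)^[i] a)⁻¹ * a)⁻¹ * a⁻¹ = (⇑σ)^[i] a * a⁻¹ := by group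
      rwa [e] at h2)
  have hcardQ : Fintype.card (Γ ⧸ Z) = d ^ 2 := by
    rw [hd2, Subgroup.index_eq_card, Nat.card_eq_fintype_card]
  rw [hcardQ] at hScard
  -- inverse of g
  obtain ⟨g', hg'def⟩ : ∃ g' : Module.End K V₁, g' = g ^ (r - 1) := ⟨_, rfl⟩
  have hgg' : g * g' = 1 := by
    rw [hg'def, ← pow_succ', Nat.sub_add_cancel hr0, hg1]
  have hg'g : g' * g = 1 := by
    rw [hg'def, ← pow_succ, Nat.sub_add_cancel hr0, hg1]
  have hpowinv : ∀ i : ℕ, g ^ i * g' ^ i = 1 := by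
    intro i
    induction i with
    | zero => simp
    | succ i ih =>
      rw [pow_succ, pow_succ', mul_assoc, ← mul_assoc g, hgg', one_mul, ih]
  have hconj : ∀ (i : ℕ) (a : Γ), ρ₁ ((⇑σ)^[i] a) = g ^ i * ρ₁ a * g' ^ i := by
    intro i a
    have h1 := intertwine_pow ρ₁ g σ hint i a
    rw [h1, mul_assoc, hpowinv, mul_one]
  -- the orbit sums
  obtain ⟨Ts, hTs⟩ : ∃ Ts : Γ → Module.End K V₁,
      Ts = fun a => ∑ i ∈ Finset.range r, ρ₁ ((⇑σ)^[i] a) := ⟨_, rfl⟩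
  obtain ⟨gen, hgen⟩ : ∃ gen : Finset (Module.End K V₁),
      gen = insert 1 (S.image (fun s => Ts (Quotient.out s))) := ⟨_, rfl⟩
  obtain ⟨M, hM⟩ : ∃ M : Submodule K (Module.End K V₁), M = Submodule.span K (gen : Set _) :=
    ⟨_, rfl⟩
  have hperiod : ∀ (a : Γ) (i : ℕ), (⇑σ)^[i + r] a = (⇑σ)^[i] a := by
    intro a i
    rw [Function.iterate_add_apply, hσm]
  have hTsM : ∀ a : Γ, Ts a ∈ M := by
    intro a
    by_cases ha : a ∈ Z
    · obtain ⟨c, hc⟩ := hZs a ha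
      have h1 : ∀ i : ℕ, (⇑σ)^[i] a = a := by
        intro i
        induction i with
        | zero => rfl
        | succ i ih => rw [Function.iterate_succ_apply, hσZ a ha, ih]
      have h2 : Ts a = ((r : K) * c) • (1 : Module.End K V₁) := by
        rw [hTs]
        simp only
        rw [Finset.sum_congr rfl (fun i _ => by rw [h1 i]), Finset.sum_const, Finset.card_range,
          hc, ← Nat.cast_smul_eq_nsmul K, smul_smul]
      rw [h2, hM]
      apply Submodule.smul_mem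
      apply Submodule.subset_span
      rw [hgen]
      exact Finset.mem_coe.mpr (Finset.mem_insert_self _ _)
    · have hw : (QuotientGroup.mk a : Γ ⧸ Z) ≠ 1 := fun h => ha ((QuotientGroup.eq_one_iff a).mp h)
      obtain ⟨s, hs, i₀, hi₀, hsa⟩ := hScov _ hw
      obtain ⟨t, ht⟩ : ∃ t : Γ, t = Quotient.out s := ⟨_, rfl⟩
      have hts : (QuotientGroup.mk t : Γ ⧸ Z) = s := by rw [ht]; exact QuotientGroup.out_eq' s
      rw [← hts, hτiter] at hsa
      have hz : ((⇑σ)^[i₀] t)⁻¹ * a ∈ Z := QuotientGroup.eq.mp hsa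
      obtain ⟨c, hc⟩ := hZs _ hz
      have hzfix : ∀ i : ℕ, (⇑σ)^[i] (((⇑σ)^[i₀] t)⁻¹ * a) = ((⇑σ)^[i₀] t)⁻¹ * a := by
        intro i
        induction i with
        | zero => rfl
        | succ i ih => rw [Function.iterate_succ_apply, hσZ _ hz, ih]
      have hiter_mul : ∀ (i : ℕ) (x y : Γ), (⇑σ)^[i] (x * y) = (⇑σ)^[i] x * (⇑σ)^[i] y := by
        intro i
        induction i with
        | zero => intro x y; rfl
        | succ i ih =>
          intro x y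
          rw [Function.iterate_succ_apply, Function.iterate_succ_apply, Function.iterate_succ_apply,
            map_mul, ih]
      have h1 : ∀ i : ℕ, ρ₁ ((⇑σ)^[i] a) = c • ρ₁ ((⇑σ)^[i + i₀] t) := by
        intro i
        have e : a = (⇑σ)^[i₀] t * (((⇑σ)^[i₀] t)⁻¹ * a) := by group
        conv_lhs => rw [e]
        rw [hiter_mul, hzfix, map_mul, hc, mul_smul_comm, mul_one, ← Function.iterate_add_apply]
      have h2 : Ts a = c • Ts t := by
        rw [hTs]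
        simp only
        rw [Finset.sum_congr rfl (fun i _ => h1 i), ← Finset.smul_sum]
        congr 1
        exact sum_range_shift (fun i => ρ₁ ((⇑σ)^[i] t)) r (fun i => by rw [hperiod]) i₀
      rw [h2, hM]
      apply Submodule.smul_mem
      apply Submodule.subset_span
      rw [hgen, ht]
      exact Finset.mem_coe.mpr (Finset.mem_insert_of_mem (Finset.mem_image_of_mem _ hs))
  have hcommM : commutant g ≤ M := by
    intro B hB
    rw [mem_commutant] at hB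
    have hBpow : ∀ i : ℕ, g ^ i * B * g' ^ i = B := by
      intro i
      have h1 : g ^ i * B = B * g ^ i := by
        induction i with
        | zero => simp
        | succ i ih => rw [pow_succ, mul_assoc, ← hB, ← mul_assoc, ih, mul_assoc]
      rw [h1, mul_assoc, hpowinv, mul_one]
    have hspan : B ∈ Submodule.span K (Set.range ρ₁) := by
      rw [rho_span_top ρ₁ hirr]; trivial
    obtain ⟨c, hc⟩ := (Submodule.mem_span_range_iff_exists_fun K).mp hspan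
    have h1 : (r : K) • B = ∑ a : Γ, c a • Ts a := by
      calc (r : K) • B = ∑ i ∈ Finset.range r, g ^ i * B * g' ^ i := by
            rw [Finset.sum_congr rfl (fun i _ => hBpow i), Finset.sum_const, Finset.card_range,
              Nat.cast_smul_eq_nsmul]
        _ = ∑ i ∈ Finset.range r, ∑ a : Γ, c a • ρ₁ ((⇑σ)^[i] a) := by
            apply Finset.sum_congr rfl
            intro i _
            rw [← hc, Finset.mul_sum, Finset.sum_mul]
            apply Finset.sum_congr rfl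
            intro a _
            rw [hconj, mul_smul_comm, smul_mul_assoc]
        _ = ∑ a : Γ, c a • Ts a := by
            rw [Finset.sum_comm]
            apply Finset.sum_congr rfl
            intro a _
            rw [hTs, Finset.smul_sum]
    have h2 : (r : K) • B ∈ M := by
      rw [h1]
      exact Submodule.sum_mem _ (fun a _ => Submodule.smul_mem _ _ (hTsM a))
    have h3 : B = (r : K)⁻¹ • ((r : K) • B) := by
      rw [smul_smul, inv_mul_cancel₀ hrK, one_smul]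
    rw [h3]
    exact Submodule.smul_mem _ _ h2
  have hupper : Module.finrank K (commutant g) ≤ S.card + 1 := by
    calc Module.finrank K (commutant g) ≤ Module.finrank K M := Submodule.finrank_mono hcommM
      _ ≤ gen.card := by
          rw [hM]
          exact finrank_span_finset_le_card gen
      _ ≤ S.card + 1 := by
          rw [hgen]
          exact (Finset.card_insert_le _ _).trans (Nat.succ_le_succ Finset.card_image_le)
  have hlower := sq_finrank_le_commutant g r hr0 hrK hg1 hN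
  rw [← hd] at hlower
  -- arithmetic
  obtain ⟨R, hR⟩ : ∃ R, r = R + 1 := ⟨r - 1, by omega⟩
  subst hR
  have hR1 : 1 ≤ R := by omega
  have e1 : R + 1 - 1 = R := by omega
  rw [e1] at hlower ⊢
  have h1 : d ^ 2 ≤ R * (S.card + 1) := hlower.trans (Nat.mul_le_mul_left R hupper)
  have h2 : S.card + 1 ≤ R := by nlinarith
  have h3 : d ^ 2 ≤ R ^ 2 := by nlinarith
  have h4 : d ≤ R := by
    by_contra hcon
    push Not at hcon
    nlinarith
  have h5 : (R + 1) ∣ (d - 1) * (d + 1) := by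
    refine ⟨S.card, ?_⟩
    have h6 : (d - 1) * (d + 1) + 1 = d ^ 2 := by
      obtain ⟨e, rfl⟩ : ∃ e, d = e + 1 := ⟨d - 1, by omega⟩
      simp only [Nat.add_sub_cancel]
      ring
    omega
  rcases (Nat.Prime.dvd_mul hrprime).mp h5 with h6 | h6
  · have h7 : d - 1 = 0 := Nat.eq_zero_of_dvd_of_lt h6 (by omega)
    have h8 : d = 1 := by omega
    exfalso
    rw [h8, one_pow] at hd2
    exact hZtop (Subgroup.index_eq_one.mp hd2.symm)
  · have h7 : R + 1 ≤ d + 1 := Nat.le_of_dvd (by omega) h6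
    rw [← hd]; omega

end Irr

section Main

variable {K : Type*} [Field K] {Γ : Type*} [Group Γ] [Finite Γ] {V : Type*} [AddCommGroup V]
  [Module K V] [FiniteDimensional K V] [Nontrivial V]

/-- The submodule of equivariant maps. -/
def equivMaps {W : Type*} [AddCommGroup W] [Module K W] (ρ₁ : Γ →* Module.End K W)
    (ρ : Γ →* Module.End K V) : Submodule K (W →ₗ[K] V) where
  carrier := {f | ∀ a, f ∘ₗ ρ₁ a = ρ a ∘ₗ f}
  add_mem' := by
    intro f₁ f₂ h₁ h₂ a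
    rw [LinearMap.add_comp, LinearMap.comp_add, h₁ a, h₂ a]
  zero_mem' := by
    intro a
    rw [LinearMap.zero_comp, LinearMap.comp_zero]
  smul_mem' := by
    intro c f h a
    rw [LinearMap.smul_comp, LinearMap.comp_smul, h a]

theorem mem_equivMaps {W : Type*} [AddCommGroup W] [Module K W] (ρ₁ : Γ →* Module.End K W)
    (ρ : Γ →* Module.End K V) (f : W →ₗ[K] V) :
    f ∈ equivMaps ρ₁ ρ ↔ ∀ a, f ∘ₗ ρ₁ a = ρ a ∘ₗ f := Iff.rfl

/-- **Coprime critical case.** -/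
theorem cop_main [IsAlgClosed K] (r : ℕ) [hrp : Fact r.Prime] (hrK : (r : K) ≠ 0)
    (hcast : ∀ k : ℕ, k ∣ Nat.card Γ → (k : K) ≠ 0)
    (ρ : Γ →* Module.End K V) (Z : Subgroup Γ)
    (hcomm : ∀ a b : Γ, a * b * a⁻¹ * b⁻¹ ∈ Z)
    (hZs : ∀ z ∈ Z, ∃ c : K, ρ z = c • 1)
    (hnd : ∀ a : Γ, (∀ b : Γ, ρ (b * a * b⁻¹ * a⁻¹) = 1) → a ∈ Z)
    (hZtop : Z ≠ ⊤)
    (σ : Γ ≃* Γ) (hσZ : ∀ z ∈ Z, σ z = z) (hσm : ∀ a, σ^[r] a = a)
    (hfree : ∀ a, a ∉ Z → ∀ i, 0 < i → i < r → σ^[i] a * a⁻¹ ∉ Z)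
    (X : Module.End K V) (hX : X ^ r = 1) (hXρ : ∀ a, X * ρ a = ρ (σ a) * X)
    (hN : ∑ i ∈ Finset.range r, X ^ i = 0) :
    Z.index = (r - 1) ^ 2 := by
  classical
  have hrprime : r.Prime := hrp.out
  have hr0 : 0 < r := hrprime.pos
  obtain ⟨W, hWne, hWinv, hWmin⟩ := exists_min_invariant ρ
  haveI : Nontrivial W := Submodule.nontrivial_iff_ne_bot.mpr hWne
  obtain ⟨ρ₁, hρ₁⟩ : ∃ ρ₁ : Γ →* Module.End K W, ρ₁ = resRep ρ W hWinv := ⟨_, rfl⟩
  have hρ₁apply : ∀ (a : Γ) (w : W), ((ρ₁ a) w : V) = ρ a w := by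
    intro a w; rw [hρ₁]; rfl
  have hirr₁ : ∀ U : Submodule K W, (∀ a : Γ, ∀ w ∈ U, ρ₁ a w ∈ U) → U = ⊥ ∨ U = ⊤ := by
    rw [hρ₁]; exact resRep_irr ρ W hWinv hWmin
  have hZs₁ : ∀ z ∈ Z, ∃ c : K, ρ₁ z = c • 1 := by
    intro z hz
    obtain ⟨c, hc⟩ := hZs z hz
    refine ⟨c, ?_⟩
    ext w
    rw [hρ₁apply, hc]; rfl
  have hnd₁ : ∀ a : Γ, (∀ b : Γ, ρ₁ (b * a * b⁻¹ * a⁻¹) = 1) → a ∈ Z := by
    intro a ha
    apply hnd
    intro b
    obtain ⟨c, hc⟩ := hZs _ (hcomm b a)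
    have h1 := ha b
    obtain ⟨w, hw⟩ := exists_ne (0 : W)
    have h2 : ((ρ₁ (b * a * b⁻¹ * a⁻¹)) w : V) = c • (w : V) := by rw [hρ₁apply, hc]; rfl
    rw [h1] at h2
    have h3 : (1 - c) • (w : V) = 0 := by
      rw [sub_smul, one_smul]; exact sub_eq_zero.mpr h2
    rcases smul_eq_zero.mp h3 with h4 | h4
    · rw [hc, ← sub_eq_zero.mp h4, one_smul]
    · exact absurd (Subtype.ext h4) hw
  obtain ⟨g, hg1, hgint⟩ := cop_exists_intertwiner ρ₁ Z r hrprime.one_lt hcast hirr₁ hcomm hZs₁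
    hnd₁ σ hσZ hσm hfree
  obtain ⟨g', hg'def⟩ : ∃ g' : Module.End K W, g' = g ^ (r - 1) := ⟨_, rfl⟩
  have hgg' : g * g' = 1 := by
    rw [hg'def, ← pow_succ', Nat.sub_add_cancel hr0, hg1]
  have hg'g : g' * g = 1 := by
    rw [hg'def, ← pow_succ, Nat.sub_add_cancel hr0, hg1]
  -- the operator `f ↦ X ∘ f ∘ g'`
  let T : Module.End K (W →ₗ[K] V) :=
    { toFun := fun f => X ∘ₗ f ∘ₗ g'
      map_add' := by
        intro f₁ f₂
        ext w
        simp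
      map_smul' := by
        intro c f
        ext w
        simp }
  have hTapply : ∀ f : W →ₗ[K] V, T f = X ∘ₗ f ∘ₗ g' := fun f => rfl
  have hTE : ∀ f ∈ equivMaps ρ₁ ρ, T f ∈ equivMaps ρ₁ ρ := by
    intro f hf a
    have h1 : ∀ b, g' * ρ₁ (σ b) = ρ₁ b * g' := by
      intro b
      calc g' * ρ₁ (σ b) = g' * (ρ₁ (σ b) * g) * g' := by
            rw [mul_assoc, mul_assoc, hgg', mul_one]
        _ = g' * (g * ρ₁ b) * g' := by rw [hgint b]
        _ = ρ₁ b * g' := by rw [← mul_assoc, hg'g, one_mul]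
    have h2 : g' * ρ₁ a = ρ₁ (σ.symm a) * g' := by
      have := h1 (σ.symm a)
      rwa [MulEquiv.apply_symm_apply] at this
    have h3 : X * ρ (σ.symm a) = ρ a * X := by
      have := hXρ (σ.symm a)
      rwa [MulEquiv.apply_symm_apply] at this
    rw [hTapply]
    calc (X ∘ₗ f ∘ₗ g') ∘ₗ ρ₁ a = X ∘ₗ f ∘ₗ (g' * ρ₁ a) := rfl
      _ = X ∘ₗ f ∘ₗ (ρ₁ (σ.symm a) * g') := by rw [h2]
      _ = X ∘ₗ (f ∘ₗ ρ₁ (σ.symm a)) ∘ₗ g' := rfl
      _ = X ∘ₗ (ρ (σ.symm a) ∘ₗ f) ∘ₗ g' := by rw [hf]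
      _ = (X * ρ (σ.symm a)) ∘ₗ f ∘ₗ g' := rfl
      _ = (ρ a * X) ∘ₗ f ∘ₗ g' := by rw [h3]
      _ = ρ a ∘ₗ (X ∘ₗ f ∘ₗ g') := rfl
  have hsubE : W.subtype ∈ equivMaps ρ₁ ρ := by
    intro a
    ext w
    simp only [LinearMap.comp_apply, Submodule.subtype_apply]
    exact hρ₁apply a w
  haveI : Nontrivial (equivMaps ρ₁ ρ) := by
    refine ⟨⟨⟨W.subtype, hsubE⟩, 0, ?_⟩⟩
    intro h
    have h1 : W.subtype = 0 := congrArg Subtype.val h
    obtain ⟨w, hw⟩ := exists_ne (0 : W)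
    apply hw
    have h2 := congrArg (fun f : W →ₗ[K] V => f w) h1
    exact Subtype.ext h2
  obtain ⟨c, hc⟩ := Module.End.exists_eigenvalue (T.restrict hTE)
  obtain ⟨f, hf⟩ := hc.exists_hasEigenvector
  have hfne : (f : W →ₗ[K] V) ≠ 0 := by
    intro h
    exact hf.2 (Subtype.ext h)
  have hf1 : X ∘ₗ (f : W →ₗ[K] V) ∘ₗ g' = c • (f : W →ₗ[K] V) := by
    have h1 := hf.apply_eq_smul
    exact congrArg Subtype.val h1
  have hf2 : X ∘ₗ (f : W →ₗ[K] V) = (f : W →ₗ[K] V) ∘ₗ (c • g) := by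
    have h1 : (X ∘ₗ (f : W →ₗ[K] V) ∘ₗ g') ∘ₗ g = X ∘ₗ (f : W →ₗ[K] V) := by
      calc (X ∘ₗ (f : W →ₗ[K] V) ∘ₗ g') ∘ₗ g = X ∘ₗ (f : W →ₗ[K] V) ∘ₗ (g' * g) := rfl
        _ = X ∘ₗ (f : W →ₗ[K] V) := by rw [hg'g]; rfl
    rw [← h1, hf1, LinearMap.smul_comp, LinearMap.comp_smul]
  have hpow := comp_pow_intertwine X (c • g) (f : W →ₗ[K] V) hf2
  have hfE : ∀ a, (f : W →ₗ[K] V) ∘ₗ ρ₁ a = ρ a ∘ₗ (f : W →ₗ[K] V) := f.2
  have hker : LinearMap.ker (f : W →ₗ[K] V) = ⊥ := by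
    rcases hirr₁ (LinearMap.ker (f : W →ₗ[K] V)) (by
      intro a w hw
      rw [LinearMap.mem_ker] at hw ⊢
      have h1 := congrArg (fun φ : W →ₗ[K] V => φ w) (hfE a)
      simp only [LinearMap.comp_apply] at h1
      rw [h1, hw, map_zero]) with h | h
    · exact h
    · exfalso
      apply hfne
      exact LinearMap.ker_eq_top.mp h
  have hcr : c ^ r = 1 := by
    have h1 := hpow r
    rw [hX, smul_pow, hg1] at h1
    have h2 : (f : W →ₗ[K] V) = c ^ r • (f : W →ₗ[K] V) := by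
      calc (f : W →ₗ[K] V) = (1 : Module.End K V) ∘ₗ (f : W →ₗ[K] V) := rfl
        _ = (f : W →ₗ[K] V) ∘ₗ (c ^ r • (1 : Module.End K W)) := h1
        _ = c ^ r • (f : W →ₗ[K] V) := by rw [LinearMap.comp_smul]; rfl
    have h3 : (c ^ r - 1) • (f : W →ₗ[K] V) = 0 := by
      rw [sub_smul, one_smul, ← h2, sub_self]
    rcases smul_eq_zero.mp h3 with h4 | h4
    · exact sub_eq_zero.mp h4
    · exact absurd h4 hfne
  have hg₁1 : (c • g) ^ r = 1 := by rw [smul_pow, hcr, hg1, one_smul]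
  have hg₁int : ∀ a, (c • g) * ρ₁ a = ρ₁ (σ a) * (c • g) := by
    intro a
    rw [smul_mul_assoc, hgint, mul_smul_comm]
  have hg₁N : ∑ i ∈ Finset.range r, (c • g) ^ i = 0 := by
    have h1 : ∀ w : W, (f : W →ₗ[K] V) ((∑ i ∈ Finset.range r, (c • g) ^ i) w) = 0 := by
      intro w
      rw [LinearMap.sum_apply, map_sum]
      have h2 : ∀ i ∈ Finset.range r, (f : W →ₗ[K] V) (((c • g) ^ i) w) =
          (X ^ i) ((f : W →ₗ[K] V) w) := by
        intro i _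
        have := congrArg (fun φ : W →ₗ[K] V => φ w) (hpow i)
        simp only [LinearMap.comp_apply] at this
        exact this.symm
      rw [Finset.sum_congr rfl h2, ← LinearMap.sum_apply, hN, LinearMap.zero_apply]
    apply LinearMap.ext
    intro w
    have h3 : (∑ i ∈ Finset.range r, (c • g) ^ i) w ∈ LinearMap.ker (f : W →ₗ[K] V) := h1 w
    rw [hker, Submodule.mem_bot] at h3
    rw [h3]; rfl
  have hdim := cop_irr_dim ρ₁ Z r hrK hirr₁ hcomm hZs₁ hnd₁ hZtop σ hσZ hσm hfree (c • g) hg₁1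
    hg₁int hg₁N
  rw [← finrank_sq_eq_index ρ₁ Z hirr₁ hcomm hZs₁ hnd₁, hdim]

end Main

end Cfsg.Agent.H13.CopHH
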