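import Cfsg.Agent.H13.CopHH2

/-!
# Coprime Hall–Higman theorem (faithful representation form)

`chm`: a finite group `G` with a faithful representation `ρ` over an algebraically closed field
`K`, a `q`-subgroup `Q` normalised but not centralised by an element `x` with `x ^ r = 1`
(`r ≠ q` prime, `q, r ≠ 0` in `K`).  If `x` has no fixed vectors (`∑ ρ(x)^i = 0`), then `Q` is
non-abelian and `r - 1` is a power of `q` (so `q = 2` and `r` is a Fermat prime).
-/

set_option autoImplicit false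
set_option linter.style.haveILetI false
set_option linter.unusedVariables false
set_option linter.unusedSectionVars false

namespace Cfsg.Agent.H13.CopHH

open Module Cfsg.Agent.H66

open scoped commutatorElement

universe u v w

theorem chm {K : Type w} [Field K] [IsAlgClosed K] (q r : ℕ) [hqf : Fact q.Prime]
    [hrf : Fact r.Prime] (hqr : q ≠ r) (hqK : (q : K) ≠ 0) (hrK : (r : K) ≠ 0)
    {G : Type u} [Group G] [Finite G] {V : Type v} [AddCommGroup V] [Module K V]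
    [FiniteDimensional K V] (ρ : G →* Module.End K V) (hfaith : Function.Injective ρ)
    (Q : Subgroup G) (hQ : IsPGroup q Q) (x : G) (hxr : x ^ r = 1)
    (hxQ : x ∈ Subgroup.normalizer (Q : Set G)) (hh : ∃ a ∈ Q, x * a ≠ a * x)
    (hN : ∑ i ∈ Finset.range r, ρ x ^ i = 0) :
    (¬ ∀ a ∈ Q, ∀ b ∈ Q, a * b = b * a) ∧ ∃ m : ℕ, 1 ≤ m ∧ r - 1 = q ^ m := by
  classical
  have hq : q.Prime := hqf.out
  have hr : r.Prime := hrf.out
  have hr0 : 0 < r := hr.pos
  haveI : Nontrivial V := by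
    by_contra hcon
    rw [not_nontrivial_iff_subsingleton] at hcon
    obtain ⟨a, -, ha⟩ := hh
    apply ha
    have h1 : ρ (x * a) = ρ (a * x) := LinearMap.ext (fun v => Subsingleton.elim _ _)
    exact hfaith h1
  have hxr' : x ^ r ^ (0 + 1) = 1 := by rw [zero_add, pow_one]; exact hxr
  have hh' : ∃ a ∈ Q, x ^ r ^ 0 * a ≠ a * x ^ r ^ 0 := by
    rw [pow_zero, pow_one]; exact hh
  obtain ⟨Q₁, hQ₁Q, hgN, hy, hcomm1, hirrQ₁, habel, hnonab⟩ :=
    exists_minimal_special r q hqr.symm Q hQ x 0 hxr' hxQ hh'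
  have hy' := hy
  obtain ⟨a₀, ha₀, hya₀⟩ := hy'
  rw [pow_zero, pow_one] at hya₀
  have hQ₁q : IsPGroup q Q₁ := hQ.to_le hQ₁Q
  obtain ⟨kq, hkq⟩ := IsPGroup.iff_card.mp hQ₁q
  have hcast : ∀ k : ℕ, k ∣ Nat.card ↥Q₁ → (k : K) ≠ 0 := by
    intro k hk
    rw [hkq] at hk
    obtain ⟨j, -, rfl⟩ := (Nat.dvd_prime_pow hq).mp hk
    rw [Nat.cast_pow]; exact pow_ne_zero _ hqK
  have hcardK : ((Nat.card ↥Q₁ : ℕ) : K) ≠ 0 := hcast _ dvd_rfl
  have hgconj : ∀ d ∈ Q₁, x * d * x⁻¹ ∈ Q₁ := fun d hd =>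
    (Subgroup.mem_normalizer_iff.mp hgN d).mp hd
  haveI : Fintype ↥Q₁ := Fintype.ofFinite _
  by_cases hab : ∀ a ∈ Q₁, ∀ b ∈ Q₁, a * b = b * a
  · exfalso
    have hfree := habel hab
    rw [zero_add, pow_one] at hfree
    have hN' : ∑ i ∈ Finset.range r, ρ (x ^ i) = 0 := by
      rw [← hN]
      exact Finset.sum_congr rfl (fun i _ => map_pow ρ x i)
    obtain ⟨e, he⟩ : ∃ e : Module.End K V, e = ∑ a : ↥Q₁, ρ (a : G) := ⟨_, rfl⟩
    have hρe : ∀ b ∈ Q₁, ρ b * e = e := by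
      intro b hb
      rw [he, Finset.mul_sum,
        ← Equiv.sum_comp (Equiv.mulLeft (⟨b, hb⟩ : ↥Q₁)) (fun d : ↥Q₁ => ρ (d : G))]
      apply Finset.sum_congr rfl
      intro d _
      rw [← map_mul]
      rfl
    have hsum := frob_sum ρ Q₁ x r hr0 hgconj hfree hN'
    have h1 : ρ a₀ * e = e := hρe a₀ ha₀
    rw [he, hsum] at h1
    have h2 : ((Fintype.card ↥Q₁ : ℕ) : Module.End K V) =
        ((Nat.card ↥Q₁ : ℕ) : K) • (1 : Module.End K V) := by
      rw [Nat.card_eq_fintype_card, Nat.cast_smul_eq_nsmul, nsmul_one]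
    rw [h2, mul_smul_comm, mul_one] at h1
    have h3 : ρ a₀ = 1 := smul_right_injective _ hcardK h1
    have h4 : a₀ = 1 := hfaith (h3.trans (map_one ρ).symm)
    rw [h4] at hya₀
    simp at hya₀
  · obtain ⟨hfr, hcm, hΦy⟩ := hnonab hab
    refine ⟨fun hQab => hab (fun a ha b hb => hQab a (hQ₁Q ha) b (hQ₁Q hb)), ?_⟩
    have hirrQ₁' := hirrQ₁
    obtain ⟨Φ₁, hΦ₁⟩ : ∃ Φ₁ : Subgroup G, Φ₁ = (frattini ↥Q₁).map Q₁.subtype := ⟨_, rfl⟩
    rw [← hΦ₁] at hΦy hirrQ₁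
    have hΦx : ∀ z ∈ Φ₁, x * z = z * x := by
      intro z hz
      have := hΦy z hz
      rwa [pow_zero, pow_one] at this
    have hΦQ : Φ₁ ≤ Q₁ := by rw [hΦ₁]; exact Subgroup.map_subtype_le _
    have hmemΦ : ∀ a : ↥Q₁, (a : G) ∈ Φ₁ ↔ a ∈ Subgroup.center ↥Q₁ := by
      intro a
      rw [hΦ₁, ← hfr]
      constructor
      · rintro ⟨f, hf, hfe⟩
        have : f = a := Subtype.ext hfe
        rwa [← this]
      · intro h
        exact ⟨a, h, rfl⟩
    have hΦcomm : ∀ z ∈ Φ₁, ∀ a ∈ Q₁, z * a = a * z := by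
      intro z hz a ha
      have h1 : (⟨z, hΦQ hz⟩ : ↥Q₁) ∈ Subgroup.center ↥Q₁ := (hmemΦ ⟨z, hΦQ hz⟩).mp hz
      have h2 := Subgroup.mem_center_iff.mp h1 ⟨a, ha⟩
      exact (congrArg Subtype.val h2).symm
    have hcommQ : ∀ a b : ↥Q₁, a * b * a⁻¹ * b⁻¹ ∈ Subgroup.center ↥Q₁ := by
      intro a b
      rw [← hcm, commutator_def, ← commutatorElement_def]
      exact Subgroup.commutator_mem_commutator (Subgroup.mem_top a) (Subgroup.mem_top b)
    have hZtop : Subgroup.center ↥Q₁ ≠ ⊤ := by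
      intro h
      apply hab
      intro a ha b hb
      have h1 : (⟨a, ha⟩ : ↥Q₁) ∈ Subgroup.center ↥Q₁ := by rw [h]; trivial
      have h2 := Subgroup.mem_center_iff.mp h1 ⟨b, hb⟩
      exact (congrArg Subtype.val h2).symm
    -- a nontrivial element of `Φ₁`
    have hz₀ : ∃ z₀ ∈ Φ₁, z₀ ≠ 1 := by
      by_contra hcon
      push Not at hcon
      apply hab
      intro a ha b hb
      have h1 := hcommQ ⟨a, ha⟩ ⟨b, hb⟩
      have h2 := hcon _ ((hmemΦ _).mpr h1)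
      have h3 : a * b * a⁻¹ * b⁻¹ = 1 := h2
      calc a * b = (a * b * a⁻¹ * b⁻¹) * (b * a) := by group
        _ = b * a := by rw [h3, one_mul]
    obtain ⟨z₀, hz₀Φ, hz₀1⟩ := hz₀
    haveI : Fintype ↥Φ₁ := Fintype.ofFinite _
    obtain ⟨e, he⟩ : ∃ e : Module.End K V, e = ∑ z : ↥Φ₁, ρ (z : G) := ⟨_, rfl⟩
    have heρ : ∀ b ∈ Φ₁, e * ρ b = e := by
      intro b hb
      rw [he, Finset.sum_mul,
        ← Equiv.sum_comp (Equiv.mulRight (⟨b, hb⟩ : ↥Φ₁)) (fun d : ↥Φ₁ => ρ (d : G))]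
      apply Finset.sum_congr rfl
      intro d _
      rw [← map_mul]
      rfl
    have hker : LinearMap.ker e ≠ ⊥ := by
      intro hk
      apply hz₀1
      have h1 : ρ z₀ = 1 := by
        apply LinearMap.ext
        intro v
        have h2 : e (ρ z₀ v - v) = 0 := by
          rw [map_sub, ← Module.End.mul_apply, heρ z₀ hz₀Φ, sub_self]
        have h3 : ρ z₀ v - v ∈ LinearMap.ker e := h2
        rw [hk, Submodule.mem_bot] at h3
        rw [Module.End.one_apply]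
        exact sub_eq_zero.mp h3
      exact hfaith (h1.trans (map_one ρ).symm)
    obtain ⟨w, hwker, hw0, hweig⟩ := exists_common_eigenvector (ρ.comp Φ₁.subtype) (by
        intro a b
        show ρ (a : G) * ρ (b : G) = ρ (b : G) * ρ (a : G)
        rw [← map_mul, ← map_mul, hΦcomm a a.2 b (hΦQ b.2)])
      (LinearMap.ker e) hker (by
        intro a u hu
        rw [LinearMap.mem_ker] at hu ⊢
        show e (ρ (a : G) u) = 0
        rw [← Module.End.mul_apply, heρ _ a.2]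
        exact hu)
    have hex : ∀ z : G, ∃ c : K, z ∈ Φ₁ → ρ z w = c • w := by
      intro z
      by_cases hz : z ∈ Φ₁
      · obtain ⟨c, hc⟩ := hweig ⟨z, hz⟩
        exact ⟨c, fun _ => hc⟩
      · exact ⟨0, fun h => absurd h hz⟩
    choose χ hχ using hex
    obtain ⟨Vχ, hVχ⟩ : ∃ Vχ : Submodule K V, Vχ = wtSpace ρ Φ₁ χ := ⟨_, rfl⟩
    have hmemV : ∀ v, v ∈ Vχ ↔ ∀ z ∈ Φ₁, ρ z v = χ z • v := by
      intro v; rw [hVχ]; exact Iff.rfl
    have hwV : w ∈ Vχ := (hmemV w).mpr (fun z hz => hχ z hz)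
    haveI : Nontrivial ↥Vχ := by
      apply Submodule.nontrivial_iff_ne_bot.mpr
      intro h
      rw [h, Submodule.mem_bot] at hwV
      exact hw0 hwV
    have hχne : ∃ z₁ ∈ Φ₁, χ z₁ ≠ 1 := by
      by_contra hcon
      push Not at hcon
      have h1 : e w = (Nat.card ↥Φ₁ : K) • w := by
        rw [he, LinearMap.sum_apply,
          Finset.sum_congr rfl (fun (z : ↥Φ₁) _ => by rw [hχ z z.2, hcon z z.2, one_smul]),
          Finset.sum_const, Finset.card_univ, Nat.card_eq_fintype_card, Nat.cast_smul_eq_nsmul]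
      have hew : e w = 0 := hwker
      rw [hew] at h1
      rcases smul_eq_zero.mp h1.symm with h2 | h2
      · exact hcast _ (Subgroup.card_dvd_of_le hΦQ) h2
      · exact hw0 h2
    obtain ⟨z₁, hz₁Φ, hz₁χ⟩ := hχne
    -- invariance of the weight space
    have hinvc : ∀ c : G, (∀ z ∈ Φ₁, z * c = c * z) → ∀ v ∈ Vχ, ρ c v ∈ Vχ := by
      intro c hc v hv
      rw [hmemV] at hv ⊢
      intro z hz
      rw [← Module.End.mul_apply, ← map_mul, hc z hz, map_mul, Module.End.mul_apply, hv z hz,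
        map_smul]
    have hinvQ : ∀ a ∈ Q₁, ∀ v ∈ Vχ, ρ a v ∈ Vχ := fun a ha =>
      hinvc a (fun z hz => hΦcomm z hz a ha)
    have hinvx : ∀ v ∈ Vχ, ρ x v ∈ Vχ := hinvc x (fun z hz => (hΦx z hz).symm)
    have hinvx' : ∀ v ∈ Vχ, ρ x⁻¹ v ∈ Vχ := by
      apply hinvc
      intro z hz
      have h1 := hΦx z hz
      calc z * x⁻¹ = x⁻¹ * (x * z) * x⁻¹ := by group
        _ = x⁻¹ * (z * x) * x⁻¹ := by rw [h1]
        _ = x⁻¹ * z := by group
    obtain ⟨ρ', hρ'⟩ : ∃ ρ' : ↥Q₁ →* Module.End K ↥Vχ,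
        ρ' = resRep (ρ.comp Q₁.subtype) Vχ (fun a v hv => hinvQ a a.2 v hv) := ⟨_, rfl⟩
    have hρ'apply : ∀ (a : ↥Q₁) (v : ↥Vχ), ((ρ' a v : ↥Vχ) : V) = ρ (a : G) (v : V) := by
      intro a v; rw [hρ']; rfl
    obtain ⟨X, hXdef⟩ : ∃ X : Module.End K ↥Vχ, X = (ρ x).restrict hinvx := ⟨_, rfl⟩
    have hXapply : ∀ v : ↥Vχ, ((X v : ↥Vχ) : V) = ρ x (v : V) := by
      intro v; rw [hXdef]; rfl
    have hZs : ∀ z ∈ Subgroup.center ↥Q₁, ∃ c : K, ρ' z = c • 1 := by
      intro z hz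
      refine ⟨χ (z : G), ?_⟩
      apply LinearMap.ext
      intro v
      apply Subtype.ext
      rw [hρ'apply, (hmemV v).mp v.2 (z : G) ((hmemΦ z).mpr hz)]
      rfl
    -- the subgroup of elements acting centrally on the weight space
    let U : Subgroup G :=
      { carrier := {a | a ∈ Q₁ ∧ ∀ b ∈ Q₁, ∀ v ∈ Vχ, ρ b (ρ a v) = ρ a (ρ b v)}
        one_mem' := ⟨Q₁.one_mem, fun b hb v hv => by rw [map_one]; rfl⟩
        mul_mem' := by
          rintro a a' ⟨ha, hac⟩ ⟨ha', hac'⟩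
          refine ⟨Q₁.mul_mem ha ha', fun b hb v hv => ?_⟩
          rw [map_mul, Module.End.mul_apply, Module.End.mul_apply, hac b hb _ (hinvQ a' ha' v hv),
            hac' b hb v hv]
        inv_mem' := by
          rintro a ⟨ha, hac⟩
          refine ⟨Q₁.inv_mem ha, fun b hb v hv => ?_⟩
          have hu : ρ a⁻¹ v ∈ Vχ := hinvQ _ (Q₁.inv_mem ha) v hv
          have h1 := hac b hb _ hu
          have h2 : ρ a (ρ a⁻¹ v) = v := by
            rw [← Module.End.mul_apply, ← map_mul, mul_inv_cancel, map_one]; rfl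
          rw [h2] at h1
          have h3 : ρ a⁻¹ (ρ a (ρ b (ρ a⁻¹ v))) = ρ b (ρ a⁻¹ v) := by
            rw [← Module.End.mul_apply, ← map_mul, inv_mul_cancel, map_one]; rfl
          rw [← h3, ← h1] }
    have hUmem : ∀ a, a ∈ U ↔ a ∈ Q₁ ∧ ∀ b ∈ Q₁, ∀ v ∈ Vχ, ρ b (ρ a v) = ρ a (ρ b v) :=
      fun a => Iff.rfl
    have hUΦ : Φ₁ ≤ U := by
      intro z hz
      rw [hUmem]
      refine ⟨hΦQ hz, fun b hb v hv => ?_⟩
      rw [← Module.End.mul_apply, ← Module.End.mul_apply, ← map_mul, ← map_mul,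
        hΦcomm z hz b hb]
    have hUQ : U ≤ Q₁ := fun a ha => ((hUmem a).mp ha).1
    have hconjU : ∀ c : G, c ∈ Subgroup.normalizer (Q₁ : Set G) → (∀ v ∈ Vχ, ρ c v ∈ Vχ) →
        (∀ v ∈ Vχ, ρ c⁻¹ v ∈ Vχ) → ∀ a ∈ U, c * a * c⁻¹ ∈ U := by
      intro c hcN hc1 hc2 a ha
      rw [hUmem] at ha ⊢
      obtain ⟨haQ, hac⟩ := ha
      refine ⟨(Subgroup.mem_normalizer_iff.mp hcN a).mp haQ, fun b hb v hv => ?_⟩
      have hb' : c⁻¹ * b * c ∈ Q₁ := by
        have h1 := (Subgroup.mem_normalizer_iff.mp (Subgroup.inv_mem _ hcN) b).mp hb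
        rwa [inv_inv] at h1
      have h1 := hac _ hb' _ (hc2 v hv)
      have e1 : b * (c * a * c⁻¹) = c * (c⁻¹ * b * c) * a * c⁻¹ := by group
      have e2 : c * a * c⁻¹ * b = c * a * (c⁻¹ * b * c) * c⁻¹ := by group
      have hρmul : ∀ (g h : G) (u : V), ρ (g * h) u = ρ g (ρ h u) := by
        intro g h u; rw [map_mul, Module.End.mul_apply]
      calc ρ b (ρ (c * a * c⁻¹) v) = ρ (b * (c * a * c⁻¹)) v := (hρmul _ _ _).symm
        _ = ρ (c * (c⁻¹ * b * c) * a * c⁻¹) v := by rw [e1]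
        _ = ρ c (ρ (c⁻¹ * b * c) (ρ a (ρ c⁻¹ v))) := by
            rw [hρmul (c * (c⁻¹ * b * c) * a) c⁻¹, hρmul (c * (c⁻¹ * b * c)) a,
              hρmul c (c⁻¹ * b * c)]
        _ = ρ c (ρ a (ρ (c⁻¹ * b * c) (ρ c⁻¹ v))) := by rw [h1]
        _ = ρ (c * a * (c⁻¹ * b * c) * c⁻¹) v := by
            rw [hρmul (c * a * (c⁻¹ * b * c)) c⁻¹, hρmul (c * a) (c⁻¹ * b * c), hρmul c a]
        _ = ρ (c * a * c⁻¹ * b) v := by rw [e2]
        _ = ρ (c * a * c⁻¹) (ρ b v) := hρmul _ _ _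
    have hUx : Subgroup.zpowers x ≤ Subgroup.normalizer (U : Set G) := by
      rw [Subgroup.zpowers_le, Subgroup.mem_normalizer_iff]
      intro a
      constructor
      · exact hconjU x hgN hinvx hinvx' a
      · intro h
        have h1 := hconjU x⁻¹ (Subgroup.inv_mem _ hgN) hinvx' (by rw [inv_inv]; exact hinvx) _ h
        have e : x⁻¹ * (x * a * x⁻¹) * x⁻¹⁻¹ = a := by group
        rwa [e] at h1
    have hUeq : U = Φ₁ := by
      rcases hirrQ₁ U hUΦ hUQ hUx with h | h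
      · exact h
      · exfalso
        have hcomker : commutator ↥Q₁ ≤ ρ'.ker := by
          rw [commutator_def, Subgroup.commutator_le]
          intro g₁ _ g₂ _
          rw [MonoidHom.mem_ker]
          have h1 : ρ' (g₁ * g₂) = ρ' (g₂ * g₁) := by
            apply LinearMap.ext
            intro v
            apply Subtype.ext
            rw [hρ'apply, hρ'apply, Subgroup.coe_mul, Subgroup.coe_mul, map_mul, map_mul,
              Module.End.mul_apply, Module.End.mul_apply]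
            have h2 : (g₂ : G) ∈ U := by rw [h]; exact g₂.2
            exact ((hUmem _).mp h2).2 (g₁ : G) g₁.2 (v : V) v.2
          have e : ⁅g₁, g₂⁆ = (g₁ * g₂) * (g₂ * g₁)⁻¹ := by
            rw [commutatorElement_def]; group
          rw [e, map_mul, h1, ← map_mul, mul_inv_cancel, map_one]
        have h1 : (⟨z₁, hΦQ hz₁Φ⟩ : ↥Q₁) ∈ ρ'.ker := by
          apply hcomker
          rw [hcm]
          exact (hmemΦ _).mp hz₁Φ
        rw [MonoidHom.mem_ker] at h1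
        have h2 := congrArg (fun f : Module.End K ↥Vχ => ((f ⟨w, hwV⟩ : ↥Vχ) : V)) h1
        simp only [Module.End.one_apply] at h2
        rw [hρ'apply] at h2
        have h3 : χ z₁ • w = w := by
          rw [← hχ z₁ hz₁Φ]; exact h2
        have h4 : (χ z₁ - 1) • w = 0 := by rw [sub_smul, one_smul, h3, sub_self]
        rcases smul_eq_zero.mp h4 with h5 | h5
        · exact hz₁χ (sub_eq_zero.mp h5)
        · exact hw0 h5
    have hnd : ∀ a : ↥Q₁, (∀ b : ↥Q₁, ρ' (b * a * b⁻¹ * a⁻¹) = 1) →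
        a ∈ Subgroup.center ↥Q₁ := by
      intro a ha
      rw [← hmemΦ, ← hUeq, hUmem]
      refine ⟨a.2, fun b hb v hv => ?_⟩
      have h1 := ha ⟨b, hb⟩
      have h2 : ρ' (⟨b, hb⟩ * a) = ρ' (a * ⟨b, hb⟩) := by
        have e : (⟨b, hb⟩ : ↥Q₁) * a = (⟨b, hb⟩ * a * (⟨b, hb⟩ : ↥Q₁)⁻¹ * a⁻¹) * (a * ⟨b, hb⟩) := by
          group
        rw [e, map_mul, h1, one_mul]
      have h3 : ((ρ' (⟨b, hb⟩ * a) ⟨v, hv⟩ : ↥Vχ) : V) = ((ρ' (a * ⟨b, hb⟩) ⟨v, hv⟩ : ↥Vχ) : V) := by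
        rw [h2]
      rw [hρ'apply, hρ'apply, Subgroup.coe_mul, Subgroup.coe_mul, map_mul, map_mul,
        Module.End.mul_apply, Module.End.mul_apply] at h3
      exact h3
    obtain ⟨σ, hσ⟩ : ∃ σ : ↥Q₁ ≃* ↥Q₁, σ = Q₁.normalizerMonoidHom ⟨x, hgN⟩ := ⟨_, rfl⟩
    have hσiter : ∀ (i : ℕ) (a : ↥Q₁), (((⇑σ)^[i] a : ↥Q₁) : G) = x ^ i * a * (x ^ i)⁻¹ := by
      intro i a
      rw [hσ]
      exact normConj_iterate Q₁ ⟨x, hgN⟩ i a
    have hσcoe : ∀ a : ↥Q₁, ((σ a : ↥Q₁) : G) = x * a * x⁻¹ := by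
      intro a; rw [hσ]; rfl
    have hσZ : ∀ z ∈ Subgroup.center ↥Q₁, σ z = z := by
      intro z hz
      apply Subtype.ext
      rw [hσcoe, hΦx _ ((hmemΦ z).mpr hz), mul_inv_cancel_right]
    have hσm : ∀ a, (⇑σ)^[r] a = a := by
      intro a
      apply Subtype.ext
      rw [hσiter, hxr]
      simp
    have hfree : ∀ a, a ∉ Subgroup.center ↥Q₁ → ∀ i, 0 < i → i < r →
        (⇑σ)^[i] a * a⁻¹ ∉ Subgroup.center ↥Q₁ := by
      intro a ha i hi0 hi hmem
      apply ha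
      rw [← hmemΦ] at hmem ⊢
      have h1 : x ^ i * (a : G) * (x ^ i)⁻¹ * (a : G)⁻¹ ∈ Φ₁ := by
        have : (((⇑σ)^[i] a * a⁻¹ : ↥Q₁) : G) = x ^ i * (a : G) * (x ^ i)⁻¹ * (a : G)⁻¹ := by
          rw [Subgroup.coe_mul, hσiter]
          rfl
        rw [← this]; exact hmem
      rw [hΦ₁] at h1 ⊢
      exact frattini_free hqr.symm Q₁ hQ₁q x 0 hxr' hgN hirrQ₁' hy i hi0
        (by rw [zero_add, pow_one]; exact hi) a a.2 h1
    have hXpow : ∀ (k : ℕ) (v : ↥Vχ), (((X ^ k) v : ↥Vχ) : V) = (ρ x ^ k) (v : V) := by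
      intro k
      induction k with
      | zero => intro v; rfl
      | succ k ih =>
        intro v
        rw [pow_succ, pow_succ, Module.End.mul_apply, Module.End.mul_apply, ih, hXapply]
    have hXr : X ^ r = 1 := by
      apply LinearMap.ext
      intro v
      apply Subtype.ext
      rw [hXpow, ← map_pow, hxr, map_one]
      rfl
    have hXρ : ∀ a : ↥Q₁, X * ρ' a = ρ' (σ a) * X := by
      intro a
      apply LinearMap.ext
      intro v
      apply Subtype.ext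
      rw [Module.End.mul_apply, Module.End.mul_apply, hXapply, hρ'apply, hρ'apply, hXapply,
        hσcoe, ← Module.End.mul_apply, ← Module.End.mul_apply, ← map_mul, ← map_mul]
      congr 2
      group
    have hNX : ∑ i ∈ Finset.range r, X ^ i = 0 := by
      apply LinearMap.ext
      intro v
      apply Subtype.ext
      rw [LinearMap.sum_apply, Submodule.coe_sum,
        Finset.sum_congr rfl (fun i _ => hXpow i v), ← LinearMap.sum_apply, hN]
      rfl
    have hidx := cop_main r hrK hcast ρ' (Subgroup.center ↥Q₁) hcommQ hZs hnd hZtop σ hσZ hσm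
      hfree X hXr hXρ hNX
    have h1 : (Subgroup.center ↥Q₁).index ∣ q ^ kq := by
      rw [← hkq]; exact Subgroup.index_dvd_card _
    rw [hidx] at h1
    have h2 : r - 1 ∣ q ^ kq := (dvd_pow_self _ two_ne_zero).trans h1
    obtain ⟨b, -, hb⟩ := (Nat.dvd_prime_pow hq).mp h2
    refine ⟨b, ?_, hb⟩
    by_contra hb0
    have hb0' : b = 0 := by omega
    rw [hb0', pow_zero] at hb
    rw [hb, one_pow] at hidx
    exact hZtop (Subgroup.index_eq_one.mp hidx)

end Cfsg.Agent.H13.CopHH
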