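import Cfsg.Agent.H13.CopHH3
import Cfsg.Agent.H66.HHLin

/-!
# Coprime Hall–Higman: group forms

* `exists_lin`: linearisation of an action on an elementary abelian `p`-group, with the
  "norm vanishes" property.
* `cop_special`: extraspecial-type group `Γ` (centre of prime order `q`, class 2) with an
  automorphism of prime order `r` whose fixed points are exactly the centre, acting on a faithful
  module with compatible operator `X` without fixed vectors: `|Γ : Z(Γ)| = (r-1)^2`.
* `lin_group`, `chm_group`, `cop_special_group`: versions inside a finite group acting by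
  conjugation on an elementary abelian normal `p`-subgroup.
-/

set_option autoImplicit false
set_option linter.style.haveILetI false
set_option linter.unusedVariables false
set_option linter.unusedSectionVars false

namespace Cfsg.Agent.H13.CopHH

open Module Cfsg Cfsg.Agent.H66

open scoped TensorProduct

universe u v w

theorem exists_lin {E : Type u} [Group E] {M : Type v} [CommGroup M] [Finite M]
    (p : ℕ) [Fact p.Prime] (hM : ∀ m : M, m ^ p = 1) (c : E →* MulAut M)
    (K : Type w) [Field K] [Algebra (ZMod p) K] :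
    ∃ (V : Type (max v w)) (_ : AddCommGroup V) (_ : Module K V) (_ : FiniteDimensional K V)
      (ρ : E →* Module.End K V), (∀ e, ρ e = 1 ↔ c e = 1) ∧
      ∀ e (n : ℕ), (∀ m : M, ∏ i ∈ Finset.range n, ((c e) ^ i) m = 1) →
        ∑ i ∈ Finset.range n, (ρ e) ^ i = 0 := by
  classical
  have hp : p.Prime := Fact.out
  have hexp' : ∀ a : Additive M, p • a = 0 := fun a => by
    have := hM (Additive.toMul a)
    exact congrArg Additive.ofMul this
  haveI : Module (ZMod p) (Additive M) := AddCommGroup.zmodModule hexp'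
  obtain ⟨T, hTdef⟩ : ∃ T : E →* Module.End (ZMod p) (Additive M), T = zmodLinHom p c := ⟨_, rfl⟩
  have hT : ∀ e (m : M), T e (Additive.ofMul m) = Additive.ofMul (c e m) := by
    intro e m; rw [hTdef]; rfl
  obtain ⟨ρ, hρ⟩ : ∃ ρ : E →* Module.End K (K ⊗[ZMod p] Additive M),
      ρ = ((Module.End.baseChangeHom (ZMod p) K (Additive M) :
          Module.End (ZMod p) (Additive M) →ₐ[ZMod p] Module.End K (K ⊗[ZMod p] Additive M)) :
          Module.End (ZMod p) (Additive M) →* Module.End K (K ⊗[ZMod p] Additive M)).comp T :=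
    ⟨_, rfl⟩
  have hρapply : ∀ e, ρ e = Module.End.baseChangeHom (ZMod p) K (Additive M) (T e) := by
    intro e; rw [hρ]; rfl
  refine ⟨K ⊗[ZMod p] Additive M, inferInstance, inferInstance, inferInstance, ρ, ?_, ?_⟩
  · intro e
    constructor
    · intro he
      rw [hρapply] at he
      have h1 : T e = 1 := by
        have h0 : Module.End.baseChangeHom (ZMod p) K (Additive M) (T e) =
            Module.End.baseChangeHom (ZMod p) K (Additive M) 1 := by rw [he, map_one]
        exact LinearMap.baseChangeHom_injective (ZMod p) (Additive M) K h0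
      ext m
      have h2 := hT e m
      rw [h1] at h2
      exact (congrArg Additive.toMul h2).symm
    · intro he
      have h1 : T e = zmodLinHom p (MonoidHom.id (MulAut M)) (c e) := by rw [hTdef]; rfl
      rw [hρapply, h1, he, map_one, map_one]
  · intro e n hprod
    have h2 : ∑ i ∈ Finset.range n, (ρ e) ^ i =
        Module.End.baseChangeHom (ZMod p) K (Additive M) (∑ i ∈ Finset.range n, (T e) ^ i) := by
      rw [map_sum]
      apply Finset.sum_congr rfl
      intro i _
      rw [map_pow, hρapply]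
    have h3 : ∑ i ∈ Finset.range n, (T e) ^ i = 0 := by
      apply LinearMap.ext
      intro v
      have h4 : ∀ i (m : M), ((T e) ^ i) (Additive.ofMul m) = Additive.ofMul (((c e) ^ i) m) := by
        intro i
        induction i with
        | zero => intro m; rfl
        | succ i ih =>
          intro m
          rw [pow_succ', pow_succ', Module.End.mul_apply, ih, hT]
          rfl
      rw [← ofMul_toMul v, LinearMap.sum_apply, LinearMap.zero_apply]
      rw [Finset.sum_congr rfl (fun i _ => h4 i (Additive.toMul v)), ← ofMul_prod, hprod]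
      rfl
    rw [h2, h3, map_zero]

section Special

variable {K : Type*} [Field K] [IsAlgClosed K] {Γ : Type*} [Group Γ] [Finite Γ]
  {W : Type*} [AddCommGroup W] [Module K W] [FiniteDimensional K W]

theorem cop_special (q r : ℕ) [hqf : Fact q.Prime] [hrf : Fact r.Prime] (hqr : q ≠ r)
    (hqK : (q : K) ≠ 0) (hrK : (r : K) ≠ 0)
    (hΓ : IsPGroup q Γ) (hZq : Nat.card (Subgroup.center Γ) = q)
    (hZtop : Subgroup.center Γ ≠ ⊤)
    (hcomm : ∀ a b : Γ, a * b * a⁻¹ * b⁻¹ ∈ Subgroup.center Γ)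
    (ρ : Γ →* Module.End K W) (hinj : ∀ a, ρ a = 1 → a = 1)
    (σ : Γ ≃* Γ) (hσm : ∀ a, σ^[r] a = a) (hσfix : ∀ a, σ a = a ↔ a ∈ Subgroup.center Γ)
    (X : Module.End K W) (hX : X ^ r = 1) (hXρ : ∀ a, X * ρ a = ρ (σ a) * X)
    (hN : ∑ i ∈ Finset.range r, X ^ i = 0) :
    (Subgroup.center Γ).index = (r - 1) ^ 2 := by
  classical
  have hq : q.Prime := hqf.out
  have hr : r.Prime := hrf.out
  have hr0 : 0 < r := hr.pos
  obtain ⟨Z, hZ⟩ : ∃ Z : Subgroup Γ, Z = Subgroup.center Γ := ⟨_, rfl⟩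
  rw [← hZ] at hZq hZtop hcomm hσfix ⊢
  have hZc : ∀ z ∈ Z, ∀ a : Γ, z * a = a * z := by
    intro z hz a
    rw [hZ] at hz
    exact (Subgroup.mem_center_iff.mp hz a).symm
  obtain ⟨kq, hkq⟩ := IsPGroup.iff_card.mp hΓ
  have hcast : ∀ k : ℕ, k ∣ Nat.card Γ → (k : K) ≠ 0 := by
    intro k hk
    rw [hkq] at hk
    obtain ⟨j, -, rfl⟩ := (Nat.dvd_prime_pow hq).mp hk
    rw [Nat.cast_pow]; exact pow_ne_zero _ hqK
  -- a nontrivial central element
  obtain ⟨z₀, hz₀Z, hz₀1⟩ : ∃ z₀ ∈ Z, z₀ ≠ 1 := by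
    have h1 : Z ≠ ⊥ := by
      intro h
      rw [h, Subgroup.card_bot] at hZq
      exact hq.one_lt.ne hZq
    obtain ⟨z, hz⟩ := Subgroup.ne_bot_iff_exists_ne_one.mp h1
    exact ⟨z, z.2, fun h => hz (Subtype.ext h)⟩
  haveI : Nontrivial W := by
    by_contra hcon
    rw [not_nontrivial_iff_subsingleton] at hcon
    apply hz₀1
    apply hinj
    exact LinearMap.ext (fun v => Subsingleton.elim _ _)
  haveI : Fintype ↥Z := Fintype.ofFinite _
  obtain ⟨e, he⟩ : ∃ e : Module.End K W, e = ∑ z : ↥Z, ρ (z : Γ) := ⟨_, rfl⟩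
  have heρ : ∀ b ∈ Z, e * ρ b = e := by
    intro b hb
    rw [he, Finset.sum_mul,
      ← Equiv.sum_comp (Equiv.mulRight (⟨b, hb⟩ : ↥Z)) (fun d : ↥Z => ρ (d : Γ))]
    apply Finset.sum_congr rfl
    intro d _
    rw [← map_mul]
    rfl
  have hker : LinearMap.ker e ≠ ⊥ := by
    intro hk
    apply hz₀1
    apply hinj
    apply LinearMap.ext
    intro v
    have h2 : e (ρ z₀ v - v) = 0 := by
      rw [map_sub, ← Module.End.mul_apply, heρ z₀ hz₀Z, sub_self]
    have h3 : ρ z₀ v - v ∈ LinearMap.ker e := h2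
    rw [hk, Submodule.mem_bot] at h3
    rw [Module.End.one_apply]
    exact sub_eq_zero.mp h3
  obtain ⟨w, hwker, hw0, hweig⟩ := exists_common_eigenvector (ρ.comp Z.subtype) (by
      intro a b
      show ρ (a : Γ) * ρ (b : Γ) = ρ (b : Γ) * ρ (a : Γ)
      rw [← map_mul, ← map_mul, hZc a a.2 b])
    (LinearMap.ker e) hker (by
      intro a u hu
      rw [LinearMap.mem_ker] at hu ⊢
      show e (ρ (a : Γ) u) = 0
      rw [← Module.End.mul_apply, heρ _ a.2]
      exact hu)
  have hex : ∀ z : Γ, ∃ c : K, z ∈ Z → ρ z w = c • w := by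
    intro z
    by_cases hz : z ∈ Z
    · obtain ⟨c, hc⟩ := hweig ⟨z, hz⟩
      exact ⟨c, fun _ => hc⟩
    · exact ⟨0, fun h => absurd h hz⟩
  choose χ hχ using hex
  obtain ⟨Vχ, hVχ⟩ : ∃ Vχ : Submodule K W, Vχ = wtSpace ρ Z χ := ⟨_, rfl⟩
  have hmemV : ∀ v, v ∈ Vχ ↔ ∀ z ∈ Z, ρ z v = χ z • v := by
    intro v; rw [hVχ]; exact Iff.rfl
  have hwV : w ∈ Vχ := (hmemV w).mpr (fun z hz => hχ z hz)
  haveI : Nontrivial ↥Vχ := by
    apply Submodule.nontrivial_iff_ne_bot.mpr
    intro h
    rw [h, Submodule.mem_bot] at hwV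
    exact hw0 hwV
  have hχne : ∃ z₁ ∈ Z, χ z₁ ≠ 1 := by
    by_contra hcon
    push Not at hcon
    have h1 : e w = (Nat.card ↥Z : K) • w := by
      rw [he, LinearMap.sum_apply,
        Finset.sum_congr rfl (fun (z : ↥Z) _ => by rw [hχ z z.2, hcon z z.2, one_smul]),
        Finset.sum_const, Finset.card_univ, Nat.card_eq_fintype_card, Nat.cast_smul_eq_nsmul]
    have hew : e w = 0 := hwker
    rw [hew, hZq] at h1
    rcases smul_eq_zero.mp h1.symm with h2 | h2
    · exact hqK h2
    · exact hw0 h2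
  obtain ⟨z₁, hz₁Z, hz₁χ⟩ := hχne
  have hinvρ : ∀ (a : Γ), ∀ v ∈ Vχ, ρ a v ∈ Vχ := by
    intro a v hv
    rw [hmemV] at hv ⊢
    intro z hz
    rw [← Module.End.mul_apply, ← map_mul, hZc z hz a, map_mul, Module.End.mul_apply, hv z hz,
      map_smul]
  have hσZ : ∀ z ∈ Z, σ z = z := fun z hz => (hσfix z).mpr hz
  have hinvX : ∀ v ∈ Vχ, X v ∈ Vχ := by
    intro v hv
    rw [hmemV] at hv ⊢
    intro z hz
    have h1 := hXρ z
    rw [hσZ z hz] at h1
    rw [← Module.End.mul_apply, ← h1, Module.End.mul_apply, hv z hz, map_smul]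
  obtain ⟨ρ', hρ'⟩ : ∃ ρ' : Γ →* Module.End K ↥Vχ, ρ' = resRep ρ Vχ hinvρ := ⟨_, rfl⟩
  have hρ'apply : ∀ (a : Γ) (v : ↥Vχ), ((ρ' a v : ↥Vχ) : W) = ρ a (v : W) := by
    intro a v; rw [hρ']; rfl
  obtain ⟨X', hX'def⟩ : ∃ X' : Module.End K ↥Vχ, X' = X.restrict hinvX := ⟨_, rfl⟩
  have hX'apply : ∀ v : ↥Vχ, ((X' v : ↥Vχ) : W) = X (v : W) := by
    intro v; rw [hX'def]; rfl
  have hZs : ∀ z ∈ Z, ∃ c : K, ρ' z = c • 1 := by
    intro z hz
    refine ⟨χ z, ?_⟩
    apply LinearMap.ext
    intro v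
    apply Subtype.ext
    rw [hρ'apply, (hmemV v).mp v.2 z hz]
    rfl
  have hnd : ∀ a : Γ, (∀ b : Γ, ρ' (b * a * b⁻¹ * a⁻¹) = 1) → a ∈ Z := by
    intro a ha
    rw [hZ, Subgroup.mem_center_iff]
    intro b
    obtain ⟨c, hc⟩ : ∃ c : Γ, c = b * a * b⁻¹ * a⁻¹ := ⟨_, rfl⟩
    have hcZ : c ∈ Z := by rw [hc]; exact hcomm b a
    have h1 : ρ c w = w := by
      have h2 := congrArg (fun f : Module.End K ↥Vχ => ((f ⟨w, hwV⟩ : ↥Vχ) : W)) (ha b)
      simp only [Module.End.one_apply] at h2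
      rw [hρ'apply, ← hc] at h2
      exact h2
    have hc1 : c = 1 := by
      by_contra hne
      haveI : Fact q.Prime := hqf
      have h3 : Subgroup.zpowers (⟨c, hcZ⟩ : ↥Z) = ⊤ :=
        zpowers_eq_top_of_prime_card hZq (fun h => hne (congrArg Subtype.val h))
      have h4 : (⟨z₁, hz₁Z⟩ : ↥Z) ∈ Subgroup.zpowers (⟨c, hcZ⟩ : ↥Z) := by rw [h3]; trivial
      rw [← mem_powers_iff_mem_zpowers, Submonoid.mem_powers_iff] at h4
      obtain ⟨n, hn⟩ := h4
      have h5 : c ^ n = z₁ := congrArg Subtype.val hn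
      have h6 : ρ z₁ w = w := by
        rw [← h5, map_pow, pow_apply_eigen (ρ c) w 1 (by rw [h1, one_smul]) n, one_pow, one_smul]
      apply hz₁χ
      have h7 : (χ z₁ - 1) • w = 0 := by rw [sub_smul, one_smul, ← hχ z₁ hz₁Z, h6, sub_self]
      rcases smul_eq_zero.mp h7 with h8 | h8
      · exact sub_eq_zero.mp h8
      · exact absurd h8 hw0
    rw [hc] at hc1
    calc b * a = (b * a * b⁻¹ * a⁻¹) * (a * b) := by group
      _ = a * b := by rw [hc1, one_mul]
  have hiter_mul : ∀ (i : ℕ) (a b : Γ), (⇑σ)^[i] (a * b) = (⇑σ)^[i] a * (⇑σ)^[i] b := by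
    intro i
    induction i with
    | zero => intro a b; rfl
    | succ i ih =>
      intro a b
      rw [Function.iterate_succ_apply, Function.iterate_succ_apply, Function.iterate_succ_apply,
        map_mul, ih]
  have hiterZ : ∀ (i : ℕ), ∀ z ∈ Z, (⇑σ)^[i] z = z := by
    intro i z hz
    induction i with
    | zero => rfl
    | succ i ih => rw [Function.iterate_succ_apply, hσZ z hz, ih]
  have hfree : ∀ a, a ∉ Z → ∀ i, 0 < i → i < r → (⇑σ)^[i] a * a⁻¹ ∉ Z := by
    intro a ha i hi0 hi hmem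
    apply ha
    obtain ⟨z, hz⟩ : ∃ z : Γ, z = (⇑σ)^[i] a * a⁻¹ := ⟨_, rfl⟩
    rw [← hz] at hmem
    have h1 : (⇑σ)^[i] a = z * a := by rw [hz]; group
    have h2 : ∀ j : ℕ, (⇑σ)^[i * j] a = z ^ j * a := by
      intro j
      induction j with
      | zero => simp
      | succ j ih =>
        rw [Nat.mul_succ, Function.iterate_add_apply, h1, hiter_mul, hiterZ _ z hmem, ih,
          pow_succ']
        group
    have h3 : z ^ r = 1 := by
      have h4 := h2 r
      rw [mul_comm, iterate_mod (⇑σ) r hσm, Nat.mul_mod_right] at h4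
      have h5 : a = z ^ r * a := h4
      exact (mul_eq_right.mp h5.symm)
    have h4 : z ^ q = 1 := by
      have h5 : (⟨z, hmem⟩ : ↥Z) ^ q = 1 := by
        rw [← hZq]; exact pow_card_eq_one'
      exact congrArg Subtype.val h5
    have hz1 : z = 1 := by
      have h5 : orderOf z ∣ Nat.gcd r q := Nat.dvd_gcd (orderOf_dvd_of_pow_eq_one h3)
        (orderOf_dvd_of_pow_eq_one h4)
      have h6 : Nat.gcd r q = 1 := (Nat.coprime_primes hr hq).mpr hqr.symm
      rw [h6] at h5
      exact orderOf_eq_one_iff.mp (Nat.dvd_one.mp h5)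
    rw [hz1, one_mul] at h1
    have hcop : Nat.Coprime i r := by
      rw [Nat.coprime_comm]
      exact (Nat.Prime.coprime_iff_not_dvd hr).mpr (fun h => by
        have := Nat.le_of_dvd hi0 h
        omega)
    obtain ⟨m, -, hm⟩ := Nat.exists_mul_mod_eq_one_of_coprime hcop hr.one_lt
    have h5 : (⇑σ)^[i * m] a = a := by
      have h6 := h2 m
      rw [hz1, one_pow, one_mul] at h6
      exact h6
    rw [iterate_mod (⇑σ) r hσm, hm] at h5
    exact (hσfix a).mp h5
  have hX'pow : ∀ (k : ℕ) (v : ↥Vχ), (((X' ^ k) v : ↥Vχ) : W) = (X ^ k) (v : W) := by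
    intro k
    induction k with
    | zero => intro v; rfl
    | succ k ih =>
      intro v
      rw [pow_succ, pow_succ, Module.End.mul_apply, Module.End.mul_apply, ih, hX'apply]
  have hX'r : X' ^ r = 1 := by
    apply LinearMap.ext
    intro v
    apply Subtype.ext
    rw [hX'pow, hX]
    rfl
  have hX'ρ : ∀ a : Γ, X' * ρ' a = ρ' (σ a) * X' := by
    intro a
    apply LinearMap.ext
    intro v
    apply Subtype.ext
    rw [Module.End.mul_apply, Module.End.mul_apply, hX'apply, hρ'apply, hρ'apply, hX'apply,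
      ← Module.End.mul_apply, ← Module.End.mul_apply, hXρ]
  have hNX' : ∑ i ∈ Finset.range r, X' ^ i = 0 := by
    apply LinearMap.ext
    intro v
    apply Subtype.ext
    rw [LinearMap.sum_apply, Submodule.coe_sum,
      Finset.sum_congr rfl (fun i _ => hX'pow i v), ← LinearMap.sum_apply, hN]
    rfl
  exact cop_main r hrK hcast ρ' Z hcomm hZs hnd hZtop σ hσZ hσm hfree X' hX'r hX'ρ hNX'

end Special

end Cfsg.Agent.H13.CopHH
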