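import Cfsg.Agent.H13.CopHH4

/-!
# Coprime Hall–Higman inside a finite group

`V` an elementary abelian `p`-subgroup of `G`, `Q` a `q`-subgroup and `x` an element with
`x ^ r = 1`, both normalising `V`, `x` normalising `Q`, with `C_V(x) = 1`
(`p, q, r` distinct primes).

* `chm_group`: `[x, Q]` centralises `V`, unless `Q` is non-abelian and `r - 1` is a power of `q`.
* `chm_group_odd`: for `q`, `r` odd, `[x, Q]` centralises `V`.
* `cop_special_group`: if `Q` has centre of order `q`, class 2, `C_Q(x) = Z(Q) ≠ Q` and `Q` is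
  faithful on `V`, then `|Q : Z(Q)| = (r - 1)^2`.
-/

set_option autoImplicit false
set_option linter.style.haveILetI false
set_option linter.unusedVariables false
set_option linter.unusedSectionVars false

namespace Cfsg.Agent.H13.CopHH

open Module Cfsg Cfsg.Agent.H66

universe u

variable {G : Type u} [Group G] [Finite G]

open scoped IsMulCommutative in
theorem lin_group (p : ℕ) [Fact p.Prime] (V : Subgroup G) (hV : Cfsg.IsElementaryAbelian p V) :
    ∃ (W : Type u) (_ : AddCommGroup W) (_ : Module (AlgebraicClosure (ZMod p)) W)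
      (_ : FiniteDimensional (AlgebraicClosure (ZMod p)) W)
      (ρ : MulAut ↥V →* Module.End (AlgebraicClosure (ZMod p)) W), Function.Injective ρ ∧
      ∀ (n : ↥(Subgroup.normalizer (V : Set G))) (k : ℕ), (n : G) ^ k = 1 →
        V ⊓ Subgroup.centralizer {(n : G)} = ⊥ →
        ∑ i ∈ Finset.range k, ρ (V.normalizerMonoidHom n) ^ i = 0 := by
  classical
  haveI : IsMulCommutative V := hV.1
  have hM : ∀ m : ↥V, m ^ p = 1 := fun m =>
    Subtype.ext (by rw [Subgroup.coe_pow]; exact hV.2 m m.2)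
  obtain ⟨W, i1, i2, i3, ρ, hρ1, hρ2⟩ :=
    exists_lin p hM (MonoidHom.id (MulAut ↥V)) (AlgebraicClosure (ZMod p))
  refine ⟨W, i1, i2, i3, ρ, ?_, ?_⟩
  · intro a b hab
    have h1 : ρ (a⁻¹ * b) = 1 := by
      rw [map_mul, ← hab, ← map_mul, inv_mul_cancel, map_one]
    have h2 := (hρ1 _).mp h1
    exact inv_mul_eq_one.mp h2
  · intro n k hnk hfix
    apply hρ2
    intro m
    obtain ⟨α, hα⟩ : ∃ α : MulAut ↥V, α = V.normalizerMonoidHom n := ⟨_, rfl⟩
    show ∏ i ∈ Finset.range k, ((V.normalizerMonoidHom n) ^ i) m = 1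
    rw [← hα]
    have hαk : α ^ k = 1 := by
      rw [hα, ← map_pow]
      have h1 : n ^ k = 1 := Subtype.ext (by rw [Subgroup.coe_pow]; exact hnk)
      rw [h1, map_one]
    obtain ⟨u, hu⟩ : ∃ u : ↥V, u = ∏ i ∈ Finset.range k, (α ^ i) m := ⟨_, rfl⟩
    rw [← hu]
    have hαu : α u = u := by
      rw [hu, map_prod]
      have h1 := Finset.prod_range_succ (fun i => (α ^ i) m) k
      have h2 := Finset.prod_range_succ' (fun i => (α ^ i) m) k
      have h3 : (α ^ k) m = (α ^ 0) m := by rw [hαk, pow_zero]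
      have h4 : ∏ i ∈ Finset.range k, α ((α ^ i) m) = ∏ i ∈ Finset.range k, (α ^ (i + 1)) m := by
        apply Finset.prod_congr rfl
        intro i _
        rw [pow_succ', MulAut.mul_apply]
      rw [h4]
      rw [h1, h3] at h2
      exact (mul_right_cancel h2).symm
    have h5 : (u : G) ∈ V ⊓ Subgroup.centralizer {(n : G)} := by
      refine ⟨u.2, ?_⟩
      show (u : G) ∈ Subgroup.centralizer {(n : G)}
      rw [Subgroup.mem_centralizer_iff]
      intro h hh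
      rw [Set.mem_singleton_iff] at hh
      rw [hh]
      have h6 : ((α u : ↥V) : G) = (n : G) * u * (n : G)⁻¹ := by rw [hα]; rfl
      rw [hαu] at h6
      calc (n : G) * (u : G) = ((n : G) * u * (n : G)⁻¹) * (n : G) := by group
        _ = (u : G) * (n : G) := by rw [← h6]
    rw [hfix, Subgroup.mem_bot] at h5
    exact Subtype.ext h5

theorem normalizerMonoidHom_eq_one_iff (V : Subgroup G)
    (n : ↥(Subgroup.normalizer (V : Set G))) :
    V.normalizerMonoidHom n = 1 ↔ (n : G) ∈ Subgroup.centralizer (V : Set G) := by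
  constructor
  · intro h
    rw [Subgroup.mem_centralizer_iff]
    intro v hv
    have h1 := congrArg (fun f : MulAut ↥V => ((f ⟨v, hv⟩ : ↥V) : G)) h
    have h2 : (n : G) * v * (n : G)⁻¹ = v := h1
    calc v * (n : G) = ((n : G) * v * (n : G)⁻¹) * (n : G) := by rw [h2]
      _ = (n : G) * v := by group
  · intro h
    ext v
    rw [Subgroup.mem_centralizer_iff] at h
    have h1 := h (v : G) v.2
    show (n : G) * v * (n : G)⁻¹ = v
    rw [← h1, mul_inv_cancel_right]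

/-- **Coprime Hall–Higman**, group form. -/
theorem chm_group (p q r : ℕ) [hpf : Fact p.Prime] [hqf : Fact q.Prime] [hrf : Fact r.Prime]
    (hpq : p ≠ q) (hpr : p ≠ r) (hqr : q ≠ r) (V Q : Subgroup G) (x : G)
    (hV : Cfsg.IsElementaryAbelian p V) (hQ : IsPGroup q Q) (hxr : x ^ r = 1)
    (hxQ : x ∈ Subgroup.normalizer (Q : Set G)) (hxV : x ∈ Subgroup.normalizer (V : Set G))
    (hQV : Q ≤ Subgroup.normalizer (V : Set G)) (hCV : V ⊓ Subgroup.centralizer {x} = ⊥) :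
    (∀ a ∈ Q, x * a * x⁻¹ * a⁻¹ ∈ Subgroup.centralizer (V : Set G)) ∨
      ((¬ ∀ a ∈ Q, ∀ b ∈ Q, a * b = b * a) ∧ ∃ m : ℕ, 1 ≤ m ∧ r - 1 = q ^ m) := by
  classical
  have hp : p.Prime := hpf.out
  have hq : q.Prime := hqf.out
  have hr : r.Prime := hrf.out
  obtain ⟨W, i1, i2, i3, ρ, hρinj, hρN⟩ := lin_group p V hV
  obtain ⟨φ, hφ⟩ : ∃ φ : ↥(Subgroup.normalizer (V : Set G)) →* MulAut ↥V,
      φ = V.normalizerMonoidHom := ⟨_, rfl⟩
  obtain ⟨x', hx'⟩ : ∃ x' : MulAut ↥V, x' = φ ⟨x, hxV⟩ := ⟨_, rfl⟩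
  obtain ⟨Q', hQ'⟩ : ∃ Q' : Subgroup (MulAut ↥V),
      Q' = (Q.subgroupOf (Subgroup.normalizer (V : Set G))).map φ := ⟨_, rfl⟩
  have hmemQ' : ∀ a (ha : a ∈ Q), φ ⟨a, hQV ha⟩ ∈ Q' := by
    intro a ha
    rw [hQ']
    exact Subgroup.mem_map_of_mem φ (Subgroup.mem_subgroupOf.mpr ha)
  have hexQ' : ∀ a' ∈ Q', ∃ a, ∃ ha : a ∈ Q, a' = φ ⟨a, hQV ha⟩ := by
    intro a' ha'
    rw [hQ'] at ha'
    obtain ⟨b, hb, rfl⟩ := ha'
    exact ⟨(b : G), Subgroup.mem_subgroupOf.mp hb, rfl⟩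
  by_cases hc : ∀ a' ∈ Q', x' * a' = a' * x'
  · left
    intro a ha
    have h1 := hc _ (hmemQ' a ha)
    rw [hx', ← map_mul, ← map_mul] at h1
    have hcN : x * a * x⁻¹ * a⁻¹ ∈ Subgroup.normalizer (V : Set G) :=
      Subgroup.mul_mem _ (Subgroup.mul_mem _ (Subgroup.mul_mem _ hxV (hQV ha))
        (Subgroup.inv_mem _ hxV)) (Subgroup.inv_mem _ (hQV ha))
    have h2 : φ ⟨x * a * x⁻¹ * a⁻¹, hcN⟩ = 1 := by
      have e : (⟨x * a * x⁻¹ * a⁻¹, hcN⟩ : ↥(Subgroup.normalizer (V : Set G))) =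
          (⟨x, hxV⟩ * ⟨a, hQV ha⟩) * (⟨a, hQV ha⟩ * ⟨x, hxV⟩)⁻¹ := by
        apply Subtype.ext
        simp only [Subgroup.coe_mul, Subgroup.coe_inv]
        group
      rw [e, map_mul, h1, ← map_mul, mul_inv_cancel, map_one]
    rw [hφ] at h2
    exact (normalizerMonoidHom_eq_one_iff V _).mp h2
  · right
    push Not at hc
    obtain ⟨a', ha', hne⟩ := hc
    have hqK : ((q : ℕ) : AlgebraicClosure (ZMod p)) ≠ 0 := by
      intro h
      rw [CharP.cast_eq_zero_iff (AlgebraicClosure (ZMod p)) p] at h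
      exact hpq ((Nat.prime_dvd_prime_iff_eq hp hq).mp h)
    have hrK : ((r : ℕ) : AlgebraicClosure (ZMod p)) ≠ 0 := by
      intro h
      rw [CharP.cast_eq_zero_iff (AlgebraicClosure (ZMod p)) p] at h
      exact hpr ((Nat.prime_dvd_prime_iff_eq hp hr).mp h)
    have hQ'q : IsPGroup q Q' := by
      rw [hQ']
      exact (hQ.comap_subtype (K := Subgroup.normalizer (V : Set G))).map φ
    have hx'r : x' ^ r = 1 := by
      rw [hx', ← map_pow]
      have h1 : (⟨x, hxV⟩ : ↥(Subgroup.normalizer (V : Set G))) ^ r = 1 :=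
        Subtype.ext (by rw [Subgroup.coe_pow]; exact hxr)
      rw [h1, map_one]
    have hx'N : x' ∈ Subgroup.normalizer (Q' : Set (MulAut ↥V)) := by
      rw [hQ', hx']
      apply Subgroup.le_normalizer_map φ
      refine ⟨⟨x, hxV⟩, ?_, rfl⟩
      show (⟨x, hxV⟩ : ↥(Subgroup.normalizer (V : Set G))) ∈ Subgroup.normalizer
        ((Q.subgroupOf (Subgroup.normalizer (V : Set G)) : Subgroup _) : Set _)
      rw [Subgroup.mem_normalizer_iff]
      intro a
      rw [Subgroup.mem_subgroupOf, Subgroup.mem_subgroupOf]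
      exact Subgroup.mem_normalizer_iff.mp hxQ (a : G)
    have hN : ∑ i ∈ Finset.range r, ρ x' ^ i = 0 := by
      rw [hx', hφ]
      exact hρN ⟨x, hxV⟩ r hxr hCV
    obtain ⟨hnab, m, hm1, hm⟩ := chm q r hqr hqK hrK ρ hρinj Q' hQ'q x' hx'r hx'N ⟨a', ha', hne⟩ hN
    refine ⟨fun hab => hnab ?_, m, hm1, hm⟩
    intro a₁ ha₁ b₁ hb₁
    obtain ⟨a, ha, rfl⟩ := hexQ' a₁ ha₁
    obtain ⟨b, hb, rfl⟩ := hexQ' b₁ hb₁
    rw [← map_mul, ← map_mul]
    congr 1
    exact Subtype.ext (hab a ha b hb)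

/-- Coprime Hall–Higman for odd primes `q`, `r`: no exception. -/
theorem chm_group_odd (p q r : ℕ) [hpf : Fact p.Prime] [hqf : Fact q.Prime] [hrf : Fact r.Prime]
    (hpq : p ≠ q) (hpr : p ≠ r) (hqr : q ≠ r) (hq2 : q ≠ 2) (hr2 : r ≠ 2) (V Q : Subgroup G)
    (x : G) (hV : Cfsg.IsElementaryAbelian p V) (hQ : IsPGroup q Q) (hxr : x ^ r = 1)
    (hxQ : x ∈ Subgroup.normalizer (Q : Set G)) (hxV : x ∈ Subgroup.normalizer (V : Set G))
    (hQV : Q ≤ Subgroup.normalizer (V : Set G)) (hCV : V ⊓ Subgroup.centralizer {x} = ⊥) :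
    ∀ a ∈ Q, x * a * x⁻¹ * a⁻¹ ∈ Subgroup.centralizer (V : Set G) := by
  rcases chm_group p q r hpq hpr hqr V Q x hV hQ hxr hxQ hxV hQV hCV with h | ⟨-, m, hm1, hm⟩
  · exact h
  · exfalso
    have hq : q.Prime := hqf.out
    have hr : r.Prime := hrf.out
    have hqodd : Odd q := hq.odd_of_ne_two hq2
    have hrodd : Odd r := hr.odd_of_ne_two hr2
    have h1 : Odd (q ^ m) := hqodd.pow
    rw [← hm] at h1
    obtain ⟨k, hk⟩ := hrodd
    obtain ⟨j, hj⟩ := h1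
    omega

/-- Extraspecial-type case inside a group: the index formula. -/
theorem cop_special_group (p q r : ℕ) [hpf : Fact p.Prime] [hqf : Fact q.Prime]
    [hrf : Fact r.Prime] (hpq : p ≠ q) (hpr : p ≠ r) (hqr : q ≠ r) (V Q : Subgroup G) (x : G)
    (hV : Cfsg.IsElementaryAbelian p V) (hQ : IsPGroup q Q)
    (hZq : Nat.card (Subgroup.center ↥Q) = q) (hZtop : Subgroup.center ↥Q ≠ ⊤)
    (hcomm : ∀ a b : ↥Q, a * b * a⁻¹ * b⁻¹ ∈ Subgroup.center ↥Q)
    (hxr : x ^ r = 1)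
    (hxQ : x ∈ Subgroup.normalizer (Q : Set G)) (hxV : x ∈ Subgroup.normalizer (V : Set G))
    (hQV : Q ≤ Subgroup.normalizer (V : Set G))
    (hCQ : ∀ a : ↥Q, x * (a : G) = (a : G) * x ↔ a ∈ Subgroup.center ↥Q)
    (hfaith : Q ⊓ Subgroup.centralizer (V : Set G) = ⊥)
    (hCV : V ⊓ Subgroup.centralizer {x} = ⊥) :
    (Subgroup.center ↥Q).index = (r - 1) ^ 2 := by
  classical
  have hp : p.Prime := hpf.out
  have hq : q.Prime := hqf.out
  have hr : r.Prime := hrf.out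
  obtain ⟨W, i1, i2, i3, ρ, hρinj, hρN⟩ := lin_group p V hV
  obtain ⟨φ, hφ⟩ : ∃ φ : ↥(Subgroup.normalizer (V : Set G)) →* MulAut ↥V,
      φ = V.normalizerMonoidHom := ⟨_, rfl⟩
  have hqK : ((q : ℕ) : AlgebraicClosure (ZMod p)) ≠ 0 := by
    intro h
    rw [CharP.cast_eq_zero_iff (AlgebraicClosure (ZMod p)) p] at h
    exact hpq ((Nat.prime_dvd_prime_iff_eq hp hq).mp h)
  have hrK : ((r : ℕ) : AlgebraicClosure (ZMod p)) ≠ 0 := by
    intro h
    rw [CharP.cast_eq_zero_iff (AlgebraicClosure (ZMod p)) p] at h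
    exact hpr ((Nat.prime_dvd_prime_iff_eq hp hr).mp h)
  obtain ⟨ρQ, hρQ⟩ : ∃ ρQ : ↥Q →* Module.End (AlgebraicClosure (ZMod p)) W,
      ρQ = ρ.comp (φ.comp (Subgroup.inclusion hQV)) := ⟨_, rfl⟩
  have hρQapply : ∀ a : ↥Q, ρQ a = ρ (φ ⟨(a : G), hQV a.2⟩) := by
    intro a; rw [hρQ]; rfl
  have hinj : ∀ a : ↥Q, ρQ a = 1 → a = 1 := by
    intro a ha
    rw [hρQapply] at ha
    have h1 : φ ⟨(a : G), hQV a.2⟩ = 1 := hρinj (ha.trans (map_one ρ).symm)
    rw [hφ] at h1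
    have h2 := (normalizerMonoidHom_eq_one_iff V _).mp h1
    have h3 : (a : G) ∈ Q ⊓ Subgroup.centralizer (V : Set G) := ⟨a.2, h2⟩
    rw [hfaith, Subgroup.mem_bot] at h3
    exact Subtype.ext h3
  obtain ⟨σ, hσ⟩ : ∃ σ : ↥Q ≃* ↥Q, σ = Q.normalizerMonoidHom ⟨x, hxQ⟩ := ⟨_, rfl⟩
  have hσiter : ∀ (i : ℕ) (a : ↥Q), (((⇑σ)^[i] a : ↥Q) : G) = x ^ i * a * (x ^ i)⁻¹ := by
    intro i a
    rw [hσ]
    exact normConj_iterate Q ⟨x, hxQ⟩ i a
  have hσcoe : ∀ a : ↥Q, ((σ a : ↥Q) : G) = x * a * x⁻¹ := by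
    intro a; rw [hσ]; rfl
  have hσm : ∀ a, (⇑σ)^[r] a = a := by
    intro a
    apply Subtype.ext
    rw [hσiter, hxr]
    simp
  have hσfix : ∀ a, σ a = a ↔ a ∈ Subgroup.center ↥Q := by
    intro a
    rw [← hCQ a]
    constructor
    · intro h
      have h1 := congrArg Subtype.val h
      rw [hσcoe] at h1
      calc x * (a : G) = (x * (a : G) * x⁻¹) * x := by group
        _ = (a : G) * x := by rw [h1]
    · intro h
      apply Subtype.ext
      rw [hσcoe, h, mul_inv_cancel_right]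
  obtain ⟨X, hXdef⟩ : ∃ X : Module.End (AlgebraicClosure (ZMod p)) W, X = ρ (φ ⟨x, hxV⟩) :=
    ⟨_, rfl⟩
  have hX : X ^ r = 1 := by
    rw [hXdef, ← map_pow, ← map_pow]
    have h1 : (⟨x, hxV⟩ : ↥(Subgroup.normalizer (V : Set G))) ^ r = 1 :=
      Subtype.ext (by rw [Subgroup.coe_pow]; exact hxr)
    rw [h1, map_one, map_one]
  have hXρ : ∀ a : ↥Q, X * ρQ a = ρQ (σ a) * X := by
    intro a
    rw [hXdef, hρQapply, hρQapply, ← map_mul, ← map_mul, ← map_mul, ← map_mul]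
    congr 2
    apply Subtype.ext
    simp only [Subgroup.coe_mul]
    rw [hσcoe]
    group
  have hN : ∑ i ∈ Finset.range r, X ^ i = 0 := by
    rw [hXdef, hφ]
    exact hρN ⟨x, hxV⟩ r hxr hCV
  exact cop_special q r hqr hqK hrK hQ hZq hZtop hcomm ρQ hinj σ hσm hσfix X hX hXρ hN

end Cfsg.Agent.H13.CopHH
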