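import Cfsg.Agent.H13.CopHH5

/-!
# Subgroups of prime order: generators
-/

set_option autoImplicit false
set_option linter.style.haveILetI false
set_option linter.unusedVariables false
set_option linter.unusedSectionVars false

namespace Cfsg.Agent.H13.CopHH

open Cfsg

universe u

variable {G : Type u} [Group G]

theorem exists_gen_of_prime_card (X : Subgroup G) {r : ℕ} (hr : r.Prime) (hX : Nat.card X = r) :
    ∃ x ∈ X, x ≠ 1 ∧ x ^ r = 1 ∧ X = Subgroup.zpowers x ∧
      Subgroup.centralizer {x} = Subgroup.centralizer (X : Set G) := by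
  classical
  haveI : Fact r.Prime := ⟨hr⟩
  have hne : X ≠ ⊥ := by
    intro h
    rw [h, Subgroup.card_bot] at hX
    exact hr.one_lt.ne hX
  obtain ⟨x, hx1⟩ := (Subgroup.ne_bot_iff_exists_ne_one.mp hne)
  have hz : Subgroup.zpowers x = ⊤ := zpowers_eq_top_of_prime_card hX hx1
  have hXz : X = Subgroup.zpowers (x : G) := by
    apply le_antisymm
    · intro y hy
      have h1 : (⟨y, hy⟩ : ↥X) ∈ Subgroup.zpowers x := by rw [hz]; exact Subgroup.mem_top _
      obtain ⟨k, hk⟩ := Subgroup.mem_zpowers_iff.mp h1
      refine Subgroup.mem_zpowers_iff.mpr ⟨k, ?_⟩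
      have h2 := congrArg Subtype.val hk
      rw [Subgroup.coe_zpow] at h2
      exact h2
    · rw [Subgroup.zpowers_le]
      exact x.2
  have hxr : (x : G) ^ r = 1 := by
    have h1 : x ^ Nat.card ↥X = 1 := pow_card_eq_one'
    rw [hX] at h1
    have h2 := congrArg Subtype.val h1
    rw [Subgroup.coe_pow] at h2
    exact h2
  refine ⟨x, x.2, ?_, hxr, hXz, ?_⟩
  · intro h
    exact hx1 (Subtype.ext h)
  · apply le_antisymm
    · intro v hv
      rw [Subgroup.mem_centralizer_iff] at hv ⊢
      intro y hy
      have hy' : y ∈ Subgroup.zpowers (x : G) := by rw [← hXz]; exact hy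
      obtain ⟨k, rfl⟩ := Subgroup.mem_zpowers_iff.mp hy'
      have h1 : Commute (x : G) v := hv _ (Set.mem_singleton _)
      exact (h1.zpow_left k).eq
    · apply Subgroup.centralizer_le
      intro y hy
      rw [Set.mem_singleton_iff] at hy
      rw [hy]
      exact x.2

end Cfsg.Agent.H13.CopHH
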