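import Cfsg.Agent.H13.CopHH6
import Cfsg.Agent.H1.CoprimeSylow

/-!
# Coprime Hall–Higman for groups of odd order

`chm_group_odd_gen`: `V` elementary abelian `ℓ`-subgroup, `K` a subgroup of odd order prime to
`ℓ r`, `x` with `x ^ r = 1` (`r` an odd prime), `x` and `K` normalising `V`, `x` normalising `K`,
`C_V(x) = 1`.  Then `[x, K]` centralises `V`.
-/

set_option autoImplicit false
set_option linter.style.haveILetI false
set_option linter.unusedVariables false
set_option linter.unusedSectionVars false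

namespace Cfsg.Agent.H13.CopHH

open Cfsg

universe u

variable {G : Type u} [Group G] [Finite G]

theorem comm_mem_centralizer_iff (V : Subgroup G) (a b : G)
    (ha : a ∈ Subgroup.normalizer (V : Set G)) (hb : b ∈ Subgroup.normalizer (V : Set G)) :
    a * b * a⁻¹ * b⁻¹ ∈ Subgroup.centralizer (V : Set G) ↔
      V.normalizerMonoidHom ⟨a, ha⟩ * V.normalizerMonoidHom ⟨b, hb⟩ =
        V.normalizerMonoidHom ⟨b, hb⟩ * V.normalizerMonoidHom ⟨a, ha⟩ := by
  have hcN : a * b * a⁻¹ * b⁻¹ ∈ Subgroup.normalizer (V : Set G) :=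
    Subgroup.mul_mem _ (Subgroup.mul_mem _ (Subgroup.mul_mem _ ha hb) (Subgroup.inv_mem _ ha))
      (Subgroup.inv_mem _ hb)
  have e : (⟨a * b * a⁻¹ * b⁻¹, hcN⟩ : ↥(Subgroup.normalizer (V : Set G))) =
      ⟨a, ha⟩ * ⟨b, hb⟩ * ⟨a, ha⟩⁻¹ * ⟨b, hb⟩⁻¹ := rfl
  rw [← normalizerMonoidHom_eq_one_iff V ⟨_, hcN⟩, e, map_mul, map_mul, map_mul, map_inv, map_inv]
  generalize V.normalizerMonoidHom ⟨a, ha⟩ = α
  generalize V.normalizerMonoidHom ⟨b, hb⟩ = β
  constructor
  · intro h
    calc α * β = (α * β * α⁻¹ * β⁻¹) * (β * α) := by group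
      _ = β * α := by rw [h, one_mul]
  · intro h
    rw [h]; group

theorem chm_group_odd_gen (ℓ r : ℕ) [hℓf : Fact ℓ.Prime] [hrf : Fact r.Prime]
    (hℓr : ℓ ≠ r) (hr2 : r ≠ 2) (V K : Subgroup G) (x : G)
    (hV : Cfsg.IsElementaryAbelian ℓ V)
    (hKodd : Odd (Nat.card K)) (hKr : (Nat.card K).Coprime r) (hKℓ : (Nat.card K).Coprime ℓ)
    (hxr : x ^ r = 1) (hxK : x ∈ Subgroup.normalizer (K : Set G))
    (hxV : x ∈ Subgroup.normalizer (V : Set G)) (hKV : K ≤ Subgroup.normalizer (V : Set G))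
    (hCV : V ⊓ Subgroup.centralizer {x} = ⊥) :
    ∀ a ∈ K, x * a * x⁻¹ * a⁻¹ ∈ Subgroup.centralizer (V : Set G) := by
  classical
  have hℓ : ℓ.Prime := hℓf.out
  have hr : r.Prime := hrf.out
  obtain ⟨D, hD⟩ : ∃ D : Subgroup G, D = ((Subgroup.centralizer
      {V.normalizerMonoidHom ⟨x, hxV⟩}).comap V.normalizerMonoidHom).map
        (Subgroup.normalizer (V : Set G)).subtype := ⟨_, rfl⟩
  have hmemD : ∀ a (ha : a ∈ Subgroup.normalizer (V : Set G)),
      x * a * x⁻¹ * a⁻¹ ∈ Subgroup.centralizer (V : Set G) ↔ a ∈ D := by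
    intro a ha
    rw [comm_mem_centralizer_iff V x a hxV ha, hD]
    constructor
    · intro h
      refine ⟨⟨a, ha⟩, ?_, rfl⟩
      show V.normalizerMonoidHom ⟨a, ha⟩ ∈ Subgroup.centralizer {V.normalizerMonoidHom ⟨x, hxV⟩}
      rw [Subgroup.mem_centralizer_iff]
      intro y hy
      rw [Set.mem_singleton_iff] at hy
      rw [hy]; exact h
    · rintro ⟨b, hb, hba⟩
      have hb' : b = ⟨a, ha⟩ := Subtype.ext hba
      rw [hb'] at hb
      have hb2 : V.normalizerMonoidHom ⟨a, ha⟩ ∈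
          Subgroup.centralizer {V.normalizerMonoidHom ⟨x, hxV⟩} := hb
      rw [Subgroup.mem_centralizer_iff] at hb2
      exact hb2 _ (Set.mem_singleton _)
  have hA : Subgroup.zpowers x ≤ Subgroup.normalizer (K : Set G) :=
    (Subgroup.zpowers_le).mpr hxK
  have hAcard : Nat.card (Subgroup.zpowers x) ∣ r := by
    rw [Nat.card_zpowers]; exact orderOf_dvd_of_pow_eq_one hxr
  have hcop : (Nat.card (Subgroup.zpowers x)).Coprime (Nat.card K) :=
    Nat.Coprime.coprime_dvd_left hAcard hKr.symm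
  have hKD : K ≤ D := by
    have h1 : Nat.card K ∣ Nat.card (K ⊓ D : Subgroup G) := by
      rw [← Nat.factorization_prime_le_iff_dvd Nat.card_pos.ne' Nat.card_pos.ne']
      intro q hq
      haveI : Fact q.Prime := ⟨hq⟩
      by_cases hqK : q ∣ Nat.card K
      · obtain ⟨S, hSK, hSc, hSA⟩ := Cfsg.Agent.H1.coprime_exists_invariant_sylow_aux
          (Subgroup.zpowers x) K hA hcop (Or.inl inferInstance) q
        have hSq : IsPGroup q S := IsPGroup.of_card hSc
        have hq2 : q ≠ 2 := by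
          intro h
          rw [h] at hqK
          exact (Nat.not_even_iff_odd.mpr hKodd) (even_iff_two_dvd.mpr hqK)
        have hqr : q ≠ r := by
          intro h
          rw [h] at hqK
          have := Nat.eq_one_of_dvd_coprimes hKr hqK dvd_rfl
          exact hr.one_lt.ne' this
        have hℓq : ℓ ≠ q := by
          intro h
          rw [← h] at hqK
          have := Nat.eq_one_of_dvd_coprimes hKℓ hqK dvd_rfl
          exact hℓ.one_lt.ne' this
        have hxS : x ∈ Subgroup.normalizer (S : Set G) := hSA (Subgroup.mem_zpowers x)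
        have h2 := chm_group_odd ℓ q r hℓq hℓr hqr hq2 hr2 V S x hV hSq hxr hxS hxV
          (hSK.trans hKV) hCV
        have hSD : S ≤ K ⊓ D :=
          le_inf hSK (fun a ha => (hmemD a (hKV (hSK ha))).mp (h2 a ha))
        have h3 : Nat.card S ∣ Nat.card (K ⊓ D : Subgroup G) := Subgroup.card_dvd_of_le hSD
        rw [hSc] at h3
        exact (hq.pow_dvd_iff_le_factorization Nat.card_pos.ne').mp h3
      · rw [Nat.factorization_eq_zero_of_not_dvd hqK]; exact Nat.zero_le _
    have h2 : K ⊓ D = K :=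
      Subgroup.eq_of_le_of_card_ge inf_le_left (Nat.le_of_dvd Nat.card_pos h1)
    rw [← h2]; exact inf_le_right
  intro a ha
  exact (hmemD a (hKV ha)).mpr (hKD ha)

/-- If `[x, a]` centralises `V` for all `a ∈ K`, then so does `[⟨x⟩, K]`. -/
theorem commutator_zpowers_le_centralizer (V K : Subgroup G) (x : G)
    (hxV : x ∈ Subgroup.normalizer (V : Set G)) (hKV : K ≤ Subgroup.normalizer (V : Set G))
    (h : ∀ a ∈ K, x * a * x⁻¹ * a⁻¹ ∈ Subgroup.centralizer (V : Set G)) :
    ⁅Subgroup.zpowers x, K⁆ ≤ Subgroup.centralizer (V : Set G) := by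
  classical
  obtain ⟨E, hE⟩ : ∃ E : Subgroup G, E = ((Subgroup.centralizer
      (((K.subgroupOf (Subgroup.normalizer (V : Set G))).map V.normalizerMonoidHom :
        Subgroup (MulAut ↥V)) : Set (MulAut ↥V))).comap V.normalizerMonoidHom).map
        (Subgroup.normalizer (V : Set G)).subtype := ⟨_, rfl⟩
  have hmemE : ∀ y, y ∈ E ↔ ∃ hy : y ∈ Subgroup.normalizer (V : Set G), ∀ a (ha : a ∈ K),
      V.normalizerMonoidHom ⟨y, hy⟩ * V.normalizerMonoidHom ⟨a, hKV ha⟩ =
        V.normalizerMonoidHom ⟨a, hKV ha⟩ * V.normalizerMonoidHom ⟨y, hy⟩ := by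
    intro y
    rw [hE]
    constructor
    · rintro ⟨b, hb, rfl⟩
      refine ⟨b.2, ?_⟩
      intro a ha
      have hb2 : V.normalizerMonoidHom b ∈ Subgroup.centralizer
          (((K.subgroupOf (Subgroup.normalizer (V : Set G))).map V.normalizerMonoidHom :
            Subgroup (MulAut ↥V)) : Set (MulAut ↥V)) := hb
      rw [Subgroup.mem_centralizer_iff] at hb2
      have h1 := hb2 (V.normalizerMonoidHom ⟨a, hKV ha⟩)
        (Subgroup.mem_map_of_mem _ (Subgroup.mem_subgroupOf.mpr ha))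
      exact h1.symm
    · rintro ⟨hy, hc⟩
      refine ⟨⟨y, hy⟩, ?_, rfl⟩
      show V.normalizerMonoidHom ⟨y, hy⟩ ∈ Subgroup.centralizer
          (((K.subgroupOf (Subgroup.normalizer (V : Set G))).map V.normalizerMonoidHom :
            Subgroup (MulAut ↥V)) : Set (MulAut ↥V))
      rw [Subgroup.mem_centralizer_iff]
      rintro _ ⟨b, hb, rfl⟩
      have hbK : (b : G) ∈ K := Subgroup.mem_subgroupOf.mp hb
      exact (hc (b : G) hbK).symm
  have hxE : x ∈ E := by
    rw [hmemE]
    refine ⟨hxV, ?_⟩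
    intro a ha
    exact (comm_mem_centralizer_iff V x a hxV (hKV ha)).mp (h a ha)
  have hzE : Subgroup.zpowers x ≤ E := (Subgroup.zpowers_le).mpr hxE
  rw [Subgroup.commutator_le]
  intro y hy a ha
  obtain ⟨hyN, hc⟩ := (hmemE y).mp (hzE hy)
  rw [commutatorElement_def]
  exact (comm_mem_centralizer_iff V y a hyN (hKV ha)).mpr (hc a ha)

end Cfsg.Agent.H13.CopHH
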