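import Cfsg.Agent.H13.CopHH7
import Cfsg.Agent.H1.Coprime

/-!
# Coprime Hall–Higman on a normal `p`-subgroup (not necessarily elementary abelian)

`chm_pgroup`: `P` a normal `p`-subgroup of `G`, `Q` a `q`-subgroup of odd order prime to `r`,
`x ^ r = 1` with `r` an odd prime not dividing `|P|`, `x` normalising `Q`, `p ≠ q`,
`C_P(x) = 1`.  Then `[x, Q]` centralises `P`.
-/

set_option autoImplicit false
set_option linter.style.haveILetI false
set_option linter.unusedVariables false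
set_option linter.unusedSectionVars false

namespace Cfsg.Agent.H13.CopHH

open Cfsg

universe u

variable {G : Type u} [Group G] [Finite G]

open scoped IsMulCommutative in
theorem chm_pgroup (p q r : ℕ) [hpf : Fact p.Prime] [hqf : Fact q.Prime] [hrf : Fact r.Prime]
    (hpq : p ≠ q) (hr2 : r ≠ 2) (P Q : Subgroup G) [hPn : P.Normal] (x : G)
    (hP : IsPGroup p P) (hQ : IsPGroup q Q)
    (hPr : (Nat.card P).Coprime r) (hQr : (Nat.card Q).Coprime r) (hQodd : Odd (Nat.card Q))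
    (hxr : x ^ r = 1) (hxQ : x ∈ Subgroup.normalizer (Q : Set G))
    (hCP : P ⊓ Subgroup.centralizer {x} = ⊥) :
    ∀ a ∈ Q, x * a * x⁻¹ * a⁻¹ ∈ Subgroup.centralizer (P : Set G) := by
  classical
  have hp : p.Prime := hpf.out
  have hq : q.Prime := hqf.out
  have hr : r.Prime := hrf.out
  -- trivial cases
  by_cases hQbot : Q = ⊥
  · intro a ha
    rw [hQbot, Subgroup.mem_bot] at ha
    rw [ha]
    simp
  by_cases hPbot : P = ⊥
  · intro a ha
    rw [hPbot, Subgroup.mem_centralizer_iff]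
    intro v hv
    have hv1 : v = 1 := Subgroup.mem_bot.mp hv
    rw [hv1, one_mul, mul_one]
  have hqQ : q ∣ Nat.card Q := by
    obtain ⟨k, hk⟩ := IsPGroup.iff_card.mp hQ
    rcases Nat.eq_zero_or_pos k with h0 | hpos
    · exfalso
      rw [h0, pow_zero] at hk
      exact hQbot (Subgroup.card_eq_one.mp hk)
    · rw [hk]; exact dvd_pow_self q hpos.ne'
  have hpP : p ∣ Nat.card P := by
    obtain ⟨k, hk⟩ := IsPGroup.iff_card.mp hP
    rcases Nat.eq_zero_or_pos k with h0 | hpos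
    · exfalso
      rw [h0, pow_zero] at hk
      exact hPbot (Subgroup.card_eq_one.mp hk)
    · rw [hk]; exact dvd_pow_self p hpos.ne'
  have hq2 : q ≠ 2 := by
    intro h
    rw [h] at hqQ
    exact (Nat.not_even_iff_odd.mpr hQodd) (even_iff_two_dvd.mpr hqQ)
  have hqr : q ≠ r := by
    intro h
    rw [h] at hqQ
    exact hr.one_lt.ne' (Nat.eq_one_of_dvd_coprimes hQr hqQ dvd_rfl)
  have hpr : p ≠ r := by
    intro h
    rw [h] at hpP
    exact hr.one_lt.ne' (Nat.eq_one_of_dvd_coprimes hPr hpP dvd_rfl)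
  obtain ⟨Φ, hΦ⟩ : ∃ Φ : Subgroup G, Φ = (frattini ↥P).map P.subtype := ⟨_, rfl⟩
  haveI hΦn : Φ.Normal := by rw [hΦ]; infer_instance
  have hΦP : Φ ≤ P := by rw [hΦ]; exact Subgroup.map_subtype_le _
  obtain ⟨hV'n, hV'comm, hV'exp⟩ := Cfsg.Agent.H66.map_frattini_quotient_facts P hP Φ hΦ
  obtain ⟨π, hπ⟩ : ∃ π : G →* G ⧸ Φ, π = QuotientGroup.mk' Φ := ⟨_, rfl⟩
  rw [← hπ] at hV'n hV'comm hV'exp
  have hπker : ∀ g : G, π g = 1 ↔ g ∈ Φ := by
    intro g; rw [hπ]; exact QuotientGroup.eq_one_iff g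
  have hV' : Cfsg.IsElementaryAbelian p (P.map π) :=
    ⟨⟨⟨fun a b => Subtype.ext (hV'comm a a.2 b b.2)⟩⟩, fun g hg => hV'exp g hg⟩
  have hQ' : IsPGroup q (Q.map π) := hQ.map π
  have hx'r : π x ^ r = 1 := by rw [← map_pow, hxr, map_one]
  have hx'Q : π x ∈ Subgroup.normalizer ((Q.map π : Subgroup (G ⧸ Φ)) : Set (G ⧸ Φ)) :=
    Subgroup.le_normalizer_map π ⟨x, hxQ, rfl⟩
  have hNtop : Subgroup.normalizer ((P.map π : Subgroup (G ⧸ Φ)) : Set (G ⧸ Φ)) = ⊤ :=
    Subgroup.normalizer_eq_top_iff.mpr hV'n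
  have hx'V : π x ∈ Subgroup.normalizer ((P.map π : Subgroup (G ⧸ Φ)) : Set (G ⧸ Φ)) := by
    rw [hNtop]; exact Subgroup.mem_top _
  have hQV : Q.map π ≤ Subgroup.normalizer ((P.map π : Subgroup (G ⧸ Φ)) : Set (G ⧸ Φ)) := by
    rw [hNtop]; exact le_top
  have hAcard : Nat.card (Subgroup.zpowers x) ∣ r := by
    rw [Nat.card_zpowers]; exact orderOf_dvd_of_pow_eq_one hxr
  have hcop : (Nat.card (Subgroup.zpowers x)).Coprime (Nat.card P) :=
    Nat.Coprime.coprime_dvd_left hAcard hPr.symm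
  have hCV' : P.map π ⊓ Subgroup.centralizer {π x} = ⊥ := by
    rw [eq_bot_iff]
    intro v' hv'
    obtain ⟨hv'P, hv'c⟩ := Subgroup.mem_inf.mp hv'
    obtain ⟨v, hv, rfl⟩ := hv'P
    have hcomm : π x * π v = π v * π x :=
      (Subgroup.mem_centralizer_iff.mp hv'c) (π x) (Set.mem_singleton _)
    have hfix : ∀ a ∈ Subgroup.zpowers x, a * v * a⁻¹ * v⁻¹ ∈ Φ := by
      intro a ha
      obtain ⟨i, rfl⟩ := Subgroup.mem_zpowers_iff.mp ha
      rw [← hπker]
      simp only [map_mul, map_inv, map_zpow]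
      have h1 : Commute (π x) (π v) := hcomm
      have h2 := (h1.zpow_left i).eq
      rw [h2, mul_inv_cancel_right, mul_inv_cancel]
    obtain ⟨c, hc, hvc⟩ := Cfsg.Agent.H1.coprime_fixed_points_quotient (Subgroup.zpowers x) P hcop
      (Or.inl inferInstance) Φ hΦP
      (by rw [Subgroup.normalizer_eq_top_iff.mpr hΦn]; exact le_top)
      (by rw [Subgroup.normalizer_eq_top_iff.mpr hΦn]; exact le_top) v hv hfix
    have hc1 : c ∈ P ⊓ Subgroup.centralizer {x} := by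
      refine Subgroup.mem_inf.mpr ⟨(Subgroup.mem_inf.mp hc).1, ?_⟩
      have h3 := (Subgroup.mem_inf.mp hc).2
      rw [Subgroup.mem_centralizer_iff] at h3 ⊢
      intro y hy
      rw [Set.mem_singleton_iff] at hy
      rw [hy]
      exact h3 x (Subgroup.mem_zpowers x)
    rw [hCP, Subgroup.mem_bot] at hc1
    rw [hc1, mul_one] at hvc
    rw [Subgroup.mem_bot, hπker]
    have := Φ.inv_mem hvc
    rwa [inv_inv] at this
  have main := chm_group_odd p q r hpq hpr hqr hq2 hr2 (P.map π) (Q.map π) (π x) hV' hQ' hx'r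
    hx'Q hx'V hQV hCV'
  intro a ha
  have h1 := main (π a) (Subgroup.mem_map_of_mem π ha)
  obtain ⟨c, hcdef⟩ : ∃ c : G, c = x * a * x⁻¹ * a⁻¹ := ⟨_, rfl⟩
  rw [← hcdef]
  have hπc : π c ∈ Subgroup.centralizer ((P.map π : Subgroup (G ⧸ Φ)) : Set (G ⧸ Φ)) := by
    rw [hcdef, map_mul, map_mul, map_mul, map_inv, map_inv]; exact h1
  have hcQ : c ∈ Q := by
    rw [hcdef]
    exact Q.mul_mem ((Subgroup.mem_normalizer_iff.mp hxQ a).mp ha) (Q.inv_mem ha)
  have hα : ∀ v : ↥P, (MulAut.conjNormal c : MulAut ↥P) v * v⁻¹ ∈ frattini ↥P := by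
    intro v
    have h2 : c * (v : G) * c⁻¹ * (v : G)⁻¹ ∈ Φ := by
      rw [← hπker, map_mul, map_mul, map_mul, map_inv, map_inv]
      have h3 := (Subgroup.mem_centralizer_iff.mp hπc) (π v) (Subgroup.mem_map_of_mem π v.2)
      rw [← h3, mul_inv_cancel_right, mul_inv_cancel]
    rw [hΦ] at h2
    obtain ⟨w, hw, hwe⟩ := h2
    have hwe' : w = (MulAut.conjNormal c : MulAut ↥P) v * v⁻¹ := by
      apply Subtype.ext
      rw [Subgroup.coe_mul, Subgroup.coe_inv, MulAut.conjNormal_apply]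
      exact hwe
    rw [← hwe']; exact hw
  have hord : (orderOf (MulAut.conjNormal c : MulAut ↥P)).Coprime p := by
    obtain ⟨k, hk⟩ := (IsPGroup.iff_orderOf.mp hQ) ⟨c, hcQ⟩
    have hck : c ^ (q ^ k) = 1 := by
      have h2 : (⟨c, hcQ⟩ : ↥Q) ^ (q ^ k) = 1 := by rw [← hk]; exact pow_orderOf_eq_one _
      have h3 := congrArg Subtype.val h2
      rw [Subgroup.coe_pow] at h3
      exact h3
    have h4 : (MulAut.conjNormal c : MulAut ↥P) ^ (q ^ k) = 1 := by
      rw [← map_pow, hck, map_one]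
    have h5 : orderOf (MulAut.conjNormal c : MulAut ↥P) ∣ q ^ k := orderOf_dvd_of_pow_eq_one h4
    have h6 : (q ^ k).Coprime p :=
      Nat.Coprime.pow_left k ((Nat.coprime_primes hq hp).mpr (Ne.symm hpq))
    exact Nat.Coprime.coprime_dvd_left h5 h6
  have hα1 := Cfsg.Agent.H76.eq_one_of_trivial_on_frattini_of_coprime hP _ hα hord
  rw [Subgroup.mem_centralizer_iff]
  intro v hv
  have h7 := congrArg (fun f : MulAut ↥P => ((f ⟨v, hv⟩ : ↥P) : G)) hα1
  have h8 : c * v * c⁻¹ = v := h7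
  calc v * c = (c * v * c⁻¹) * c := by rw [h8]
    _ = c * v := by group

end Cfsg.Agent.H13.CopHH
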