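import Cfsg.Agent.H13.CopHH8
import Cfsg.Agent.H13.FitInt

/-!
# Towards Bender–Glauberman 3.7: the action on `q`-sections above the Fitting subgroup
-/

set_option autoImplicit false
set_option linter.style.haveILetI false
set_option linter.unusedVariables false
set_option linter.unusedSectionVars false

namespace Cfsg.Agent.H13.CopHH

open Cfsg Cfsg.Agent.H13.FitInt

universe u

variable {G : Type u} [Group G] [Finite G]

/-- `K ⊴ G` of odd order prime to `r`, `x ^ r = 1`, `C_{F(K)}(x) = 1`.  If `F(K) ≤ N ≤ K`,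
`N ⊴ G` and `N / F(K)` is a `q`-group, then `x` centralises `N / F(K)`. -/
theorem comm_mem_fitting_of_quot_pgroup (r : ℕ) [hrf : Fact r.Prime] (hr2 : r ≠ 2)
    (K : Subgroup G) [hKn : K.Normal]
    (hKodd : Odd (Nat.card K)) (hKr : (Nat.card K).Coprime r) (x : G) (hxr : x ^ r = 1)
    (hCF : Cfsg.fittingOf K ⊓ Subgroup.centralizer {x} = ⊥)
    (q : ℕ) [hqf : Fact q.Prime] (N : Subgroup G) [hNn : N.Normal]
    (hFN : Cfsg.fittingOf K ≤ N) (hNK : N ≤ K)
    (hNq : ∀ n ∈ N, ∃ k : ℕ, n ^ (q ^ k) ∈ Cfsg.fittingOf K) :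
    ∀ n ∈ N, x * n * x⁻¹ * n⁻¹ ∈ Cfsg.fittingOf K := by
  classical
  have hq : q.Prime := hqf.out
  have hr : r.Prime := hrf.out
  obtain ⟨F, hF⟩ : ∃ F : Subgroup G, F = Cfsg.fittingOf K := ⟨_, rfl⟩
  rw [← hF] at hCF hFN hNq ⊢
  haveI hFn : F.Normal := by rw [hF]; infer_instance
  have hFK : F ≤ K := by rw [hF]; exact fittingOf_le K
  have hA : Subgroup.zpowers x ≤ Subgroup.normalizer (N : Set G) := by
    rw [Subgroup.normalizer_eq_top_iff.mpr hNn]; exact le_top
  have hAcard : Nat.card (Subgroup.zpowers x) ∣ r := by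
    rw [Nat.card_zpowers]; exact orderOf_dvd_of_pow_eq_one hxr
  have hNr : (Nat.card N).Coprime r :=
    Nat.Coprime.coprime_dvd_left (Subgroup.card_dvd_of_le hNK) hKr
  have hcop : (Nat.card (Subgroup.zpowers x)).Coprime (Nat.card N) :=
    Nat.Coprime.coprime_dvd_left hAcard hNr.symm
  obtain ⟨S, hSN, hSc, hSA⟩ := Cfsg.Agent.H1.coprime_exists_invariant_sylow_aux
    (Subgroup.zpowers x) N hA hcop (Or.inl inferInstance) q
  have hSq : IsPGroup q S := IsPGroup.of_card hSc
  have hxS : x ∈ Subgroup.normalizer (S : Set G) := hSA (Subgroup.mem_zpowers x)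
  have hSodd : Odd (Nat.card S) :=
    Odd.of_dvd_nat hKodd (Subgroup.card_dvd_of_le (hSN.trans hNK))
  have hSr : (Nat.card S).Coprime r :=
    Nat.Coprime.coprime_dvd_left (Subgroup.card_dvd_of_le (hSN.trans hNK)) hKr
  obtain ⟨Fq, hFq⟩ : ∃ Fq : Subgroup G,
      Fq = ⨆ (p : Nat.Primes) (_ : (p : ℕ) ≠ q), opInt (p : ℕ) K := ⟨_, rfl⟩
  haveI hFqn : Fq.Normal := by rw [hFq]; infer_instance
  have hcent : ∀ a ∈ S, x * a * x⁻¹ * a⁻¹ ∈ Subgroup.centralizer (Fq : Set G) := by
    intro a ha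
    have h1 : Fq ≤ Subgroup.centralizer {x * a * x⁻¹ * a⁻¹} := by
      rw [hFq]
      apply iSup_le; intro p; apply iSup_le; intro hpq
      haveI : Fact (p : ℕ).Prime := ⟨p.2⟩
      have hPr : (Nat.card (opInt (p : ℕ) K)).Coprime r :=
        Nat.Coprime.coprime_dvd_left (Subgroup.card_dvd_of_le (opInt_le _ K)) hKr
      have hCP : opInt (p : ℕ) K ⊓ Subgroup.centralizer {x} = ⊥ := by
        rw [eq_bot_iff, ← hCF]
        apply inf_le_inf_right
        rw [hF, fittingOf_eq_iSup]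
        exact le_iSup (fun p : Nat.Primes => opInt (p : ℕ) K) p
      have h2 := chm_pgroup (p : ℕ) q r hpq hr2 (opInt (p : ℕ) K) S x (opInt_isPGroup _ K) hSq
        hPr hSr hSodd hxr hxS hCP a ha
      intro v hv
      rw [Subgroup.mem_centralizer_iff]
      intro y hy
      rw [Set.mem_singleton_iff] at hy
      rw [hy]
      exact ((Subgroup.mem_centralizer_iff.mp h2) v hv).symm
    rw [Subgroup.mem_centralizer_iff]
    intro v hv
    have h3 := (Subgroup.mem_centralizer_iff.mp (h1 hv)) _ (Set.mem_singleton _)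
    exact h3.symm
  obtain ⟨C₁, hC₁⟩ : ∃ C₁ : Subgroup G, C₁ = N ⊓ Subgroup.centralizer (Fq : Set G) := ⟨_, rfl⟩
  haveI hC₁n : C₁.Normal := by rw [hC₁]; infer_instance
  have hC₁N : C₁ ≤ N := by rw [hC₁]; exact inf_le_left
  have hC₁nil : Group.IsNilpotent C₁ := by
    obtain ⟨π', hπ'⟩ : ∃ π' : G →* G ⧸ Fq, π' = QuotientGroup.mk' Fq := ⟨_, rfl⟩
    have hπ'ker : ∀ g, π' g = 1 ↔ g ∈ Fq := by
      intro g; rw [hπ']; exact QuotientGroup.eq_one_iff g
    have hOq : IsPGroup q ((opInt q K).map π') := (opInt_isPGroup q K).map π'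
    have h1 : F.map π' ≤ (opInt q K).map π' := by
      rw [hF, fittingOf_eq_iSup, Subgroup.map_iSup]
      apply iSup_le; intro p
      by_cases hpq : (p : ℕ) = q
      · rw [hpq]
      · have h2 : opInt (p : ℕ) K ≤ Fq := by
          rw [hFq]; exact le_iSup₂_of_le p hpq le_rfl
        intro y hy
        obtain ⟨g, hg, rfl⟩ := hy
        have h3 : π' g = 1 := (hπ'ker g).mpr (h2 hg)
        rw [h3]; exact Subgroup.one_mem _
    have hT : IsPGroup q (N.map π') := by
      rintro ⟨_, n, hn, rfl⟩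
      obtain ⟨k, hk⟩ := hNq n hn
      have h2 : π' (n ^ (q ^ k)) ∈ (opInt q K).map π' := h1 (Subgroup.mem_map_of_mem π' hk)
      obtain ⟨j, hj⟩ := hOq ⟨_, h2⟩
      refine ⟨k + j, ?_⟩
      apply Subtype.ext
      have h3 := congrArg Subtype.val hj
      simp only [Subgroup.coe_pow, Subgroup.coe_one, map_pow] at h3 ⊢
      rw [pow_add, pow_mul]; exact h3
    haveI : Group.IsNilpotent (N.map π') := hT.isNilpotent
    obtain ⟨f, hf⟩ : ∃ f : ↥C₁ →* ↥(N.map π'),
        f = (π'.subgroupMap N).comp (Subgroup.inclusion hC₁N) := ⟨_, rfl⟩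
    apply Subgroup.isNilpotent_of_ker_le_center f
    intro c hc
    rw [MonoidHom.mem_ker] at hc
    have hc1 : π' (c : G) = 1 := by
      have h4 := congrArg Subtype.val hc
      rw [hf] at h4
      exact h4
    have hcFq : (c : G) ∈ Fq := (hπ'ker _).mp hc1
    rw [Subgroup.mem_center_iff]
    intro d
    apply Subtype.ext
    rw [Subgroup.coe_mul, Subgroup.coe_mul]
    have hle : C₁ ≤ Subgroup.centralizer (Fq : Set G) := by rw [hC₁]; exact inf_le_right
    have hd : (d : G) ∈ Subgroup.centralizer (Fq : Set G) := hle d.2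
    exact ((Subgroup.mem_centralizer_iff.mp hd) (c : G) hcFq).symm
  have hC₁F : C₁ ≤ F := by rw [hF]; exact le_fittingOf K C₁ (hC₁N.trans hNK) hC₁nil
  have hSF : ∀ a ∈ S, x * a * x⁻¹ * a⁻¹ ∈ F := by
    intro a ha
    apply hC₁F
    rw [hC₁]
    refine Subgroup.mem_inf.mpr ⟨?_, hcent a ha⟩
    have h2 : x * a * x⁻¹ ∈ S := (Subgroup.mem_normalizer_iff.mp hxS a).mp ha
    exact hSN (S.mul_mem h2 (S.inv_mem ha))
  obtain ⟨π, hπ⟩ : ∃ π : G →* G ⧸ F, π = QuotientGroup.mk' F := ⟨_, rfl⟩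
  have hπker : ∀ g, π g = 1 ↔ g ∈ F := by
    intro g; rw [hπ]; exact QuotientGroup.eq_one_iff g
  obtain ⟨D, hD⟩ : ∃ D : Subgroup G, D = (Subgroup.centralizer {π x}).comap π := ⟨_, rfl⟩
  have hmemD : ∀ n, n ∈ D ↔ x * n * x⁻¹ * n⁻¹ ∈ F := by
    intro n
    rw [hD, Subgroup.mem_comap, Subgroup.mem_centralizer_iff, ← hπker]
    simp only [map_mul, map_inv]
    constructor
    · intro h
      have h1 := h (π x) (Set.mem_singleton _)
      rw [h1, mul_inv_cancel_right, mul_inv_cancel]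
    · intro h y hy
      rw [Set.mem_singleton_iff] at hy
      rw [hy]
      calc π x * π n = (π x * π n * (π x)⁻¹ * (π n)⁻¹) * (π n * π x) := by group
        _ = π n * π x := by rw [h, one_mul]
  have hSD : S ≤ D := fun a ha => (hmemD a).mpr (hSF a ha)
  have hFD : F ≤ D := by
    intro f hf
    rw [hmemD]
    exact F.mul_mem (hFn.conj_mem f hf x) (F.inv_mem hf)
  have hNSF : N ≤ S ⊔ F := by
    have h1 : (S ⊔ F).relIndex N ∣ S.relIndex N := Subgroup.relIndex_dvd_of_le_left N le_sup_left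
    have h2 : (S ⊔ F).relIndex N ∣ F.relIndex N := Subgroup.relIndex_dvd_of_le_left N le_sup_right
    have h3 : (S.relIndex N).Coprime q := by
      have h6 := Subgroup.relIndex_mul_relIndex (⊥ : Subgroup G) S N bot_le hSN
      rw [Subgroup.relIndex_bot_left, Subgroup.relIndex_bot_left, hSc] at h6
      have h7 : S.relIndex N = Nat.card N / q ^ (Nat.card N).factorization q :=
        (Nat.div_eq_of_eq_mul_right (pow_pos hq.pos _) h6.symm).symm
      rw [h7]
      exact ((Nat.Prime.coprime_iff_not_dvd hq).mpr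
        (Nat.not_dvd_ordCompl hq Nat.card_pos.ne')).symm
    have h4 : ∃ m, F.relIndex N = q ^ m := by
      haveI : (F.subgroupOf N).Normal := Subgroup.normal_subgroupOf
      have h8 : IsPGroup q (↥N ⧸ F.subgroupOf N) := by
        intro g
        induction g using QuotientGroup.induction_on with
        | H n =>
          obtain ⟨k, hk⟩ := hNq (n : G) n.2
          refine ⟨k, ?_⟩
          rw [← QuotientGroup.mk_pow]
          apply (QuotientGroup.eq_one_iff _).mpr
          rw [Subgroup.mem_subgroupOf, Subgroup.coe_pow]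
          exact hk
      exact IsPGroup.iff_card.mp h8
    obtain ⟨m, hm⟩ := h4
    have h5 : (S ⊔ F).relIndex N = 1 := by
      have h9 := Nat.Coprime.coprime_dvd_left h1 h3
      rw [hm] at h2
      exact Nat.Coprime.eq_one_of_dvd (Nat.Coprime.pow_right m h9) h2
    exact Subgroup.relIndex_eq_one.mp h5
  intro n hn
  exact (hmemD n).mp ((sup_le hSD hFD) (hNSF hn))

end Cfsg.Agent.H13.CopHH
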