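import Cfsg.Agent.H13.D4NotInn

/-!
# S2607 (helper96's project, `m = 4` half), piece P-GRAPH (helper13)

The graph automorphisms of `D₄(F)` (any field) are the image of an injective homomorphism from `S₃`.
-/

set_option autoImplicit false
set_option maxRecDepth 100000

namespace Cfsg.Agent.H13.D4N

open Cfsg Cfsg.Lie Cfsg.Agent.H23 Cfsg.Agent.H23.Stb Cfsg.Agent.H78.StbG

universe u

/-- The three outer nodes of the `D₄` diagram (node `1` is the centre). -/
def outerD4 : Fin 3 → ℕ := ![0, 2, 3]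

/-- The node table of a permutation of the three outer nodes. -/
def tabD4 (ρ : Equiv.Perm (Fin 3)) : List ℕ := [outerD4 (ρ 0), 1, outerD4 (ρ 1), outerD4 (ρ 2)]

theorem tabD4_mem : ∀ ρ : Equiv.Perm (Fin 3), tabD4 ρ ∈
    [[0, 1, 2, 3], [0, 1, 3, 2], [2, 1, 0, 3], [3, 1, 2, 0], [2, 1, 3, 0], [3, 1, 0, 2]] := by
  decide +kernel

theorem tabD4_mul : ∀ ρ ρ' : Equiv.Perm (Fin 3), ∀ i < 4,
    (tabD4 (ρ * ρ')).getD i 0 = (tabD4 ρ).getD ((tabD4 ρ').getD i 0) 0 := by decide +kernel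

theorem tabD4_lt : ∀ ρ : Equiv.Perm (Fin 3), ∀ i < 4, (tabD4 ρ).getD i 0 < 4 := by decide +kernel

theorem tabD4_inj : ∀ ρ ρ' : Equiv.Perm (Fin 3),
    (∀ i < 4, (tabD4 ρ).getD i 0 = (tabD4 ρ').getD i 0) → ρ = ρ' := by decide +kernel

theorem tabD4_surj : ∀ L ∈ [[0, 1, 2, 3], [0, 1, 3, 2], [2, 1, 0, 3], [3, 1, 2, 0], [2, 1, 3, 0],
    [3, 1, 0, 2]], ∃ ρ : Equiv.Perm (Fin 3), tabD4 ρ = L := by decide +kernel

theorem tabD4_perm : ∀ ρ : Equiv.Perm (Fin 3), ∃ π : Equiv.Perm (Fin chevD4.rank),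
    (∀ i j : Fin chevD4.rank, i ≠ j → chevD4.bonds (π i) (π j) = chevD4.bonds i j) ∧
    ∀ i : Fin chevD4.rank, ((π i : Fin chevD4.rank) : ℕ) = (tabD4 ρ).getD i.val 0 := by
  decide +kernel

/-- `γ` acts through the node map `s` on the root elements of the fundamental roots and their negatives. -/
def ActS (F : Type u) [Field F] (s : ℕ → ℕ) (γ : ↥(chevD4.group F) ≃* ↥(chevD4.group F)) : Prop :=
  ∀ i < chevD4.rank, ∀ t : F,
    γ (xG (packS_D4 F).hP.sem (chevD4.simple i) t) = xG (packS_D4 F).hP.sem (chevD4.simple (s i)) t ∧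
    γ (xG (packS_D4 F).hP.sem (chevD4.neg (chevD4.simple i)) t) =
      xG (packS_D4 F).hP.sem (chevD4.neg (chevD4.simple (s i))) t

theorem actS_unique (F : Type u) [Field F] {s : ℕ → ℕ} {γ γ' : ↥(chevD4.group F) ≃* ↥(chevD4.group F)}
    (h : ActS F s γ) (h' : ActS F s γ') : γ = γ' := by
  have hS : Sem chevD4 F zD4 := (packS_D4 F).hP.sem
  apply MulEquiv.toMonoidHom_injective
  apply hom_ext_fundG hS (packS_D4 F).hP.semN (packS_D4 F).hP.tab
  intro y i t hi hy
  rcases hy with hy | hy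
  · rw [eq_xG hS y _ t hy]
    exact ((h i hi t).1).trans ((h' i hi t).1).symm
  · rw [eq_xG hS y _ t hy]
    exact ((h i hi t).2).trans ((h' i hi t).2).symm

/-- A graph automorphism (Prelude predicate) acts through one of the six tables. -/
theorem actS_of_isGraphAut (F : Type u) [Field F] (g : ↥(chevD4.group F) ≃* ↥(chevD4.group F))
    (hg : chevD4.IsGraphAut g) :
    ∃ L ∈ [[0, 1, 2, 3], [0, 1, 3, 2], [2, 1, 0, 3], [3, 1, 2, 0], [2, 1, 3, 0], [3, 1, 0, 2]],
      ActS F (fun i => L.getD i 0) g := by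
  have hS : Sem chevD4 F zD4 := (packS_D4 F).hP.sem
  obtain ⟨π, hπ, hgπ⟩ := hg
  have hcase := d4n_sym_cases (π ⟨0, by decide⟩) (π ⟨1, by decide⟩) (π ⟨2, by decide⟩) (π ⟨3, by decide⟩)
    ⟨fun h => absurd (π.injective h) (by decide), fun h => absurd (π.injective h) (by decide),
    fun h => absurd (π.injective h) (by decide), fun h => absurd (π.injective h) (by decide),
    fun h => absurd (π.injective h) (by decide), fun h => absurd (π.injective h) (by decide),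
    hπ ⟨1, by decide⟩ ⟨0, by decide⟩ (by decide), hπ ⟨1, by decide⟩ ⟨2, by decide⟩ (by decide),
    hπ ⟨1, by decide⟩ ⟨3, by decide⟩ (by decide)⟩
  obtain ⟨L, hLmem, hL⟩ : ∃ L ∈ [[0, 1, 2, 3], [0, 1, 3, 2], [2, 1, 0, 3], [3, 1, 2, 0], [2, 1, 3, 0],
      [3, 1, 0, 2]], ∀ i (hi : i < chevD4.rank), ((π ⟨i, hi⟩ : Fin chevD4.rank) : ℕ) = L.getD i 0 := by
    refine ⟨_, hcase, ?_⟩
    intro i hi
    have hi4 : i < 4 := hi
    interval_cases i <;> rfl
  have hLlt : ∀ i < chevD4.rank, L.getD i 0 < chevD4.rank := by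
    intro i hi
    rw [← hL i hi]
    exact (π ⟨i, hi⟩).isLt
  refine ⟨L, hLmem, ?_⟩
  intro i hi t
  have hexp : chevD4.graphExp (ringChar F) i (L.getD i 0) = 1 := d4n_graphExp _ _ _ hi (hLlt i hi)
  constructor
  · have h1 := (hgπ (xG hS (chevD4.simple i) t) ⟨i, hi⟩ t).1 rfl
    simp only [hL i hi, hexp, pow_one] at h1
    exact eq_xG hS _ _ _ h1
  · have h1 := (hgπ (xG hS (chevD4.neg (chevD4.simple i)) t) ⟨i, hi⟩ t).2 rfl
    simp only [hL i hi, hexp, pow_one] at h1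
    exact eq_xG hS _ _ _ h1

/-- The graph automorphism of `D₄(F)` attached to a permutation of the outer nodes. -/
noncomputable def gOf (F : Type u) [Field F] (ρ : Equiv.Perm (Fin 3)) :
    ↥(chevD4.group F) ≃* ↥(chevD4.group F) :=
  Classical.choose (real_six F (tabD4 ρ) (tabD4_mem ρ))

theorem gOf_act (F : Type u) [Field F] (ρ : Equiv.Perm (Fin 3)) :
    ActS F (fun i => (tabD4 ρ).getD i 0) (gOf F ρ) :=
  (Classical.choose_spec (real_six F (tabD4 ρ) (tabD4_mem ρ))).1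

theorem gOf_mul (F : Type u) [Field F] (ρ ρ' : Equiv.Perm (Fin 3)) :
    gOf F (ρ * ρ') = (gOf F ρ' ).trans (gOf F ρ) := by
  apply actS_unique F (gOf_act F (ρ * ρ'))
  intro i hi t
  have hi4 : i < 4 := hi
  have hlt : (tabD4 ρ').getD i 0 < chevD4.rank := tabD4_lt ρ' i hi4
  have e := tabD4_mul ρ ρ' i hi4
  constructor
  · show gOf F ρ (gOf F ρ' _) = _
    rw [((gOf_act F ρ') i hi t).1, ((gOf_act F ρ) _ hlt t).1]
    beta_reduce
    rw [e]
  · show gOf F ρ (gOf F ρ' _) = _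
    rw [((gOf_act F ρ') i hi t).2, ((gOf_act F ρ) _ hlt t).2]
    beta_reduce
    rw [e]

/-- **P-GRAPH**: the graph automorphisms of `D₄(F)` form the image of an injective homomorphism from `S₃`. -/
theorem d4_graph_hom (F : Type u) [Field F] :
    ∃ Φ : Equiv.Perm (Fin 3) →* MulAut ↥(chevD4.group F), Function.Injective Φ ∧
      ∀ g : MulAut ↥(chevD4.group F), chevD4.IsGraphAut g ↔ g ∈ Φ.range := by
  have hS : Sem chevD4 F zD4 := (packS_D4 F).hP.sem
  have hP := (packS_D4 F).hP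
  have hT := hP.tab
  refine ⟨MonoidHom.mk' (fun ρ => (gOf F ρ : MulAut ↥(chevD4.group F))) (fun ρ ρ' => gOf_mul F ρ ρ'),
    ?_, ?_⟩
  · intro ρ ρ' h
    have h' : gOf F ρ = gOf F ρ' := h
    apply tabD4_inj
    intro i hi
    have hi' : i < chevD4.rank := hi
    have e1 := ((gOf_act F ρ) i hi' 1).1
    have e2 := ((gOf_act F ρ') i hi' 1).1
    rw [h'] at e1
    have e3 : xU hS (chevD4.simple ((tabD4 ρ).getD i 0)) 1 =
        xU hS (chevD4.simple ((tabD4 ρ').getD i 0)) 1 := congrArg Subtype.val (e1.symm.trans e2)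
    have l1 : (tabD4 ρ).getD i 0 < chevD4.rank := tabD4_lt ρ i hi
    have l2 : (tabD4 ρ').getD i 0 < chevD4.rank := tabD4_lt ρ' i hi
    have e4 := xU_eq_imp hP _ _ (hT.simple_lt _ l1) (hT.simple_lt _ l2) 1 1 e3 one_ne_zero
    exact hP.tab2.simple_inj _ l1 _ l2 e4
  · intro g
    constructor
    · intro hg
      obtain ⟨L, hLmem, hL⟩ := actS_of_isGraphAut F g hg
      obtain ⟨ρ, rfl⟩ := tabD4_surj L hLmem
      exact ⟨ρ, actS_unique F (gOf_act F ρ) hL⟩
    · rintro ⟨ρ, rfl⟩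
      obtain ⟨π, hπ, hπv⟩ := tabD4_perm ρ
      refine ⟨π, hπ, ?_⟩
      intro y i t
      have hexp : chevD4.graphExp (ringChar F) i (π i) = 1 :=
        d4n_graphExp _ _ _ i.isLt (π i).isLt
      have hact := (gOf_act F ρ) i.val i.isLt t
      constructor
      · intro hy
        rw [eq_xG hS y _ t hy, hexp, pow_one, hπv i]
        exact congrArg (fun w : ↥(chevD4.group F) => ((w : GL chevD4.Idx F) : Matrix chevD4.Idx chevD4.Idx F)) hact.1
      · intro hy
        rw [eq_xG hS y _ t hy, hexp, pow_one, hπv i]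
        exact congrArg (fun w : ↥(chevD4.group F) => ((w : GL chevD4.Idx F) : Matrix chevD4.Idx chevD4.Idx F)) hact.2

end Cfsg.Agent.H13.D4N

#print axioms Cfsg.Agent.H13.D4N.d4_graph_hom
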