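import Cfsg.Agent.H78.StbGrDefs

/-!
# S2123-FIELDPRES (piece for helper78's S2123 project): the entrywise action of a field automorphism
preserves `U` and `V`
-/

set_option autoImplicit false

namespace Cfsg.Agent.H13.StbG

open Cfsg.Lie Cfsg.Agent.H23 Cfsg.Agent.H23.Stb Cfsg.Agent.H78.StbG

universe u

theorem fieldPres : StFieldPres.{u} := by
  intro D F _ z hS σ x
  have hfwd : ∀ (P : ℕ → Prop) (τ : F ≃+* F) (y : GL D.Idx F), y ∈ rootGen D F P →
      glMap D (τ : F →+* F) y ∈ rootGen D F P := by
    intro P τ y hy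
    have hle : rootGen D F P ≤ (rootGen D F P).comap (glMap D (τ : F →+* F)) := by
      apply rootGen_le hS
      intro r hr t
      rw [Subgroup.mem_comap, glMap_xU hS hS]
      exact xU_mem_rootGen hS P r hr _
    exact hle hy
  have hinv : glMap D (σ.symm : F →+* F) (glMap D (σ : F →+* F) x) = x := by
    apply Units.ext
    ext i j
    rw [glMap_apply, glMap_apply]
    simp
  have key : ∀ (P : ℕ → Prop), x ∈ rootGen D F P ↔ glMap D (σ : F →+* F) x ∈ rootGen D F P := by
    intro P
    constructor
    · exact hfwd P σ x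
    · intro h
      have := hfwd P σ.symm _ h
      rwa [hinv] at this
  exact ⟨key D.IsPosRoot, key D.IsNegRoot⟩

example : Cfsg.Agent.H78.StbG.StFieldPres.{u} := fieldPres

end Cfsg.Agent.H13.StbG

#print axioms Cfsg.Agent.H13.StbG.fieldPres
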