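import Cfsg.Agent.H78.StbE6Asm
import Cfsg.Agent.H13.StbGNUV
import Cfsg.Agent.H13.StbGFieldPres
import Cfsg.Agent.H18.StbW0
import Cfsg.Agent.H61.StbNormU
import Cfsg.Prelude.Def_ChevAutomorphisms

/-!
# S2607 (helper96's project, `m = 4` half), generic part of D4-NOTINN (helper13)

Generic in the datum `D` (no type tables are used; the import of `H78.StbE6Asm` is only for the generic
`hom_ext_fundG`): if `γ` maps `x_{α_i}(t)` to `x_{α_{π i}}(t)` and preserves `U` and `V`, `f` is a field
automorphism (`x_r(t) ↦ x_r(σ t)`), and `γ ∘ f` is inner, then `π` is the identity on the nodes and `σ = 1`.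
-/

set_option autoImplicit false

namespace Cfsg.Agent.H13.D4N

open Cfsg.Lie Cfsg.Agent.H23 Cfsg.Agent.H23.Stb Cfsg.Agent.H78.StbG

universe u

variable {D : ChevalleyDatum} {F : Type u} [Field F] {z η : ℕ → ℕ → ℤ} {rT w0 : List ℕ}

/-- An element of the group with the matrix of a root element is that root element. -/
theorem eq_xG (hS : Sem D F z) (g : ↥(D.group F)) (r : ℕ) (t : F)
    (hg : ((g : GL D.Idx F) : Matrix D.Idx D.Idx F) = D.x F r t) : g = xG hS r t :=
  Subtype.ext (eq_xU hS (g : GL D.Idx F) r t hg)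

/-- Root elements of one root are parametrised injectively. -/
theorem xU_inj (hS : Sem D F z) (hT : Tab D) (hT2 : Tab2 D) (r : ℕ) (hr : r < D.nroots) (a b : F)
    (h : xU hS r a = xU hS r b) : a = b := by
  have h1 : xU hS r (a + -b) = 1 := by
    rw [← xU_mul, ← xU_inv, h, mul_inv_cancel]
  have := xU_eq_one_imp hS hT hT2 r hr _ h1
  linear_combination this

/-- A field automorphism of the group is the entrywise map. -/
theorem field_eq_glMap (hC : PackS D F z η rT w0) (f : ↥(D.group F) ≃* ↥(D.group F)) (σ : F ≃+* F)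
    (hf : ∀ r < D.nroots, ∀ t : F, f (xG hC.hP.sem r t) = xG hC.hP.sem r (σ t)) (y : ↥(D.group F)) :
    ((f y : ↥(D.group F)) : GL D.Idx F) = glMap D (σ : F →+* F) (y : GL D.Idx F) := by
  have hS := hC.hP.sem
  have hT := hC.hP.tab
  have key : (D.group F).subtype.comp f.toMonoidHom =
      (glMap D (σ : F →+* F)).comp (D.group F).subtype := by
    apply hom_ext_fundG hS hC.hP.semN hT
    intro g i t hi hg
    rcases hg with hg | hg
    · rw [eq_xG hS g _ t hg]
      show ((f (xG hS (D.simple i) t) : ↥(D.group F)) : GL D.Idx F) =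
        glMap D (σ : F →+* F) (xU hS (D.simple i) t)
      rw [hf _ (hT.simple_lt i hi) t, glMap_xU hS hS]
      rfl
    · rw [eq_xG hS g _ t hg]
      show ((f (xG hS (D.neg (D.simple i)) t) : ↥(D.group F)) : GL D.Idx F) =
        glMap D (σ : F →+* F) (xU hS (D.neg (D.simple i)) t)
      rw [hf _ (hT.neg_lt _ (hT.simple_lt i hi)) t, glMap_xU hS hS]
      rfl
  exact congrArg (fun φ => φ y) key

/-- A field automorphism preserves `U` and `V`. -/
theorem field_pres (hC : PackS D F z η rT w0) (f : ↥(D.group F) ≃* ↥(D.group F)) (σ : F ≃+* F)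
    (hf : ∀ r < D.nroots, ∀ t : F, f (xG hC.hP.sem r t) = xG hC.hP.sem r (σ t)) :
    Pres f (D.posUnipotent F) (D.posUnipotent F) ∧ Pres f (D.negUnipotent F) (D.negUnipotent F) := by
  have h := Cfsg.Agent.H13.StbG.fieldPres D F z hC.hP.sem σ
  constructor
  · intro g
    rw [field_eq_glMap hC f σ hf g]
    exact ((h (g : GL D.Idx F)).1).symm
  · intro g
    rw [field_eq_glMap hC f σ hf g]
    exact ((h (g : GL D.Idx F)).2).symm

/-- **Generic D4-NOTINN**: a graph-type automorphism composed with a field automorphism, if inner, has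
trivial node permutation and trivial field automorphism. -/
theorem notInn_gen (hC : PackS D F z η rT w0) (hrank : 0 < D.rank) (π : ℕ → ℕ)
    (γ f : ↥(D.group F) ≃* ↥(D.group F)) (σ : F ≃+* F)
    (hπ : ∀ i < D.rank, π i < D.rank)
    (hγ : ∀ i < D.rank, ∀ t : F, γ (xG hC.hP.sem (D.simple i) t) = xG hC.hP.sem (D.simple (π i)) t)
    (hγU : Pres γ (D.posUnipotent F) (D.posUnipotent F))
    (hγV : Pres γ (D.negUnipotent F) (D.negUnipotent F))
    (hf : ∀ r < D.nroots, ∀ t : F, f (xG hC.hP.sem r t) = xG hC.hP.sem r (σ t))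
    (x : ↥(D.group F)) (hx : ∀ y : ↥(D.group F), γ (f y) = x * y * x⁻¹) :
    (∀ i < D.rank, π i = i) ∧ ∀ t : F, σ t = t := by
  have hP := hC.hP
  have hS := hP.sem
  have hT := hP.tab
  have hUG : D.posUnipotent F ≤ D.group F := posUnipotent_le_group hS
  have hVG : D.negUnipotent F ≤ D.group F := negUnipotent_le_group hS
  obtain ⟨hfU, hfV⟩ := field_pres hC f σ hf
  have key : ∀ K : Subgroup (GL D.Idx F), K ≤ D.group F → Pres f K K → Pres γ K K →
      ∀ y : GL D.Idx F, y ∈ K ↔ (x : GL D.Idx F) * y * (x : GL D.Idx F)⁻¹ ∈ K := by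
    intro K hK hfK hγK y
    by_cases hy : y ∈ D.group F
    · have e1 := hfK ⟨y, hy⟩
      have e2 := hγK (f ⟨y, hy⟩)
      rw [hx ⟨y, hy⟩] at e2
      exact e1.symm.trans e2.symm
    · constructor
      · intro h; exact absurd (hK h) hy
      · intro h
        exfalso
        apply hy
        have h2 := hK h
        have : y = (x : GL D.Idx F)⁻¹ * ((x : GL D.Idx F) * y * (x : GL D.Idx F)⁻¹) * (x : GL D.Idx F) := by
          group
        rw [this]
        exact Subgroup.mul_mem _ (Subgroup.mul_mem _ (Subgroup.inv_mem _ x.2) h2) x.2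
  have hNUV := Cfsg.Agent.H13.StbG.nuv Cfsg.Agent.H61.Stb.normU Cfsg.Agent.H18.Stb.w0
  have hxH : (x : GL D.Idx F) ∈ D.diagonalSubgroup F :=
    hNUV D F z η rT w0 hC _ x.2 (key _ hUG hfU hγU) (key _ hVG hfV hγV)
  obtain ⟨χ, hχ⟩ := diagonal_le_torus hS hT hxH
  -- the basic identity
  have hid : ∀ i < D.rank, ∀ t : F,
      xU hS (D.simple (π i)) (σ t) = xU hS (D.simple i) (χ (D.simple i) * t) := by
    intro i hi t
    have hl := hT.simple_lt i hi
    have e1 : x * xG hS (D.simple i) t * x⁻¹ = xG hS (D.simple i) (χ (D.simple i) * t) :=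
      Subtype.ext (isTorus_conj hS χ _ hχ _ hl t)
    have e2 := hx (xG hS (D.simple i) t)
    rw [e1, hf _ hl t, hγ i hi (σ t)] at e2
    exact congrArg Subtype.val e2
  have hπid : ∀ i < D.rank, π i = i := by
    intro i hi
    have h1 := hid i hi 1
    rw [map_one] at h1
    have e4 := xU_eq_imp hP _ _ (hT.simple_lt _ (hπ i hi)) (hT.simple_lt i hi) 1 _ h1 one_ne_zero
    exact hP.tab2.simple_inj _ (hπ i hi) _ hi e4
  refine ⟨hπid, ?_⟩
  intro t
  have h0 := hid 0 hrank
  rw [hπid 0 hrank] at h0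
  have hl := hT.simple_lt 0 hrank
  have h1 := xU_inj hS hT hP.tab2 _ hl _ _ (h0 1)
  have ht := xU_inj hS hT hP.tab2 _ hl _ _ (h0 t)
  rw [map_one, mul_one] at h1
  rw [ht, ← h1, one_mul]

end Cfsg.Agent.H13.D4N

#print axioms Cfsg.Agent.H13.D4N.notInn_gen
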