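import Cfsg.Agent.H13.D4NGen
import Cfsg.Agent.H23.OrdD4
import Cfsg.Agent.H23.GraphD4
import Cfsg.Agent.H56.StbGraphAll
import Cfsg.Agent.H22.OSD4T

/-!
# S2607 (helper96's project, `m = 4` half), piece D4-NOTINN (helper13)

For `D₄(F)` (any field): a graph automorphism composed with a field automorphism is inner only if both are
trivial.  Closure: the generic `H23` engine + the `D₄` tables (and the `E₆` tables through `H78.StbE6Asm`,
used only for the generic `hom_ext_fundG`).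
-/

set_option autoImplicit false
set_option maxRecDepth 100000

namespace Cfsg.Agent.H13.D4N

open Cfsg Cfsg.Lie Cfsg.Agent.H23 Cfsg.Agent.H23.Stb Cfsg.Agent.H78.StbG

universe u

/-- The exponent functions of type `D₄`. -/
abbrev zD4 : ℕ → ℕ → ℤ := zR chevD4 ctblD4

/-- The signs of type `D₄`. -/
abbrev ηD4 : ℕ → ℕ → ℤ := fun i s => etaBit (etaD4.getD i 0) s

theorem tabL_D4 : TabL chevD4 rTD4 where
  one := by decide +kernel
  lin := by decide +kernel
  pos := by decide +kernel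
  neg := by decide +kernel

theorem packB_D4 (F : Type u) [Field F] : PackB chevD4 F zD4 ηD4 :=
  ⟨chk_D4.sem F, nconj_D4.semN chk_D4.tblOK F, comm_D4.semC chk_D4.tblOK F, tab_D4, tabC_D4,
    etaNeg_D4, tab2_D4⟩

/-- The pack of table facts for `D₄`. -/
theorem packS_D4 (F : Type u) [Field F] : PackS chevD4 F zD4 ηD4 rTD4 w0D4 :=
  ⟨packB_D4 F, trin_D4.semV chk_D4.tblOK F, tabT_D4, tabL_D4, tabW_D4⟩

/-! ### The three table automorphisms preserve positivity -/

theorem d4t_rho_pos : ∀ s < chevD4.nroots, chevD4.IsPosRoot s →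
    chevD4.IsPosRoot (rlk Cfsg.Agent.H22.OS.rhoD4t s) := by decide +kernel

theorem d4t_rho_neg : ∀ s < chevD4.nroots, chevD4.IsNegRoot s →
    chevD4.IsNegRoot (rlk Cfsg.Agent.H22.OS.rhoD4t s) := by decide +kernel

theorem d4a_rho_pos : ∀ s < chevD4.nroots, chevD4.IsPosRoot s →
    chevD4.IsPosRoot (rlk rhoD4a s) ∧ chevD4.IsPosRoot (rlk rhoID4a s) := by decide +kernel

theorem d4a_rho_neg : ∀ s < chevD4.nroots, chevD4.IsNegRoot s →
    chevD4.IsNegRoot (rlk rhoD4a s) ∧ chevD4.IsNegRoot (rlk rhoID4a s) := by decide +kernel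

theorem d4b_rho_pos : ∀ s < chevD4.nroots, chevD4.IsPosRoot s →
    chevD4.IsPosRoot (rlk rhoD4b s) ∧ chevD4.IsPosRoot (rlk rhoID4b s) := by decide +kernel

theorem d4b_rho_neg : ∀ s < chevD4.nroots, chevD4.IsNegRoot s →
    chevD4.IsNegRoot (rlk rhoD4b s) ∧ chevD4.IsNegRoot (rlk rhoID4b s) := by decide +kernel

/-- The node map `sig` is realised by an automorphism of `D₄(F)` acting through `sig` on the root elements
of the fundamental roots and of their negatives, and preserving `U` and `V`. -/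
def Real (F : Type u) [Field F] (sig : ℕ → ℕ) : Prop :=
  ∃ γ : ↥(chevD4.group F) ≃* ↥(chevD4.group F),
    (∀ i < chevD4.rank, ∀ t : F,
      γ (xG (packS_D4 F).hP.sem (chevD4.simple i) t) = xG (packS_D4 F).hP.sem (chevD4.simple (sig i)) t ∧
      γ (xG (packS_D4 F).hP.sem (chevD4.neg (chevD4.simple i)) t) =
        xG (packS_D4 F).hP.sem (chevD4.neg (chevD4.simple (sig i))) t) ∧
    Pres γ (chevD4.posUnipotent F) (chevD4.posUnipotent F) ∧
    Pres γ (chevD4.negUnipotent F) (chevD4.negUnipotent F)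

theorem real_congr (F : Type u) [Field F] {s s' : ℕ → ℕ} (h : Real F s)
    (hs : ∀ i < chevD4.rank, s i = s' i) : Real F s' := by
  obtain ⟨γ, h1, h2, h3⟩ := h
  refine ⟨γ, ?_, h2, h3⟩
  intro i hi t
  rw [← hs i hi]
  exact h1 i hi t

theorem real_id (F : Type u) [Field F] : Real F (fun i => i) :=
  ⟨MulEquiv.refl _, fun _ _ _ => ⟨rfl, rfl⟩, fun _ => Iff.rfl, fun _ => Iff.rfl⟩

theorem real_comp (F : Type u) [Field F] {s1 s2 : ℕ → ℕ} (h1 : Real F s1) (h2 : Real F s2)
    (hlt : ∀ i < chevD4.rank, s2 i < chevD4.rank) : Real F (fun i => s1 (s2 i)) := by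
  obtain ⟨γ1, a1, b1, c1⟩ := h1
  obtain ⟨γ2, a2, b2, c2⟩ := h2
  refine ⟨γ2.trans γ1, ?_, ?_, ?_⟩
  · intro i hi t
    constructor
    · show γ1 (γ2 _) = _
      rw [(a2 i hi t).1, (a1 _ (hlt i hi) t).1]
    · show γ1 (γ2 _) = _
      rw [(a2 i hi t).2, (a1 _ (hlt i hi) t).2]
  · intro g
    exact (b1 (γ2 g)).trans (b2 g)
  · intro g
    exact (c1 (γ2 g)).trans (c2 g)

theorem real_t (F : Type u) [Field F] : Real F (fun i => Cfsg.Agent.H22.OS.sigD4t.getD i 0) := by
  obtain ⟨γ, h1, h2, h3, -⟩ := Cfsg.Agent.H56.StbG.graph_aut_pres chk_D4.tblOK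
    Cfsg.Agent.H22.OS.graphOK_D4t (packS_D4 F).hP.sem
    (fun s hs => ⟨d4t_rho_pos s hs.1 hs, d4t_rho_pos s hs.1 hs⟩)
    (fun s hs => ⟨d4t_rho_neg s hs.1 hs, d4t_rho_neg s hs.1 hs⟩)
  exact ⟨γ, h1, h2, h3⟩

theorem real_a (F : Type u) [Field F] : Real F (fun i => sigD4a.getD i 0) := by
  obtain ⟨γ, h1, h2, h3, -⟩ := Cfsg.Agent.H56.StbG.graph_aut_pres chk_D4.tblOK
    graphOK_D4a (packS_D4 F).hP.sem
    (fun s hs => d4a_rho_pos s hs.1 hs) (fun s hs => d4a_rho_neg s hs.1 hs)
  exact ⟨γ, h1, h2, h3⟩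

theorem real_b (F : Type u) [Field F] : Real F (fun i => sigD4b.getD i 0) := by
  obtain ⟨γ, h1, h2, h3, -⟩ := Cfsg.Agent.H56.StbG.graph_aut_pres chk_D4.tblOK
    graphOK_D4b (packS_D4 F).hP.sem
    (fun s hs => d4b_rho_pos s hs.1 hs) (fun s hs => d4b_rho_neg s hs.1 hs)
  exact ⟨γ, h1, h2, h3⟩

/-- All six symmetries of the `D₄` diagram are realised. -/
theorem real_six (F : Type u) [Field F] (L : List ℕ)
    (hL : L ∈ [[0, 1, 2, 3], [0, 1, 3, 2], [2, 1, 0, 3], [3, 1, 2, 0], [2, 1, 3, 0], [3, 1, 0, 2]]) :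
    Real F (fun i => L.getD i 0) := by
  have hrk : chevD4.rank = 4 := rfl
  simp only [List.mem_cons, List.not_mem_nil, or_false] at hL
  rcases hL with rfl | rfl | rfl | rfl | rfl | rfl
  · refine real_congr F (real_id F) ?_
    intro i hi
    rw [hrk] at hi
    interval_cases i <;> rfl
  · exact real_t F
  · -- `[2, 1, 0, 3] = t ∘ b`
    refine real_congr F (real_comp F (real_t F) (real_b F) ?_) ?_
    · intro i hi
      rw [hrk] at hi ⊢
      interval_cases i <;> decide
    · intro i hi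
      rw [hrk] at hi
      interval_cases i <;> rfl
  · -- `[3, 1, 2, 0] = t ∘ a`
    refine real_congr F (real_comp F (real_t F) (real_a F) ?_) ?_
    · intro i hi
      rw [hrk] at hi ⊢
      interval_cases i <;> decide
    · intro i hi
      rw [hrk] at hi
      interval_cases i <;> rfl
  · exact real_a F
  · exact real_b F

theorem d4n_graphExp : ∀ (c i j : ℕ), i < chevD4.rank → j < chevD4.rank → chevD4.graphExp c i j = 1 := by
  intro c i j hi hj
  have h : ∀ i < chevD4.rank, ∀ j < chevD4.rank,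
      (chevD4.isLong (chevD4.simple j) && !chevD4.isLong (chevD4.simple i)) = false := by decide
  unfold ChevalleyDatum.graphExp
  rw [h i hi j hj]
  rfl

theorem d4n_sym_cases : ∀ a b c d : Fin 4, (a ≠ b ∧ a ≠ c ∧ a ≠ d ∧ b ≠ c ∧ b ≠ d ∧ c ≠ d ∧
    chevD4.bonds b a = chevD4.bonds 1 0 ∧ chevD4.bonds b c = chevD4.bonds 1 2 ∧
    chevD4.bonds b d = chevD4.bonds 1 3) →
    [a.val, b.val, c.val, d.val] ∈
      [[0, 1, 2, 3], [0, 1, 3, 2], [2, 1, 0, 3], [3, 1, 2, 0], [2, 1, 3, 0], [3, 1, 0, 2]] := by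
  decide +kernel

/-- **D4-NOTINN**: for `D₄(F)`, a graph automorphism composed with a field automorphism is inner only if
both are the identity. -/
theorem d4_notInn (F : Type u) [Field F] (g f : ↥(chevD4.group F) ≃* ↥(chevD4.group F))
    (hg : chevD4.IsGraphAut g) (hf : chevD4.IsFieldAut f) (x : ↥(chevD4.group F))
    (hx : ∀ y : ↥(chevD4.group F), g (f y) = x * y * x⁻¹) :
    g = MulEquiv.refl _ ∧ f = MulEquiv.refl _ := by
  have hC := packS_D4 F
  have hS : Sem chevD4 F zD4 := (packS_D4 F).hP.sem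
  have hT := (packS_D4 F).hP.tab
  have hN := (packS_D4 F).hP.semN
  obtain ⟨π, hπ, hgπ⟩ := hg
  obtain ⟨σ, hσ⟩ := hf
  have hcase := d4n_sym_cases (π ⟨0, by decide⟩) (π ⟨1, by decide⟩) (π ⟨2, by decide⟩) (π ⟨3, by decide⟩)
    ⟨fun h => absurd (π.injective h) (by decide), fun h => absurd (π.injective h) (by decide),
    fun h => absurd (π.injective h) (by decide), fun h => absurd (π.injective h) (by decide),
    fun h => absurd (π.injective h) (by decide), fun h => absurd (π.injective h) (by decide),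
    hπ ⟨1, by decide⟩ ⟨0, by decide⟩ (by decide), hπ ⟨1, by decide⟩ ⟨2, by decide⟩ (by decide),
    hπ ⟨1, by decide⟩ ⟨3, by decide⟩ (by decide)⟩
  obtain ⟨L, hLmem, hL⟩ : ∃ L ∈ [[0, 1, 2, 3], [0, 1, 3, 2], [2, 1, 0, 3], [3, 1, 2, 0], [2, 1, 3, 0],
      [3, 1, 0, 2]], ∀ i (hi : i < chevD4.rank), ((π ⟨i, hi⟩ : Fin chevD4.rank) : ℕ) = L.getD i 0 := by
    refine ⟨_, hcase, ?_⟩
    intro i hi
    have hi4 : i < 4 := hi
    interval_cases i <;> rfl
  have hLlt : ∀ i < chevD4.rank, L.getD i 0 < chevD4.rank := by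
    intro i hi
    rw [← hL i hi]
    exact (π ⟨i, hi⟩).isLt
  -- `g` acts through `L` on the fundamental root elements
  have hgL : ∀ i < chevD4.rank, ∀ t : F,
      g (xG hS (chevD4.simple i) t) = xG hS (chevD4.simple (L.getD i 0)) t ∧
      g (xG hS (chevD4.neg (chevD4.simple i)) t) = xG hS (chevD4.neg (chevD4.simple (L.getD i 0))) t := by
    intro i hi t
    have hexp : chevD4.graphExp (ringChar F) i (L.getD i 0) = 1 := d4n_graphExp _ _ _ hi (hLlt i hi)
    constructor
    · have h1 := (hgπ (xG hS (chevD4.simple i) t) ⟨i, hi⟩ t).1 rfl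
      simp only [hL i hi, hexp, pow_one] at h1
      exact eq_xG hS _ _ _ h1
    · have h1 := (hgπ (xG hS (chevD4.neg (chevD4.simple i)) t) ⟨i, hi⟩ t).2 rfl
      simp only [hL i hi, hexp, pow_one] at h1
      exact eq_xG hS _ _ _ h1
  have hfσ : ∀ r < chevD4.nroots, ∀ t : F, f (xG hS r t) = xG hS r (σ t) := by
    intro r hr t
    exact eq_xG hS _ _ _ (hσ (xG hS r t) r t hr rfl)
  -- the explicit automorphism for `L`
  obtain ⟨γ, hγ, hγU, hγV⟩ := real_six F L hLmem
  have hgγ : g = γ := by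
    apply MulEquiv.toMonoidHom_injective
    apply hom_ext_fundG hS hN hT
    intro y i t hi hy
    rcases hy with hy | hy
    · rw [eq_xG hS y _ t hy]
      exact ((hgL i hi t).1).trans ((hγ i hi t).1).symm
    · rw [eq_xG hS y _ t hy]
      exact ((hgL i hi t).2).trans ((hγ i hi t).2).symm
  subst hgγ
  obtain ⟨hπid, hσid⟩ := notInn_gen hC (by decide) (fun i => L.getD i 0) g f σ hLlt
    (fun i hi t => (hgL i hi t).1) hγU hγV hfσ x hx
  constructor
  · apply MulEquiv.toMonoidHom_injective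
    apply hom_ext_fundG hS hN hT
    intro y i t hi hy
    have e : L.getD i 0 = i := hπid i hi
    rcases hy with hy | hy
    · rw [eq_xG hS y _ t hy]
      have h1 := (hgL i hi t).1
      rw [e] at h1
      exact h1
    · rw [eq_xG hS y _ t hy]
      have h1 := (hgL i hi t).2
      rw [e] at h1
      exact h1
  · apply MulEquiv.toMonoidHom_injective
    apply hom_ext_fundG hS hN hT
    intro y i t hi hy
    rcases hy with hy | hy
    · rw [eq_xG hS y _ t hy]
      have h1 := hfσ _ (hT.simple_lt i hi) t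
      rw [hσid t] at h1
      exact h1
    · rw [eq_xG hS y _ t hy]
      have h1 := hfσ _ (hT.neg_lt _ (hT.simple_lt i hi)) t
      rw [hσid t] at h1
      exact h1

end Cfsg.Agent.H13.D4N

#print axioms Cfsg.Agent.H13.D4N.d4_notInn
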