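import Cfsg.Agent.H13.D4Comm
import Cfsg.Agent.S2157

/-!
# `D₄(F)`: diagonal ∘ graph ∘ field inner ⟹ graph = 1 and field = 1 (helper13)

Prepared for helper78's S2608 proposal (`q` odd, `m = 4`): the generic lemma `notInn_gen2` (any datum with a
`PackS`) and its `D₄` instance for the Prelude predicates `IsDiagonalAut`, `IsGraphAut`, `IsFieldAut`.
-/

set_option autoImplicit false

namespace Cfsg.Agent.H13.D4N

open Cfsg Cfsg.Lie Cfsg.Agent.H23 Cfsg.Agent.H23.Stb Cfsg.Agent.H78.StbG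

universe u

section Generic

variable {D : ChevalleyDatum} {F : Type u} [Field F] {z η : ℕ → ℕ → ℤ} {rT w0 : List ℕ}

/-- **Generic NOTINN with scalars**: if `γ` maps `x_{α_i}(t)` to `x_{α_{π i}}(c_i t)` (`c_i ≠ 0`) and preserves
`U` and `V`, `f` is a field automorphism, and `γ ∘ f` is inner, then `π` is the identity on the nodes and
`σ = 1`. -/
theorem notInn_gen2 (hC : PackS D F z η rT w0) (hrank : 0 < D.rank) (π : ℕ → ℕ)
    (γ f : ↥(D.group F) ≃* ↥(D.group F)) (σ : F ≃+* F) (c : ℕ → F) (hc : ∀ i < D.rank, c i ≠ 0)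
    (hπ : ∀ i < D.rank, π i < D.rank)
    (hγ : ∀ i < D.rank, ∀ t : F,
      γ (xG hC.hP.sem (D.simple i) t) = xG hC.hP.sem (D.simple (π i)) (c i * t))
    (hγU : Pres γ (D.posUnipotent F) (D.posUnipotent F))
    (hγV : Pres γ (D.negUnipotent F) (D.negUnipotent F))
    (hf : ∀ r < D.nroots, ∀ t : F, f (xG hC.hP.sem r t) = xG hC.hP.sem r (σ t))
    (x : ↥(D.group F)) (hx : ∀ y : ↥(D.group F), γ (f y) = x * y * x⁻¹) :
    (∀ i < D.rank, π i = i) ∧ ∀ t : F, σ t = t := by
  have hP := hC.hP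
  have hS := hP.sem
  have hT := hP.tab
  have hUG : D.posUnipotent F ≤ D.group F := posUnipotent_le_group hS
  have hVG : D.negUnipotent F ≤ D.group F := negUnipotent_le_group hS
  obtain ⟨hfU, hfV⟩ := field_pres hC f σ hf
  have key : ∀ K : Subgroup (GL D.Idx F), K ≤ D.group F → Pres f K K → Pres γ K K →
      ∀ y : GL D.Idx F, y ∈ K ↔ (x : GL D.Idx F) * y * (x : GL D.Idx F)⁻¹ ∈ K := by
    intro K hK hfK hγK y
    by_cases hy : y ∈ D.group F
    · have e1 := hfK ⟨y, hy⟩
      have e2 := hγK (f ⟨y, hy⟩)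
      rw [hx ⟨y, hy⟩] at e2
      exact e1.symm.trans e2.symm
    · constructor
      · intro h; exact absurd (hK h) hy
      · intro h
        exfalso
        apply hy
        have h2 := hK h
        have : y = (x : GL D.Idx F)⁻¹ * ((x : GL D.Idx F) * y * (x : GL D.Idx F)⁻¹) * (x : GL D.Idx F) := by
          group
        rw [this]
        exact Subgroup.mul_mem _ (Subgroup.mul_mem _ (Subgroup.inv_mem _ x.2) h2) x.2
  have hNUV := Cfsg.Agent.H13.StbG.nuv Cfsg.Agent.H61.Stb.normU Cfsg.Agent.H18.Stb.w0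
  have hxH : (x : GL D.Idx F) ∈ D.diagonalSubgroup F :=
    hNUV D F z η rT w0 hC _ x.2 (key _ hUG hfU hγU) (key _ hVG hfV hγV)
  obtain ⟨χ, hχ⟩ := diagonal_le_torus hS hT hxH
  have hid : ∀ i < D.rank, ∀ t : F,
      xU hS (D.simple (π i)) (c i * σ t) = xU hS (D.simple i) (χ (D.simple i) * t) := by
    intro i hi t
    have hl := hT.simple_lt i hi
    have e1 : x * xG hS (D.simple i) t * x⁻¹ = xG hS (D.simple i) (χ (D.simple i) * t) :=
      Subtype.ext (isTorus_conj hS χ _ hχ _ hl t)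
    have e2 := hx (xG hS (D.simple i) t)
    rw [e1, hf _ hl t, hγ i hi (σ t)] at e2
    exact congrArg Subtype.val e2
  have hπid : ∀ i < D.rank, π i = i := by
    intro i hi
    have h1 := hid i hi 1
    rw [map_one, mul_one] at h1
    have e4 := xU_eq_imp hP _ _ (hT.simple_lt _ (hπ i hi)) (hT.simple_lt i hi) (c i) _ h1 (hc i hi)
    exact hP.tab2.simple_inj _ (hπ i hi) _ hi e4
  refine ⟨hπid, ?_⟩
  intro t
  have h0 := hid 0 hrank
  rw [hπid 0 hrank] at h0
  have hl := hT.simple_lt 0 hrank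
  have h1 := xU_inj hS hT hP.tab2 _ hl _ _ (h0 1)
  have ht := xU_inj hS hT hP.tab2 _ hl _ _ (h0 t)
  rw [map_one, mul_one, mul_one] at h1
  rw [← h1] at ht
  exact mul_left_cancel₀ (hc 0 hrank) ht

end Generic

/-! ### Diagonal automorphisms of `D₄(F)` -/

theorem charDiag_mul_inv (D : ChevalleyDatum) (F : Type u) [Field F] (χ : ℕ → Fˣ) :
    D.charDiag F χ * D.charDiag F (fun r => (χ r)⁻¹) = 1 := by
  unfold ChevalleyDatum.charDiag
  rw [Matrix.diagonal_mul_diagonal, ← Matrix.diagonal_one]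
  congr 1
  funext k
  rcases k with i | r
  · simp
  · simp

/-- The diagonal matrix of a function `ℕ → Fˣ` as an element of `GL`. -/
noncomputable def charGL (D : ChevalleyDatum) (F : Type u) [Field F] (χ : ℕ → Fˣ) : GL D.Idx F :=
  ⟨D.charDiag F χ, D.charDiag F (fun r => (χ r)⁻¹), charDiag_mul_inv D F χ, by
    have h := charDiag_mul_inv D F (fun r => (χ r)⁻¹)
    simpa using h⟩

/-- A diagonal automorphism (Prelude predicate) of `D₄(F)` maps `x_r(t)` to `x_r(χ(r) t)` and preserves `U`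
and `V`. -/
theorem act_of_isDiagonalAut (F : Type u) [Field F] (d : ↥(chevD4.group F) ≃* ↥(chevD4.group F))
    (hd : chevD4.IsDiagonalAut d) :
    ∃ χ : ℕ → Fˣ, (∀ r < chevD4.nroots, ∀ t : F,
        d (xG (packS_D4 F).hP.sem r t) = xG (packS_D4 F).hP.sem r ((χ r : F) * t)) ∧
      Pres d (chevD4.posUnipotent F) (chevD4.posUnipotent F) ∧
      Pres d (chevD4.negUnipotent F) (chevD4.negUnipotent F) := by
  have hS : Sem chevD4 F zD4 := (packS_D4 F).hP.sem
  obtain ⟨χ, hχ, hdχ⟩ := hd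
  have hconjM : ∀ r < chevD4.nroots, ∀ t : F,
      chevD4.charDiag F χ * chevD4.x F r t * chevD4.charDiag F (fun s => (χ s)⁻¹) =
        chevD4.x F r ((χ r : F) * t) :=
    fun r hr t => Cfsg.Agent.S2157.result chevD4 (by simp) χ hχ r hr t
  have hK : ∀ r < chevD4.nroots, ∀ t : F,
      charGL chevD4 F χ * xU hS r t * (charGL chevD4 F χ)⁻¹ = xU hS r ((χ r : F) * t) := by
    intro r hr t
    apply Units.ext
    exact hconjM r hr t
  have hK' : ∀ r < chevD4.nroots, ∀ t : F,
      (charGL chevD4 F χ)⁻¹ * xU hS r t * (charGL chevD4 F χ)⁻¹⁻¹ =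
        xU hS r (((χ r)⁻¹ : Fˣ) * t) := by
    intro r hr t
    have h := hK r hr ((((χ r)⁻¹ : Fˣ) : F) * t)
    have e : ((χ r : Fˣ) : F) * ((((χ r)⁻¹ : Fˣ) : F) * t) = t := by
      rw [← mul_assoc, ← Units.val_mul, mul_inv_cancel, Units.val_one, one_mul]
    rw [e] at h
    rw [← h]
    group
  have hdGL : ∀ y : ↥(chevD4.group F),
      ((d y : ↥(chevD4.group F)) : GL chevD4.Idx F) =
        charGL chevD4 F χ * (y : GL chevD4.Idx F) * (charGL chevD4 F χ)⁻¹ := by
    intro y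
    apply Units.ext
    exact hdχ y
  have key : ∀ (Q : ℕ → Prop), (∀ s, Q s → s < chevD4.nroots) →
      ∀ g : GL chevD4.Idx F, (charGL chevD4 F χ * g * (charGL chevD4 F χ)⁻¹ ∈ rootGen chevD4 F Q ↔
        g ∈ rootGen chevD4 F Q) := by
    intro Q hQlt
    have ha : rootGen chevD4 F Q ≤
        (rootGen chevD4 F Q).comap (MulAut.conj (charGL chevD4 F χ)).toMonoidHom := by
      apply rootGen_le hS
      intro r hr t
      rw [Subgroup.mem_comap]
      show charGL chevD4 F χ * xU hS r t * (charGL chevD4 F χ)⁻¹ ∈ rootGen chevD4 F Q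
      rw [hK r (hQlt r hr) t]
      exact xU_mem_rootGen hS Q _ hr _
    have hb : rootGen chevD4 F Q ≤
        (rootGen chevD4 F Q).comap (MulAut.conj (charGL chevD4 F χ)⁻¹).toMonoidHom := by
      apply rootGen_le hS
      intro r hr t
      rw [Subgroup.mem_comap]
      show (charGL chevD4 F χ)⁻¹ * xU hS r t * (charGL chevD4 F χ)⁻¹⁻¹ ∈ rootGen chevD4 F Q
      rw [hK' r (hQlt r hr) t]
      exact xU_mem_rootGen hS Q _ hr _
    intro g
    constructor
    · intro hg
      have h3 := hb hg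
      rw [Subgroup.mem_comap] at h3
      have h4 : (charGL chevD4 F χ)⁻¹ * (charGL chevD4 F χ * g * (charGL chevD4 F χ)⁻¹) *
          (charGL chevD4 F χ)⁻¹⁻¹ ∈ rootGen chevD4 F Q := h3
      have e : (charGL chevD4 F χ)⁻¹ * (charGL chevD4 F χ * g * (charGL chevD4 F χ)⁻¹) *
          (charGL chevD4 F χ)⁻¹⁻¹ = g := by group
      rwa [e] at h4
    · intro hg
      exact ha hg
  refine ⟨χ, ?_, ?_, ?_⟩
  · intro r hr t
    exact eq_xG hS _ _ _ ((hdχ (xG hS r t)).trans (hconjM r hr t))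
  · intro g
    rw [hdGL g, posUnipotent_eq]
    exact key chevD4.IsPosRoot (fun s hs => hs.1) (g : GL chevD4.Idx F)
  · intro g
    rw [hdGL g, negUnipotent_eq]
    exact key chevD4.IsNegRoot (fun s hs => hs.1) (g : GL chevD4.Idx F)

/-- **D4-NOTINN with a diagonal factor**: for `D₄(F)` (any field), if `d ∘ g ∘ f` is inner with `d` diagonal,
`g` graph and `f` field, then `g` and `f` are the identity. -/
theorem d4_notInn_diag (F : Type u) [Field F] (d g f : ↥(chevD4.group F) ≃* ↥(chevD4.group F))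
    (hd : chevD4.IsDiagonalAut d) (hg : chevD4.IsGraphAut g) (hf : chevD4.IsFieldAut f)
    (x : ↥(chevD4.group F)) (hx : ∀ y : ↥(chevD4.group F), d (g (f y)) = x * y * x⁻¹) :
    g = MulEquiv.refl _ ∧ f = MulEquiv.refl _ := by
  have hC := packS_D4 F
  have hS : Sem chevD4 F zD4 := (packS_D4 F).hP.sem
  have hT := (packS_D4 F).hP.tab
  have hN := (packS_D4 F).hP.semN
  obtain ⟨L, hLmem, hL⟩ := actS_of_isGraphAut F g hg
  obtain ⟨σ, hσ⟩ := act_of_isFieldAut F f hf
  obtain ⟨χ, hχ, hdU, hdV⟩ := act_of_isDiagonalAut F d hd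
  have hLlt : ∀ i < chevD4.rank, L.getD i 0 < chevD4.rank := by
    have h6 : ∀ L ∈ [[0, 1, 2, 3], [0, 1, 3, 2], [2, 1, 0, 3], [3, 1, 2, 0], [2, 1, 3, 0], [3, 1, 0, 2]],
        ∀ i < chevD4.rank, L.getD i 0 < chevD4.rank := by decide
    exact h6 L hLmem
  -- `g` preserves `U` and `V` (it is the explicit automorphism of its table)
  obtain ⟨γ, hγ, hγU, hγV⟩ := real_six F L hLmem
  have hgγ : g = γ := actS_unique F hL hγ
  subst hgγ
  obtain ⟨hπid, hσid⟩ := notInn_gen2 hC (by decide) (fun i => L.getD i 0) (g.trans d) f σ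
    (fun i => ((χ (chevD4.simple (L.getD i 0)) : Fˣ) : F)) (fun i _ => Units.ne_zero _) hLlt
    (fun i hi t => by
      show d (g _) = _
      rw [(hL i hi t).1, hχ _ (hT.simple_lt _ (hLlt i hi)) t])
    (fun y => (hdU (g y)).trans (hγU y)) (fun y => (hdV (g y)).trans (hγV y)) hσ x hx
  constructor
  · apply MulEquiv.toMonoidHom_injective
    apply hom_ext_fundG hS hN hT
    intro y i t hi hy
    have e : L.getD i 0 = i := hπid i hi
    rcases hy with hy | hy
    · rw [eq_xG hS y _ t hy]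
      have h1 := (hL i hi t).1
      beta_reduce at h1
      rw [e] at h1
      exact h1
    · rw [eq_xG hS y _ t hy]
      have h1 := (hL i hi t).2
      beta_reduce at h1
      rw [e] at h1
      exact h1
  · apply MulEquiv.toMonoidHom_injective
    apply hom_ext_fundG hS hN hT
    intro y i t hi hy
    rcases hy with hy | hy
    · rw [eq_xG hS y _ t hy]
      have h1 := hσ _ (hT.simple_lt i hi) t
      rw [hσid t] at h1
      exact h1
    · rw [eq_xG hS y _ t hy]
      have h1 := hσ _ (hT.neg_lt _ (hT.simple_lt i hi)) t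
      rw [hσid t] at h1
      exact h1

end Cfsg.Agent.H13.D4N

#print axioms Cfsg.Agent.H13.D4N.d4_notInn_diag
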