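import Cfsg.Agent.H78.SdD4
import Cfsg.Agent.H13.D4Comm
import Cfsg.Agent.H13.D4NotInn
import Cfsg.Agent.H61.D4Field
import Cfsg.Agent.H49.D4DiagInn
import Cfsg.Agent.H28.D4RingAut

/-!
# `Out(D₄(2^f)) ≅ S₃ × C_f` (the `m = 4` half of S2607), helper13 — parallel / backup assembly

From the Steinberg decomposition for `D₄` (`H78.Sd.sdType_D4`), the diagonal automorphisms being inner
in characteristic two (`H49.D4.d4_diag_inner_ex`), the graph and field homomorphisms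
(`H13.D4N.d4_graph_hom`, `H61.D4F.d4_field_hom`), their commutation and independence modulo inner
automorphisms (`H13.D4N.d4_graph_field_commute`, `H13.D4N.d4_notInn`) and the cyclic Galois group
(`H28.D4.ringAut_zmod`).
-/

set_option autoImplicit false

namespace Cfsg.Agent.H13.D4T

open Cfsg Cfsg.Lie

universe u

/-- Abstract glue: `A ⧸ I ≅ P × C` when `A = I · Φ(P) · Ψ(C)` with `Φ(P)`, `Ψ(C)` commuting and
independent modulo `I`. -/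
theorem quot_equiv_prod {A : Type*} [Group A] (I : Subgroup A) [I.Normal] {P C : Type*} [Group P]
    [Group C] (Φ : P →* A) (Ψ : C →* A)
    (hcomm : ∀ ρ σ, Φ ρ * Ψ σ = Ψ σ * Φ ρ)
    (hind : ∀ ρ σ, Φ ρ * Ψ σ ∈ I → ρ = 1 ∧ σ = 1)
    (hdec : ∀ θ : A, ∃ i ∈ I, ∃ ρ σ, θ = i * Φ ρ * Ψ σ) :
    Nonempty (A ⧸ I ≃* P × C) := by
  obtain ⟨g, hg⟩ : ∃ g : P × C →* A ⧸ I, ∀ x : P × C,
      g x = ((Φ x.1 * Ψ x.2 : A) : A ⧸ I) :=
    ⟨(QuotientGroup.mk' I).comp (MonoidHom.noncommCoprod Φ Ψ (fun ρ σ => hcomm ρ σ)),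
      fun x => rfl⟩
  have hinj : Function.Injective g := by
    rw [injective_iff_map_eq_one]
    intro x hx
    rw [hg, QuotientGroup.eq_one_iff] at hx
    obtain ⟨h1, h2⟩ := hind x.1 x.2 hx
    exact Prod.ext h1 h2
  have hsurj : Function.Surjective g := by
    intro q
    obtain ⟨θ, rfl⟩ := QuotientGroup.mk_surjective q
    obtain ⟨i, hi, ρ, σ, rfl⟩ := hdec θ
    refine ⟨(ρ, σ), ?_⟩
    rw [hg]
    show ((Φ ρ * Ψ σ : A) : A ⧸ I) = ((i * Φ ρ * Ψ σ : A) : A ⧸ I)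
    have h1 : ((i * Φ ρ * Ψ σ : A) : A ⧸ I) =
        ((i : A) : A ⧸ I) * ((Φ ρ * Ψ σ : A) : A ⧸ I) := by
      rw [mul_assoc]
      rfl
    rw [h1, (QuotientGroup.eq_one_iff i).mpr hi, one_mul]
  exact ⟨(MulEquiv.ofBijective g ⟨hinj, hsurj⟩).symm⟩

/-- **`Out(D₄(2^f)) ≅ S₃ × C_f`.** -/
theorem out_d4_two (F : Type u) [Field F] [Fintype F] (f : ℕ) (_hf : 1 ≤ f)
    (hF : Fintype.card F = 2 ^ f) :
    Nonempty (Cfsg.Out ↥(chevD4.group F) ≃* Equiv.Perm (Fin 3) × Multiplicative (ZMod f)) := by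
  have : Fact (Nat.Prime 2) := ⟨Nat.prime_two⟩
  have hch : CharP F 2 := Cfsg.Agent.H49.charP_of_card_pow hF
  obtain ⟨Φ, hΦinj, hΦ⟩ := Cfsg.Agent.H13.D4N.d4_graph_hom F
  obtain ⟨Ψ, hΨinj, hΨ⟩ := Cfsg.Agent.H61.D4F.d4_field_hom F
  obtain ⟨e⟩ := Cfsg.Agent.H28.D4.ringAut_zmod F f (by rw [Nat.card_eq_fintype_card, hF])
  have hgraph : ∀ ρ, chevD4.IsGraphAut (Φ ρ) := fun ρ => (hΦ _).mpr ⟨ρ, rfl⟩
  have hfield : ∀ σ, chevD4.IsFieldAut (Ψ σ) := fun σ => (hΨ _).mpr ⟨σ, rfl⟩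
  obtain ⟨b⟩ := quot_equiv_prod (Cfsg.Inn ↥(chevD4.group F)) Φ Ψ
    (fun ρ σ => Cfsg.Agent.H13.D4N.d4_graph_field_commute F (Φ ρ) (Ψ σ) (hgraph ρ) (hfield σ))
    (by
      intro ρ σ h
      obtain ⟨x, hx⟩ := h
      have hx' : ∀ y : ↥(chevD4.group F), (Φ ρ) ((Ψ σ) y) = x * y * x⁻¹ := by
        intro y
        have := congrArg (fun a : MulAut ↥(chevD4.group F) => a y) hx
        simp only [MulAut.conj_apply, MulAut.mul_apply] at this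
        exact this.symm
      obtain ⟨e1, e2⟩ := Cfsg.Agent.H13.D4N.d4_notInn F (Φ ρ) (Ψ σ) (hgraph ρ) (hfield σ) x hx'
      refine ⟨hΦinj ?_, hΨinj ?_⟩
      · rw [map_one]
        exact e1
      · rw [map_one]
        exact e2)
    (by
      intro θ
      obtain ⟨x, d, g, f', hd, hg, hf', hθ⟩ := Cfsg.Agent.H78.Sd.sdType_D4.{u} F θ
      obtain ⟨ρ, rfl⟩ := (hΦ g).mp hg
      obtain ⟨σ, rfl⟩ := (hΨ f').mp hf'
      obtain ⟨x₀, hx₀⟩ := Cfsg.Agent.H49.D4.d4_diag_inner_ex F d hd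
      refine ⟨MulAut.conj (x * x₀), ⟨x * x₀, rfl⟩, ρ, σ, ?_⟩
      apply MulEquiv.ext
      intro y
      rw [hθ y, hx₀]
      simp only [MulAut.mul_apply, MulAut.conj_apply, mul_inv_rev, mul_assoc])
  exact ⟨b.trans (MulEquiv.prodCongr (MulEquiv.refl _) e)⟩

end Cfsg.Agent.H13.D4T

#print axioms Cfsg.Agent.H13.D4T.out_d4_two
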