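import Mathlib
import Cfsg.Agent.H99.EmDefs
import Cfsg.Agent.H98.EpCntB

/-!
# EM-CNTB (helper13, for helper99's S5990; port of helper98's EP-CNTB / helper53's EQ-CNTB)

If the fixed space `K` of an isometry `x` with `x ^ r = 1` of the standard minus space has
dimension `m < c` and is of minus type, the number of nondegenerate minus-type `m`-spaces is
`≡ 1 (mod r)`: `K` is the only fixed point of `W ↦ x W` (fixed-point congruence).
-/

set_option autoImplicit false
open scoped MatrixGroups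
open scoped Matrix

namespace Cfsg.Agent.H13.Em

open Cfsg.Agent.H45 Cfsg.Agent.H42.Spd Cfsg.Agent.H42.Ti Cfsg.Agent.H48.Ep Cfsg.Agent.H77.Tq
  Cfsg.Agent.H77.Tm Cfsg.Agent.H99.Em Module

universe u

section Raw

variable {ι : Type} [Fintype ι] [DecidableEq ι] {F : Type u} [Field F]

omit [Fintype ι] [DecidableEq ι] in
/-- An isometry of `Q` preserves the polar form. -/
theorem cntB_raw_polar (Q : (ι → F) → F) (S : Module.End F (ι → F)) (hS : ∀ v, Q (S v) = Q v)
    (a b : ι → F) : QuadraticMap.polar Q (S a) (S b) = QuadraticMap.polar Q a b := by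
  rw [QuadraticMap.polar, QuadraticMap.polar, ← map_add, hS, hS, hS]

omit [Fintype ι] [DecidableEq ι] in
theorem cntB_raw_nd_map (Q : (ι → F) → F) (S : Module.End F (ι → F)) (hS : ∀ v, Q (S v) = Q v)
    (W : Submodule F (ι → F)) (h : Cfsg.Geo.IsNondegenerateOn (QuadraticMap.polar Q) W) :
    Cfsg.Geo.IsNondegenerateOn (QuadraticMap.polar Q) (W.map S) := by
  rintro _ ⟨w, hw, rfl⟩ hne
  have hw0 : w ≠ 0 := by
    rintro rfl
    exact hne (map_zero S)
  obtain ⟨⟨x, hx, hxw⟩, ⟨y, hy, hwy⟩⟩ := h w hw hw0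
  exact ⟨⟨S x, ⟨x, hx, rfl⟩, by rwa [cntB_raw_polar Q S hS]⟩,
    ⟨S y, ⟨y, hy, rfl⟩, by rwa [cntB_raw_polar Q S hS]⟩⟩

omit [Fintype ι] [DecidableEq ι] in
theorem cntB_raw_plus_map (Q : (ι → F) → F) (S : Module.End F (ι → F)) (hS : ∀ v, Q (S v) = Q v)
    (hinj : Function.Injective S) (W : Submodule F (ι → F)) (h : Cfsg.Geo.IsPlusTypeOn Q W) :
    Cfsg.Geo.IsPlusTypeOn Q (W.map S) := by
  obtain ⟨U, hUW, hTS, hfr⟩ := h
  refine ⟨U.map S, Submodule.map_mono hUW, ?_, ?_⟩
  · rintro _ ⟨a, ha, rfl⟩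
    rw [hS]
    exact hTS a ha
  · rw [← (Submodule.equivMapOfInjective S hinj U).finrank_eq,
      ← (Submodule.equivMapOfInjective S hinj W).finrank_eq]
    exact hfr

end Raw

/-- **EM-CNTB**. -/
theorem cntB (hME : Cfsg.Agent.H99.Em.StME.{u}) : Cfsg.Agent.H99.Em.StCntB.{u} := by
  intro F _ _ p _ _ k a b r m hab hk hr hr2 hrp hm hm2 hmc x hx hxr A hA hK hKP
  classical
  obtain ⟨A', hA', -, hEx, hUp⟩ := hME F p k a b r hab hr hr2 hrp x hx hxr
  have hcpos : 0 < cc F r := by omega
  have hAA : A' = A := by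
    have h1 : cc F r * A' = cc F r * A := by omega
    exact Nat.eq_of_mul_eq_mul_left hcpos h1
  subst hAA
  obtain ⟨T, hT⟩ : ∃ T : Module.End F (MI k → F),
      T = Matrix.toLin' (x : Matrix (MI k) (MI k) F) := ⟨_, rfl⟩
  have hKT : finrank F ↥(LinearMap.ker (T - 1)) = m := by
    rw [hT]
    exact hK
  have hEx0 : ∃ W : Submodule F (MI k → F), IsEW F k a b m W ∧ W.map T ≤ W := by
    have h1 := hEx 0 m (Nat.zero_le _) (by rw [hK]) hm (fun h => absurd h (by omega))
      (fun _ _ => by simpa using hKP)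
    have h2 : cc F r * 0 + m = m := by omega
    rw [h2] at h1
    rw [hT]
    exact h1
  rw [← hT] at hUp
  have hTiso : ∀ v, Cfsg.quadFormMinus k F a b (T v) = Cfsg.quadFormMinus k F a b v := by
    intro v
    rw [hT, Matrix.toLin'_apply]
    exact Cfsg.Agent.H49.mem_isometryGroup_iff.mp hx v
  have hTpow : T ^ r = 1 := by
    have h1 : ((x ^ r : GL (MI k) F) : Matrix (MI k) (MI k) F) = 1 := by
      rw [hxr]
      rfl
    have h2' : (x : Matrix (MI k) (MI k) F) ^ r = 1 := by
      rw [← h1]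
      exact (Units.val_pow_eq_pow_val x r).symm
    have h3 := congrArg (Matrix.toLinAlgEquiv' (R := F)) h2'
    rw [map_pow, map_one] at h3
    rw [hT]
    exact h3
  -- powers of `T`
  have hTk_iso : ∀ (n : ℕ) (v : MI k → F),
      Cfsg.quadFormMinus k F a b ((T ^ n) v) = Cfsg.quadFormMinus k F a b v := by
    intro n
    induction n with
    | zero => intro v; simp
    | succ n ih =>
      intro v
      rw [pow_succ, Module.End.mul_apply, ih, hTiso]
  have hTinj : Function.Injective T := by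
    intro u v huv
    have h1 : (T ^ r) u = (T ^ r) v := by
      obtain ⟨n, hn⟩ : ∃ n, r = n + 1 := ⟨r - 1, by have := hr.pos; omega⟩
      rw [hn, pow_succ, Module.End.mul_apply, Module.End.mul_apply, huv]
    rw [hTpow] at h1
    exact h1
  have hTk_inj : ∀ n : ℕ, Function.Injective (T ^ n) := by
    intro n
    induction n with
    | zero => intro u v huv; simpa using huv
    | succ n ih =>
      intro u v huv
      rw [pow_succ, Module.End.mul_apply, Module.End.mul_apply] at huv
      exact hTinj (ih huv)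
  have hmapk : ∀ (n : ℕ) (W : Submodule F (MI k → F)),
      (W.map T).map (T ^ n) = W.map (T ^ (n + 1)) := by
    intro n W
    rw [pow_succ, Module.End.mul_eq_comp, Submodule.map_comp]
  have hmapr : ∀ W : Submodule F (MI k → F), W.map (T ^ r) = W := by
    intro W
    rw [hTpow, Module.End.one_eq_id, Submodule.map_id]
  -- `W ↦ T W` reflects plus type: apply `T ^ (r - 1)`
  have hPlusBack : ∀ W : Submodule F (MI k → F),
      Cfsg.Geo.IsPlusTypeOn (Cfsg.quadFormMinus k F a b) (W.map T) →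
      Cfsg.Geo.IsPlusTypeOn (Cfsg.quadFormMinus k F a b) W := by
    intro W hW
    obtain ⟨n, hn⟩ : ∃ n, r = n + 1 := ⟨r - 1, by have := hr.pos; omega⟩
    have h1 := cntB_raw_plus_map (Cfsg.quadFormMinus k F a b) (T ^ n) (hTk_iso n)
      (hTk_inj n) (W.map T) hW
    rw [hmapk, ← hn, hmapr] at h1
    exact h1
  have hPWmap : ∀ W : Submodule F (MI k → F),
      IsEW F k a b m W → IsEW F k a b m (W.map T) := by
    intro W hW
    obtain ⟨h1, h2', h3⟩ := hW
    refine ⟨?_, cntB_raw_nd_map _ T hTiso W h2', fun h => h3 (hPlusBack W h)⟩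
    rw [← (Submodule.equivMapOfInjective T hTinj W).finrank_eq]
    exact h1
  have hfinS : Finite (Submodule F (MI k → F)) :=
    Finite.of_injective (fun W : Submodule F (MI k → F) =>
      (W : Set (MI k → F))) SetLike.coe_injective
  obtain ⟨τ, hτ⟩ : ∃ τ : {W : Submodule F (MI k → F) // IsEW F k a b m W} →
      {W : Submodule F (MI k → F) // IsEW F k a b m W},
      ∀ W, (τ W).1 = W.1.map T := ⟨fun W => ⟨W.1.map T, hPWmap W.1 W.2⟩, fun _ => rfl⟩
  have hiter : ∀ (n : ℕ) (W : {W : Submodule F (MI k → F) // IsEW F k a b m W}),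
      (τ^[n] W).1 = W.1.map (T ^ n) := by
    intro n
    induction n with
    | zero =>
      intro W
      rw [Function.iterate_zero, id, pow_zero, Module.End.one_eq_id, Submodule.map_id]
    | succ n ih =>
      intro W
      rw [Function.iterate_succ_apply, ih, hτ, hmapk]
  have hτr : ∀ W, τ^[r] W = W := by
    intro W
    apply Subtype.ext
    rw [hiter, hmapr]
  have hmod := Cfsg.Agent.H98.Ep.cntB_card_modEq_fix τ r hr hτr
  -- the only fixed point is `ker (T - 1)`
  have hfixeq : ∀ W : Submodule F (MI k → F), IsEW F k a b m W →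
      W.map T ≤ W → W = LinearMap.ker (T - 1) := by
    intro W hW hfix
    have h1 : finrank F W = m := hW.1
    obtain ⟨j, -, hj1, -, -, -⟩ := hUp m W hm hW hfix
    have hj0 : j = 0 := by
      by_contra hne
      have h4 : cc F r * 1 ≤ cc F r * j := Nat.mul_le_mul_left _ (Nat.pos_of_ne_zero hne)
      omega
    rw [hj0, mul_zero, zero_add] at hj1
    have h4 : finrank F ↥(W ⊓ LinearMap.ker (T - 1)) = finrank F W := by
      rw [h1]
      exact hj1.symm
    have h5 : W ⊓ LinearMap.ker (T - 1) = W := Submodule.eq_of_le_of_finrank_eq inf_le_left h4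
    have h6 : W ≤ LinearMap.ker (T - 1) := inf_eq_left.mp h5
    exact Submodule.eq_of_le_of_finrank_eq h6 (by rw [h1, hKT])
  have hKfix : (LinearMap.ker (T - 1)).map T = LinearMap.ker (T - 1) := by
    have hfixv : ∀ w ∈ LinearMap.ker (T - 1), T w = w := by
      intro w hw
      have h1 := LinearMap.mem_ker.mp hw
      rw [LinearMap.sub_apply, Module.End.one_apply, sub_eq_zero] at h1
      exact h1
    apply le_antisymm
    · rintro _ ⟨w, hw, rfl⟩
      rw [hfixv w hw]
      exact hw
    · intro w hw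
      exact ⟨w, hw, hfixv w hw⟩
  have hKPW : IsEW F k a b m (LinearMap.ker (T - 1)) := by
    obtain ⟨W0, hW0, hW0inv⟩ := hEx0
    rw [← hfixeq W0 hW0 hW0inv]
    exact hW0
  have hcard : Nat.card {W : {W : Submodule F (MI k → F) // IsEW F k a b m W} //
      τ W = W} = 1 := by
    rw [Nat.card_eq_one_iff_unique]
    refine ⟨⟨fun W₁ W₂ => ?_⟩, ⟨⟨⟨LinearMap.ker (T - 1), hKPW⟩, Subtype.ext ?_⟩⟩⟩
    · apply Subtype.ext
      apply Subtype.ext
      have e1 : W₁.1.1.map T = W₁.1.1 := by
        rw [← hτ]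
        exact congrArg Subtype.val W₁.2
      have e2 : W₂.1.1.map T = W₂.1.1 := by
        rw [← hτ]
        exact congrArg Subtype.val W₂.2
      rw [hfixeq W₁.1.1 W₁.1.2 e1.le, hfixeq W₂.1.1 W₂.1.2 e2.le]
    · rw [hτ]
      exact hKfix
  intro hdvd
  have h1 : r ∣ 1 := by
    rw [← hcard]
    exact (hmod.dvd_iff (dvd_refl r)).mp hdvd
  exact hr.one_lt.ne' (Nat.dvd_one.mp h1)

example (hME : Cfsg.Agent.H99.Em.StME.{u}) : Cfsg.Agent.H99.Em.StCntB.{u} := cntB hME

end Cfsg.Agent.H13.Em

#print axioms Cfsg.Agent.H13.Em.cntB
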