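import Mathlib
import Cfsg.Prelude.Def_Transfer
import Cfsg.Agent.H3.PGroup
import Cfsg.Agent.H71.Frattini

/-!
# The Heisenberg group of order `p ^ (2 n + 1)` and its embedding in `GL (n + 2, p)`
-/

set_option autoImplicit false
set_option linter.style.haveILetI false

namespace Cfsg.Agent.H13

open scoped commutatorElement

/-- The Heisenberg group: first row `u`, last column `w`, corner entry `c`. -/
@[ext] structure Heis (p n : ℕ) where
  u : Fin n → ZMod p
  w : Fin n → ZMod p
  c : ZMod p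

namespace Heis

variable {p n : ℕ}

instance : Mul (Heis p n) := ⟨fun g h => ⟨g.u + h.u, g.w + h.w, g.c + h.c + g.u ⬝ᵥ h.w⟩⟩
instance : One (Heis p n) := ⟨⟨0, 0, 0⟩⟩
instance : Inv (Heis p n) := ⟨fun g => ⟨-g.u, -g.w, -g.c + g.u ⬝ᵥ g.w⟩⟩

@[simp] theorem mul_u (g h : Heis p n) : (g * h).u = g.u + h.u := rfl
@[simp] theorem mul_w (g h : Heis p n) : (g * h).w = g.w + h.w := rfl
@[simp] theorem mul_c (g h : Heis p n) : (g * h).c = g.c + h.c + g.u ⬝ᵥ h.w := rfl
@[simp] theorem one_u : (1 : Heis p n).u = 0 := rfl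
@[simp] theorem one_w : (1 : Heis p n).w = 0 := rfl
@[simp] theorem one_c : (1 : Heis p n).c = 0 := rfl
@[simp] theorem inv_u (g : Heis p n) : (g⁻¹).u = -g.u := rfl
@[simp] theorem inv_w (g : Heis p n) : (g⁻¹).w = -g.w := rfl
@[simp] theorem inv_c (g : Heis p n) : (g⁻¹).c = -g.c + g.u ⬝ᵥ g.w := rfl

instance : Group (Heis p n) where
  mul_assoc a b c := by
    ext1
    · simp [add_assoc]
    · simp [add_assoc]
    · simp only [mul_c, mul_u, mul_w, add_dotProduct, dotProduct_add]; ring
  one_mul a := by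
    ext1 <;> simp
  mul_one a := by
    ext1 <;> simp
  inv_mul_cancel a := by
    ext1
    · simp
    · simp
    · simp only [mul_c, inv_c, inv_u, one_c, neg_dotProduct]; ring

/-- The central element with corner entry `t`. -/
def zc (p n : ℕ) (t : ZMod p) : Heis p n := ⟨0, 0, t⟩

theorem zc_mul (s t : ZMod p) : zc p n s * zc p n t = zc p n (s + t) := by
  ext1 <;> simp [zc]

theorem zc_pow (t : ZMod p) (k : ℕ) : zc p n t ^ k = zc p n (k * t) := by
  induction k with
  | zero =>
    rw [pow_zero]; ext1 <;> simp [zc]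
  | succ k ih =>
    rw [pow_succ, ih, zc_mul]
    congr 1; push_cast; ring

theorem zc_central (t : ZMod p) (g : Heis p n) : zc p n t * g = g * zc p n t := by
  ext1
  · simp [zc]
  · simp [zc]
  · simp only [mul_c, zc, zero_dotProduct, dotProduct_zero]; ring

theorem mul_eq_zc_mul (g h : Heis p n) :
    g * h = zc p n (g.u ⬝ᵥ h.w - h.u ⬝ᵥ g.w) * (h * g) := by
  ext1
  · simp [zc, add_comm]
  · simp [zc, add_comm]
  · simp only [mul_c, zc, mul_w, zero_dotProduct]; ring

theorem commutator_eq (g h : Heis p n) : ⁅g, h⁆ = zc p n (g.u ⬝ᵥ h.w - h.u ⬝ᵥ g.w) := by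
  rw [commutatorElement_def, mul_eq_zc_mul g h]
  group

theorem pow_eq (g : Heis p n) (k : ℕ) :
    g ^ k = ⟨(k : ZMod p) • g.u, (k : ZMod p) • g.w,
      (k : ZMod p) * g.c + (k.choose 2 : ZMod p) * (g.u ⬝ᵥ g.w)⟩ := by
  induction k with
  | zero =>
    rw [pow_zero]; ext1 <;> simp
  | succ k ih =>
    rw [pow_succ, ih]
    ext1
    · simp [add_smul]
    · simp [add_smul]
    · simp only [mul_c, smul_dotProduct, smul_eq_mul]
      have h1 : (k + 1).choose 2 = k + k.choose 2 := by
        rw [Nat.choose_succ_succ, Nat.choose_one_right]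
      rw [h1]; push_cast; ring

theorem pow_p [Fact p.Prime] (hp : p ≠ 2) (g : Heis p n) : g ^ p = 1 := by
  have hpp : p.Prime := Fact.out
  rw [pow_eq]
  have h1 : ((p : ℕ) : ZMod p) = 0 := ZMod.natCast_self p
  have h2 : ((p.choose 2 : ℕ) : ZMod p) = 0 := by
    rw [ZMod.natCast_eq_zero_iff]
    apply hpp.dvd_choose_self (by norm_num)
    have := hpp.two_le
    omega
  ext1 <;> simp [h2]

theorem central_iff (g : Heis p n) [Fact p.Prime] :
    (∀ h : Heis p n, g * h = h * g) ↔ g ∈ Subgroup.zpowers (zc p n 1) := by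
  constructor
  · intro hg
    have hu : g.u = 0 := by
      funext i
      have h1 := hg ⟨0, Pi.single i 1, 0⟩
      have h2 := congrArg Heis.c h1
      simp only [mul_c, zero_dotProduct, dotProduct_single, mul_one] at h2
      simpa using h2
    have hw : g.w = 0 := by
      funext i
      have h1 := hg ⟨Pi.single i 1, 0, 0⟩
      have h2 := congrArg Heis.c h1
      simp only [mul_c, dotProduct_zero, single_dotProduct, one_mul] at h2
      simpa using h2.symm
    refine Subgroup.mem_zpowers_iff.mpr ⟨(g.c.val : ℤ), ?_⟩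
    rw [zpow_natCast, zc_pow]
    ext1
    · simp [zc, hu]
    · simp [zc, hw]
    · simp [zc]
  · intro hg h
    obtain ⟨k, rfl⟩ := Subgroup.mem_zpowers_iff.mp hg
    have h1 : Commute (zc p n 1) h := zc_central 1 h
    exact (h1.zpow_left k).eq

theorem zc_one_ne_one [Fact p.Prime] : zc p n (1 : ZMod p) ≠ 1 := by
  intro h
  have h1 := congrArg Heis.c h
  simp [zc] at h1

theorem exists_commutator (hn : 1 ≤ n) :
    ∃ x y : Heis p n, ⁅x, y⁆ = zc p n 1 := by
  refine ⟨⟨Pi.single ⟨0, hn⟩ 1, 0, 0⟩, ⟨0, Pi.single ⟨0, hn⟩ 1, 0⟩, ?_⟩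
  rw [commutator_eq]
  congr 1
  simp

/-- The underlying equivalence with a product. -/
def equivProd (p n : ℕ) : Heis p n ≃ (Fin n → ZMod p) × (Fin n → ZMod p) × ZMod p where
  toFun g := (g.u, g.w, g.c)
  invFun t := ⟨t.1, t.2.1, t.2.2⟩
  left_inv g := by ext1 <;> rfl
  right_inv t := rfl

instance [Fact p.Prime] : Finite (Heis p n) := Finite.of_equiv _ (equivProd p n).symm

theorem card_eq [Fact p.Prime] : Nat.card (Heis p n) = p ^ (1 + 2 * n) := by
  rw [Nat.card_congr (equivProd p n), Nat.card_prod, Nat.card_prod, Nat.card_fun, Nat.card_zmod,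
    Nat.card_fin]
  ring

theorem zc_mem_zpowers [Fact p.Prime] (t : ZMod p) :
    zc p n t ∈ Subgroup.zpowers (zc p n (1 : ZMod p)) := by
  refine Subgroup.mem_zpowers_iff.mpr ⟨(t.val : ℤ), ?_⟩
  rw [zpow_natCast, zc_pow]
  congr 1
  simp

/-- The linear map of `g` on `ZMod p × (Fin n → ZMod p) × ZMod p`. -/
def act (g : Heis p n) :
    (ZMod p × (Fin n → ZMod p) × ZMod p) →ₗ[ZMod p] (ZMod p × (Fin n → ZMod p) × ZMod p) where
  toFun t := (t.1 + g.u ⬝ᵥ t.2.1 + g.c * t.2.2, t.2.1 + t.2.2 • g.w, t.2.2)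
  map_add' s t := by
    refine Prod.ext ?_ (Prod.ext ?_ ?_)
    · simp only [Prod.fst_add, Prod.snd_add, dotProduct_add]; ring
    · simp only [Prod.fst_add, Prod.snd_add, add_smul]; abel
    · simp
  map_smul' a t := by
    refine Prod.ext ?_ (Prod.ext ?_ ?_)
    · simp only [Prod.smul_fst, Prod.smul_snd, dotProduct_smul, smul_eq_mul, RingHom.id_apply]; ring
    · simp only [Prod.smul_fst, Prod.smul_snd, smul_eq_mul, RingHom.id_apply, smul_add, mul_smul]
    · simp

theorem act_apply (g : Heis p n) (t : ZMod p × (Fin n → ZMod p) × ZMod p) :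
    act g t = (t.1 + g.u ⬝ᵥ t.2.1 + g.c * t.2.2, t.2.1 + t.2.2 • g.w, t.2.2) := rfl

theorem act_mul (g h : Heis p n) : act (g * h) = act g * act h := by
  apply LinearMap.ext
  intro t
  show act (g * h) t = act g (act h t)
  rw [act_apply, act_apply, act_apply]
  refine Prod.ext ?_ (Prod.ext ?_ ?_)
  · simp only [mul_u, mul_c, add_dotProduct, dotProduct_add, dotProduct_smul, smul_eq_mul]; ring
  · simp only [mul_w, smul_add]; abel
  · rfl

theorem act_one : act (1 : Heis p n) = 1 := by
  apply LinearMap.ext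
  intro t
  rw [act_apply]
  refine Prod.ext ?_ (Prod.ext ?_ ?_) <;> simp

/-- The action as a monoid homomorphism. -/
def actHom (p n : ℕ) :
    Heis p n →* Module.End (ZMod p) (ZMod p × (Fin n → ZMod p) × ZMod p) where
  toFun := act
  map_one' := act_one
  map_mul' := act_mul

theorem actHom_injective : Function.Injective (actHom p n) := by
  intro g h hgh
  have h1 : ∀ t, act g t = act h t := fun t => by
    have h2 : act g = act h := hgh
    rw [h2]
  ext1
  · funext i
    have h2 := congrArg Prod.fst (h1 (0, Pi.single i 1, 0))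
    simpa [act_apply] using h2
  · have h2 := congrArg (fun t => t.2.1) (h1 (0, 0, 1))
    simpa [act_apply] using h2
  · have h2 := congrArg Prod.fst (h1 (0, 0, 1))
    simpa [act_apply] using h2

theorem finrank_space [Fact p.Prime] :
    Module.finrank (ZMod p) (ZMod p × (Fin n → ZMod p) × ZMod p) = n + 2 := by
  simp [Module.finrank_prod]; ring

/-- The embedding into `GL (n + 2, p)`. -/
noncomputable def glHom (p n : ℕ) [Fact p.Prime] :
    Heis p n →* Matrix.GeneralLinearGroup (Fin (n + 2)) (ZMod p) :=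
  (Units.mapEquiv (LinearMap.toMatrixAlgEquiv
    (Module.finBasisOfFinrankEq (ZMod p) (ZMod p × (Fin n → ZMod p) × ZMod p)
      finrank_space)).toRingEquiv.toMulEquiv).toMonoidHom.comp (actHom p n).toHomUnits

theorem glHom_injective [Fact p.Prime] : Function.Injective (glHom p n) := by
  intro g h hgh
  have h1 : (actHom p n).toHomUnits g = (actHom p n).toHomUnits h :=
    (Units.mapEquiv _).injective hgh
  have h2 : (actHom p n) g = (actHom p n) h := congrArg Units.val h1
  exact actHom_injective h2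

end Heis

/-- Extraspeciality from a model. -/
theorem isExtraspecial_of_model {p : ℕ} [Fact p.Prime] {H : Type*} {X : Type*} [Group H]
    [Group X] [Finite X] (e : H ≃* X) (z₀ : H) (hz₀ : z₀ ≠ 1)
    (hcenter : ∀ c : H, (∀ h, c * h = h * c) ↔ c ∈ Subgroup.zpowers z₀)
    (hpow : ∀ x : H, x ^ p = 1) (hcomm : ∀ x y : H, ⁅x, y⁆ ∈ Subgroup.zpowers z₀)
    (hz : ∃ x y : H, ⁅x, y⁆ = z₀) : Cfsg.IsExtraspecial p X := by
  have hpp : p.Prime := Fact.out
  have hpowX : ∀ x : X, x ^ p = 1 := by
    intro x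
    obtain ⟨g, rfl⟩ := e.surjective x
    rw [← map_pow, hpow, map_one]
  have hG : IsPGroup p X := fun g => ⟨1, by rw [pow_one]; exact hpowX g⟩
  have hcenX : ∀ c : X, c ∈ Subgroup.center X ↔ c ∈ Subgroup.zpowers (e z₀) := by
    intro c
    obtain ⟨g, rfl⟩ := e.surjective c
    rw [Subgroup.mem_center_iff]
    constructor
    · intro hc
      have h1 : g ∈ Subgroup.zpowers z₀ := by
        rw [← hcenter]
        intro h
        apply e.injective
        rw [map_mul, map_mul]
        exact (hc (e h)).symm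
      obtain ⟨k, rfl⟩ := Subgroup.mem_zpowers_iff.mp h1
      exact Subgroup.mem_zpowers_iff.mpr ⟨k, by rw [map_zpow]⟩
    · intro hc x
      obtain ⟨k, hk⟩ := Subgroup.mem_zpowers_iff.mp hc
      obtain ⟨h, rfl⟩ := e.surjective x
      have h1 : g = z₀ ^ k := e.injective (by rw [map_zpow]; exact hk.symm)
      have h2 : g * h = h * g := (hcenter g).mpr (h1 ▸ Subgroup.zpow_mem_zpowers z₀ k) h
      rw [← map_mul, ← map_mul, h2]
  have hcenterEq : Subgroup.center X = Subgroup.zpowers (e z₀) := Subgroup.ext hcenX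
  have hcommX : ∀ x y : X, ⁅x, y⁆ ∈ Subgroup.center X := by
    intro x y
    obtain ⟨g, rfl⟩ := e.surjective x
    obtain ⟨h, rfl⟩ := e.surjective y
    rw [hcenX, ← map_commutatorElement]
    obtain ⟨k, hk⟩ := Subgroup.mem_zpowers_iff.mp (hcomm g h)
    exact Subgroup.mem_zpowers_iff.mpr ⟨k, by rw [← hk, map_zpow]⟩
  have hcomEq : commutator X = Subgroup.center X := by
    apply le_antisymm
    · rw [commutator_eq_closure, Subgroup.closure_le]
      rintro _ ⟨x, y, rfl⟩
      exact hcommX x y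
    · rw [hcenterEq, Subgroup.zpowers_le]
      obtain ⟨x, y, hxy⟩ := hz
      rw [← hxy, map_commutatorElement]
      exact Subgroup.commutator_mem_commutator (Subgroup.mem_top _) (Subgroup.mem_top _)
  have hfrat : frattini X = Subgroup.center X := by
    apply le_antisymm
    · apply Cfsg.Agent.H71.frattini_le_of_pow_comm p hpp
      · intro x; rw [hpowX]; exact Subgroup.one_mem _
      · intro x y
        have := hcommX x y
        rwa [commutatorElement_def] at this
    · rw [← hcomEq]
      exact Cfsg.Agent.H3.commutator_le_frattini hG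
  have hcard : Nat.card (Subgroup.center X) = p := by
    rw [hcenterEq, Nat.card_zpowers]
    have h1 : (e z₀) ^ p = 1 := hpowX _
    have h2 : e z₀ ≠ 1 := fun h => hz₀ (e.injective (h.trans (map_one e).symm))
    exact orderOf_eq_prime h1 h2
  exact ⟨⟨hG, hfrat, hcomEq⟩, hcard⟩

/-- Extraspecial groups of exponent `p` inside `GL (n + 2, p)`. -/
theorem exists_extraspecial_gl (p : ℕ) [Fact p.Prime] (hp : p ≠ 2) (n : ℕ) (hn : 1 ≤ n) :
    ∃ E : Subgroup (Matrix.GeneralLinearGroup (Fin (n + 2)) (ZMod p)),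
      Cfsg.IsExtraspecial p ↥E ∧ Nat.card E = p ^ (1 + 2 * n) ∧ ∀ x ∈ E, x ^ p = 1 := by
  have hι := Heis.glHom_injective (p := p) (n := n)
  let e : Heis p n ≃* (Heis.glHom p n).range := MonoidHom.ofInjective hι
  refine ⟨(Heis.glHom p n).range, ?_, ?_, ?_⟩
  · exact isExtraspecial_of_model e (Heis.zc p n 1) Heis.zc_one_ne_one
      (fun c => Heis.central_iff c) (Heis.pow_p hp)
      (fun x y => by rw [Heis.commutator_eq]; exact Heis.zc_mem_zpowers _)
      (Heis.exists_commutator hn)
  · rw [← Nat.card_congr e.toEquiv, Heis.card_eq]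
  · rintro x ⟨g, rfl⟩
    rw [← map_pow, Heis.pow_p hp, map_one]

end Cfsg.Agent.H13
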