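import Cfsg.Agent.H13.JkNV
import Cfsg.Agent.H1.JtMod
import Cfsg.Agent.Helper55.J48

/-!
# K-FOUR (JZ-KILL sub-project of S2951 / S2952; helper59's post 10630)

No four-group of `N_G(V)`, `V = Ω₁Z(O₂(L))`, whose three involutions have the same fixed points
on `V` and act non-trivially.  Route: helper1's module lemma (`noTwoCoreMod_of`, `common_fix`)
applied to `A = ⟨b₁, b₂⟩`.
-/

set_option autoImplicit false
open Cfsg

namespace Cfsg.Agent.H13.Jk

open Cfsg.Agent.H64.Jz Cfsg.Agent.H59.JzK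

universe u

theorem mem_four {G : Type u} [Group G] {b₁ b₂ : G} (h1 : b₁ * b₁ = 1) (h2 : b₂ * b₂ = 1)
    (hc : b₁ * b₂ = b₂ * b₁) :
    ∀ x ∈ Subgroup.closure ({b₁, b₂} : Set G), x = 1 ∨ x = b₁ ∨ x = b₂ ∨ x = b₁ * b₂ := by
  have h1' : ∀ x, b₁ * (b₁ * x) = x := fun x => by rw [← mul_assoc, h1, one_mul]
  have h2' : ∀ x, b₂ * (b₂ * x) = x := fun x => by rw [← mul_assoc, h2, one_mul]
  have hc' : ∀ x, b₁ * (b₂ * x) = b₂ * (b₁ * x) := fun x => by rw [← mul_assoc, hc, mul_assoc]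
  intro x hx
  induction hx using Subgroup.closure_induction with
  | mem x hx =>
    rcases hx with h | h
    · exact Or.inr (Or.inl h)
    · exact Or.inr (Or.inr (Or.inl h))
  | one => exact Or.inl rfl
  | mul x y _ _ hx hy =>
    rcases hx with h | h | h | h <;> rcases hy with h' | h' | h' | h' <;> rw [h, h'] <;>
      simp [mul_assoc, h1, h2, h1', h2', hc, hc']
  | inv x _ hx =>
    have hxx : x * x = 1 := by
      rcases hx with h | h | h | h <;> rw [h] <;> simp [mul_assoc, h1, h2, h1', h2', hc, hc']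
    rw [inv_eq_of_mul_eq_one_right hxx]
    exact hx

/-- K-FOUR. -/
theorem kFour : StKFour.{u} := by
  intro G _ _ S M K L T' K' L' hR b₁ hb₁ b₂ hb₂ h1 h2 hcomm hfix
  have : Fact (Nat.Prime 2) := ⟨Nat.prime_two⟩
  obtain ⟨hB, hX, -, -⟩ := hR
  obtain ⟨hZN, -, -, -, hT, -, -, hLmax, -⟩ := hB
  obtain ⟨hc2, hsolvAll, hZ⟩ := hZN
  have hNV : Subgroup.normalizer (Vof L : Set G) = L := normalizer_Vof hLmax
  have hQ2 : IsPGroup 2 ↥(pCoreOf 2 L) := Cfsg.Agent.H51.pCoreOf_isPGroup 2 L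
  have hVQ : Vof L ≤ pCoreOf 2 L ⊓ Subgroup.centralizer (pCoreOf 2 L : Set G) :=
    omegaCenterOf_le_inf _
  have hexp : ∀ v ∈ Vof L, v * v = 1 := omegaCenterOf_sq (pCoreOf 2 L)
  have hVc : ∀ v ∈ Vof L, ∀ w ∈ Vof L, v * w = w * v := by
    intro v hv w hw
    have hvc := (Subgroup.mem_inf.mp (hVQ hv)).2
    have hwQ := (Subgroup.mem_inf.mp (hVQ hw)).1
    rw [Subgroup.mem_centralizer_iff] at hvc
    exact (hvc w hwQ).symm
  have hVL : Vof L ≤ L := fun v hv => Cfsg.Agent.H51.pCoreOf_le 2 L (Subgroup.mem_inf.mp (hVQ hv)).1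
  have hLV : L ≤ Subgroup.normalizer (Vof L : Set G) := hNV.ge
  have hsolv : Group.IsSolvable ↥L := hsolvAll L hLmax.1
  -- `S ≤ L`
  have hS2 : IsPGroup 2 ↥(S : Subgroup G) := S.isPGroup'
  have hS1 : (S : Subgroup G) ≠ ⊥ := hT.1.2.1
  have hJne := Cfsg.Agent.Helper55.ThJ.J_ne_bot hS2 hS1
  have hJ2 : IsPGroup 2 ↥(thompsonSubgroupOf 2 (S : Subgroup G)) :=
    hS2.to_le (Cfsg.Agent.Helper55.ThJ.J_le _)
  have hNJ : IsTwoLocal (Subgroup.normalizer (thompsonSubgroupOf 2 (S : Subgroup G) : Set G)) :=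
    ⟨_, hJ2, hJne, rfl⟩
  have hSL : (S : Subgroup G) ≤ L :=
    (Subgroup.le_normalizer.trans (Cfsg.Agent.Helper55.ThJ.normalizer_le _)).trans
      (hX _ hNJ Subgroup.le_normalizer)
  -- `O₂(L) ≤ S`
  have hSylIn : IsSylowTwoIn (S : Subgroup G) L := by
    refine ⟨hSL, hS2, ?_⟩
    have hdvd : (S : Subgroup G).relIndex L ∣ (S : Subgroup G).index :=
      Subgroup.relIndex_dvd_index_of_le hSL
    have hodd : ¬ 2 ∣ (S : Subgroup G).index := S.not_dvd_index
    rw [← Nat.not_even_iff_odd, even_iff_two_dvd]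
    exact fun h => hodd (h.trans hdvd)
  have hQS : pCoreOf 2 L ≤ (S : Subgroup G) :=
    Cfsg.Agent.Helper55.J48.pCoreOf_le_of_sylowIn hSylIn
  have hCQ : Subgroup.centralizer (pCoreOf 2 L : Set G) ≤ pCoreOf 2 L :=
    Cfsg.Agent.Helper55.J48.centralizer_pCoreOf_le hc2 hLmax.1
  -- `Ω₁Z(S) ≤ V`
  have hZV : omegaCenterOf (S : Subgroup G) ≤ Vof L := by
    have e : omegaCenterOf (S : Subgroup G) = Subgroup.closure {x : G | x ∈ (S : Subgroup G) ⊓
        Subgroup.centralizer ((S : Subgroup G) : Set G) ∧ x ^ 2 = 1} := rfl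
    rw [e, Subgroup.closure_le]
    rintro x ⟨hxSC, hx2⟩
    have hxCQ : x ∈ Subgroup.centralizer (pCoreOf 2 L : Set G) :=
      Subgroup.centralizer_le (SetLike.coe_subset_coe.mpr hQS) (Subgroup.mem_inf.mp hxSC).2
    exact mem_omegaCenterOf (hCQ hxCQ) hxCQ (by rw [← pow_two]; exact hx2)
  have hC : L ⊓ Subgroup.centralizer (Vof L : Set G) ≤
      Subgroup.normalizer ((S : Subgroup G) : Set G) :=
    fun x hx => hZ S (Subgroup.centralizer_le (SetLike.coe_subset_coe.mpr hZV) hx.2)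
  have hQn : ∀ N : Subgroup G, N ≤ L → IsPGroup 2 ↥N → L ≤ Subgroup.normalizer (N : Set G) →
      N ≤ Subgroup.centralizer (Vof L : Set G) := by
    intro N hNL hN2 hLN n hn
    have hnQ : n ∈ pCoreOf 2 L := Cfsg.Agent.H51.le_pCoreOf 2 hNL hLN hN2 hn
    rw [Subgroup.mem_centralizer_iff]
    intro v hv
    have hvc := (Subgroup.mem_inf.mp (hVQ hv)).2
    rw [Subgroup.mem_centralizer_iff] at hvc
    exact (hvc n hnQ).symm
  have hO := Cfsg.Agent.H1.Jt.noTwoCoreMod_of L (Vof L) S hSL hVL hLV hC hQn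
  by_contra hcon
  rw [not_or, not_or] at hcon
  obtain ⟨hn1, hn2, hn3⟩ := hcon
  have hmem := mem_four h1 h2 hcomm
  have hb₁L : b₁ ∈ L := by rw [← hNV]; exact hb₁
  have hb₂L : b₂ ∈ L := by rw [← hNV]; exact hb₂
  have hAL : Subgroup.closure ({b₁, b₂} : Set G) ≤ L := by
    rw [Subgroup.closure_le]
    intro x hx
    rcases hx with h | h
    · rw [h]; exact hb₁L
    · rw [Set.mem_singleton_iff.mp h]; exact hb₂L
  have h1' : ∀ x, b₁ * (b₁ * x) = x := fun x => by rw [← mul_assoc, h1, one_mul]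
  have h2' : ∀ x, b₂ * (b₂ * x) = x := fun x => by rw [← mul_assoc, h2, one_mul]
  have hc' : ∀ x, b₁ * (b₂ * x) = b₂ * (b₁ * x) := fun x => by
    rw [← mul_assoc, hcomm, mul_assoc]
  have hA2 : ∀ a ∈ Subgroup.closure ({b₁, b₂} : Set G), a * a = 1 := by
    intro a ha
    rcases hmem a ha with h | h | h | h <;> rw [h] <;>
      simp [mul_assoc, h1, h2, h1', h2', hcomm, hc']
  have hAc : ∀ a ∈ Subgroup.closure ({b₁, b₂} : Set G),
      ∀ b ∈ Subgroup.closure ({b₁, b₂} : Set G), a * b = b * a := by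
    intro a ha b hb
    rcases hmem a ha with h | h | h | h <;> rcases hmem b hb with h' | h' | h' | h' <;>
      rw [h, h'] <;> simp [mul_assoc, h1, h2, h1', h2', hcomm, hc']
  have hAV : Subgroup.closure ({b₁, b₂} : Set G) ⊓ Subgroup.centralizer (Vof L : Set G) = ⊥ := by
    rw [eq_bot_iff]
    intro x hx
    obtain ⟨hxA, hxC⟩ := Subgroup.mem_inf.mp hx
    rw [Subgroup.mem_bot]
    rcases hmem x hxA with h | h | h | h
    · exact h
    · exact absurd (h ▸ hxC) hn1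
    · exact absurd (h ▸ hxC) hn2
    · exact absurd (h ▸ hxC) hn3
  have hF : ∀ a ∈ Subgroup.closure ({b₁, b₂} : Set G), a ≠ 1 →
      ∀ b ∈ Subgroup.closure ({b₁, b₂} : Set G), b ≠ 1 →
      ∀ v ∈ Vof L, (a * v = v * a ↔ b * v = v * b) := by
    intro a ha ha1 b hb hb1 v hv
    obtain ⟨e1, e2⟩ := hfix v hv
    have key : ∀ a b : G, (a = b₁ ∨ a = b₂ ∨ a = b₁ * b₂) → (b = b₁ ∨ b = b₂ ∨ b = b₁ * b₂) →
        (a * v = v * a ↔ b * v = v * b) := by
      intro a b ha hb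
      rcases ha with h | h | h <;> rcases hb with h' | h' | h' <;> rw [h, h'] <;> tauto
    apply key a b
    · rcases hmem a ha with h | h
      · exact absurd h ha1
      · exact h
    · rcases hmem b hb with h | h
      · exact absurd h hb1
      · exact h
  have hb₁1 : b₁ ≠ 1 := fun h => hn1 (by rw [h]; exact Subgroup.one_mem _)
  have hb₂1 : b₂ ≠ 1 := fun h => hn2 (by rw [h]; exact Subgroup.one_mem _)
  have hEq := Cfsg.Agent.H1.Jt.common_fix L (Vof L) (Subgroup.closure ({b₁, b₂} : Set G))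
    hVL hLV hsolv hexp hVc hO hAL hA2 hAc hAV hF
    b₁ (Subgroup.subset_closure (by simp)) b₂ (Subgroup.subset_closure (by simp)) hb₁1 hb₂1
  apply hn3
  rw [← hEq, h1]
  exact Subgroup.one_mem _

example : Cfsg.Agent.H59.JzK.StKFour.{u} := kFour.{u}

end Cfsg.Agent.H13.Jk

#print axioms Cfsg.Agent.H13.Jk.kFour
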