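import Mathlib
import Cfsg.Agent.H64.JyDefs
import Cfsg.Agent.S2950
import Cfsg.Agent.H51.Local
import Cfsg.Agent.Helper55.J48

/-!
# JX-PF (piece (X2) of helper52's JY-KILL2 plan for S2953)

`Base S M T K L` gives, for `P = K ⊔ T`: `O₂(P) ≤ T`, `O₂(P) ≠ 1`, `P ≤ N_G(O₂(P))`.
-/

set_option autoImplicit false
open Cfsg

namespace Cfsg.Agent.H13.Jx

open Cfsg.Agent.H64.Jz

universe u

/-- `T` is a Sylow 2-subgroup of `L` and of `K ⊔ T ≤ L`. -/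
theorem sylow_facts {G : Type u} [Group G] [Finite G] (S : Sylow 2 G) (M T K L : Subgroup G)
    (hB : Base S M T K L) :
    IsSylowTwoIn T L ∧ K ⊔ T ≤ L ∧ IsSylowTwoIn T (K ⊔ T) := by
  obtain ⟨hZN, hO, hM, hMJ, hT, -, hK, hLmax, hKL⟩ := hB
  obtain ⟨hc2, hsolv, hZ⟩ := hZN
  obtain ⟨L₀, hL₀max, hKL₀, huniq, -, hSyl₀⟩ :=
    Cfsg.Agent.S2950.result hc2 hsolv hZ hO S M hM hMJ T hT K hK
  have hLL₀ : L = L₀ := huniq L hLmax hKL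
  have hSyl : IsSylowTwoIn T L := by rw [hLL₀]; exact hSyl₀
  have hPL : K ⊔ T ≤ L := sup_le (le_sup_left.trans hKL) hSyl.1
  refine ⟨hSyl, hPL, le_sup_right, hSyl.2.1, ?_⟩
  have hmul := Subgroup.relIndex_mul_relIndex T (K ⊔ T) L le_sup_right hPL
  have hodd := hSyl.2.2
  rw [← hmul] at hodd
  exact (Nat.odd_mul.mp hodd).1

/-- The statement of JX-PF (inline copy). -/
def StPF' : Prop := ∀ {G : Type u} [Group G] [Finite G] (S : Sylow 2 G) (M T K L : Subgroup G),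
  Base S M T K L →
  pCoreOf 2 (K ⊔ T) ≤ T ∧ pCoreOf 2 (K ⊔ T) ≠ ⊥ ∧
    K ⊔ T ≤ Subgroup.normalizer (pCoreOf 2 (K ⊔ T) : Set G)

/-- JX-PF. -/
theorem pf' : StPF'.{u} := by
  intro G _ _ S M T K L hB
  obtain ⟨-, -, hSylP⟩ := sylow_facts S M T K L hB
  obtain ⟨-, -, -, -, -, -, hK, -, -⟩ := hB
  exact ⟨Cfsg.Agent.Helper55.J48.pCoreOf_le_of_sylowIn hSylP, hK.2.2,
    Cfsg.Agent.H51.le_normalizer_pCoreOf 2 (K ⊔ T)⟩

end Cfsg.Agent.H13.Jx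

#print axioms Cfsg.Agent.H13.Jx.pf'
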