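import Mathlib
import Cfsg.Agent.H52.JxDefs
import Cfsg.Agent.H64.JzFinal
import Cfsg.Agent.H48.JyV
import Cfsg.Agent.H82.JvCaseA
import Cfsg.Agent.H97.JyPFacts
import Cfsg.Agent.H13.JxPF
import Cfsg.Agent.S2950
import Cfsg.Agent.H51.Local
import Cfsg.Agent.H51.Amalgam
import Cfsg.Agent.H54.UqO2SN
import Cfsg.Agent.Helper55.J48
import Cfsg.Agent.Helper55.ThJ

/-!
# JX-KA (piece (X4), direct form, of helper52's JY-KILL2 plan for S2953)

The case `V ≤ Q₁ = O₂(K' ⊔ T')` of the residual configuration is impossible: glue of helper82's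
abstract count `H82.Jv.caseA` with helper48's `vfacts`, helper97's `pfacts` and an element
`a ∈ A ∖ Q₁`, `A` elementary abelian of largest order in `T'`.
-/

set_option autoImplicit false
open Cfsg

namespace Cfsg.Agent.H13.Jx

open Cfsg.Agent.H64.Jz Cfsg.Agent.H64.Jy
open scoped commutatorElement

universe u

/-- A subgroup of exponent 2 is elementary abelian. -/
theorem elemAb_of_sq {G : Type u} [Group G] (B : Subgroup G) (h : ∀ x ∈ B, x * x = 1) :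
    IsElementaryAbelian 2 B := by
  refine ⟨⟨⟨fun a b => ?_⟩⟩, fun a ha => by rw [pow_two]; exact h a ha⟩
  apply Subtype.ext
  have ha : (a : G)⁻¹ = a := inv_eq_of_mul_eq_one_left (h a a.2)
  have hb : (b : G)⁻¹ = b := inv_eq_of_mul_eq_one_left (h b b.2)
  have hab : ((a : G) * b)⁻¹ = a * b := inv_eq_of_mul_eq_one_left (h _ (B.mul_mem a.2 b.2))
  show (a : G) * b = b * a
  calc (a : G) * b = ((a : G) * b)⁻¹ := hab.symm
    _ = (b : G)⁻¹ * (a : G)⁻¹ := mul_inv_rev _ _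
    _ = b * a := by rw [ha, hb]

/-- JX-KA. -/
theorem ka : Cfsg.Agent.H52.Jx.StKA.{u} := by
  intro G _ _ S M K L T' K' L' hR hVQ
  obtain ⟨hB, hNS, hB', hne⟩ := hR
  obtain ⟨hV4, hVe, hNV, -, -, hTI⟩ := Cfsg.Agent.H48.Jy.vfacts S M K L T' K' L' hB hNS hB' hne
  have hTK' : T' ≤ Subgroup.normalizer (K' : Set G) :=
    normFinal S L T' K' L' hB' (stMain S L T' K' L' hB')
  obtain ⟨hSylL', -, -⟩ := sylow_facts S L T' K' L' hB'
  obtain ⟨hQT, -, -⟩ := pf' S L T' K' L' hB'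
  obtain ⟨hZN, hO, hL2, hNJL, hT', -, hK', hL'max, hK'L'⟩ := hB'
  obtain ⟨hc2, hsolv, hZ⟩ := hZN
  obtain ⟨L₀, -, -, huniq, hsn₀, -⟩ :=
    Cfsg.Agent.S2950.result hc2 hsolv hZ hO S L hL2 hNJL T' hT' K' hK'
  have hLL₀ : L' = L₀ := huniq L' hL'max hK'L'
  have hsn : (K'.subgroupOf L').IsSubnormal := by rw [hLL₀]; exact hsn₀
  have hK'L'' : K' ≤ L' := le_sup_left.trans hK'L'
  have hQL'T : pCoreOf 2 L' ≤ T' := Cfsg.Agent.Helper55.J48.pCoreOf_le_of_sylowIn hSylL'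
  have hOT : pCoreOf 2 K' ≤ T' := (Cfsg.Agent.H54.Uq.o2sn K' L' hK'L'' hsn).trans hQL'T
  have hOK : pCoreOf 2 K' ≤ K' := Cfsg.Agent.H51.pCoreOf_le 2 K'
  have hT2 : IsPGroup 2 ↥T' := hSylL'.2.1
  obtain ⟨hK0, hK'nL, -⟩ := hK'
  obtain ⟨hgen, hcomm, hidx3, -, -, -⟩ := hK0.1
  have hT'L : T' ≤ L := hT'.1.2.2.1
  have hOnK : K' ≤ Subgroup.normalizer (pCoreOf 2 K' : Set G) :=
    Cfsg.Agent.H51.le_normalizer_pCoreOf 2 K'
  have hOnT : T' ≤ Subgroup.normalizer (pCoreOf 2 K' : Set G) := by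
    intro t ht
    have h1 : K'.map (MulAut.conj t).toMonoidHom = K' :=
      Subgroup.mem_normalizer_iff_map_conj_eq.mp (hTK' ht)
    rw [Subgroup.mem_normalizer_iff_map_conj_eq]
    have h2 := Cfsg.Agent.H51.pCoreOf_map 2 K' (MulAut.conj t)
    rw [h1] at h2
    exact h2.symm
  obtain ⟨D, k, hDT, hOD, hKD, hTD, hD2, hinv, -, -, hkK, hkO, hk3, -, hdich⟩ :=
    Cfsg.Agent.H97.Jy.pfacts K' T' (pCoreOf 2 K') hT2 hTK' hOK hOT hidx3 hOnK hOnT hgen
  -- `D = O₂(K' ⊔ T')`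
  have hQD : pCoreOf 2 (K' ⊔ T') ≤ D := by
    rcases hdich (pCoreOf 2 (K' ⊔ T')) (Cfsg.Agent.H51.pCoreOf_le 2 _)
      (Cfsg.Agent.H51.le_normalizer_pCoreOf 2 _) with h | h
    · exact h
    · exact absurd ((h.trans hQT).trans hT'L) hK'nL
  have hVD : Cfsg.Agent.H52.Jx.Vof L ≤ D := hVQ.trans hQD
  -- `k ∉ L`
  have hkL : k ∉ L := by
    intro hkL
    have hOL : pCoreOf 2 K' ≤ L := hOT.trans hT'L
    have h1 := Subgroup.relIndex_mul_relIndex (pCoreOf 2 K') (K' ⊓ L) K' (le_inf hOK hOL)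
      inf_le_left
    rw [hidx3] at h1
    have h2 : (K' ⊓ L).relIndex K' ≠ 1 := fun h =>
      hK'nL ((Subgroup.relIndex_eq_one.mp h).trans inf_le_right)
    have h3 : (pCoreOf 2 K').relIndex (K' ⊓ L) = 1 := by
      have hp : Nat.Prime 3 := by norm_num
      rcases (Nat.dvd_prime hp).mp (Dvd.intro_left _ h1) with h | h
      · exact absurd h h2
      · rw [h] at h1; omega
    exact hkO ((Subgroup.relIndex_eq_one.mp h3) ⟨hkK, hkL⟩)
  have hkV : k ∉ Subgroup.normalizer (Cfsg.Agent.H52.Jx.Vof L : Set G) := by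
    rw [hNV]; exact hkL
  -- an elementary abelian subgroup of largest order of `T'` not inside `D`
  have hJD : ¬ thompsonSubgroupOf 2 T' ≤ D := by
    intro hJ
    apply hK'nL
    have hKD' : K' ≤ D := by
      rw [← hcomm, Subgroup.commutator_le]
      intro g1 hg1 g2 hg2
      have hg2D : g2 ∈ D := hJ hg2
      have hc : g1 * g2 * g1⁻¹ ∈ D := (Subgroup.mem_normalizer_iff.mp (hKD hg1) g2).mp hg2D
      have h2 : g1 * g2 * g1⁻¹ * g2⁻¹ ∈ D := D.mul_mem hc (D.inv_mem hg2D)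
      simpa [commutatorElement_def] using h2
    exact (hKD'.trans hDT).trans hT'L
  obtain ⟨A, hAgen, hAD⟩ : ∃ A ∈ Cfsg.Agent.Helper55.ThJ.gens T', ¬ A ≤ D := by
    by_contra hcon
    apply hJD
    rw [Cfsg.Agent.Helper55.ThJ.J_spec T']
    refine sSup_le fun A hA => ?_
    by_contra hAD
    exact hcon ⟨A, hA, hAD⟩
  obtain ⟨hAT, hAea, hAcard⟩ := hAgen
  obtain ⟨a, haA, haD⟩ := SetLike.not_le_iff_exists.mp hAD
  have hAe : ∀ x ∈ A, x * x = 1 := fun x hx => by rw [← pow_two]; exact hAea.2 x hx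
  have hmax : ∀ B : Subgroup G, B ≤ T' → (∀ x ∈ B, x * x = 1) → Nat.card ↥B ≤ Nat.card ↥A := by
    intro B hBT hBe
    rw [hAcard]
    exact Cfsg.Agent.Helper55.ThJ.card_le_a T' hBT (elemAb_of_sq B hBe)
  have hLV : L ≤ Subgroup.normalizer (Cfsg.Agent.H52.Jx.Vof L : Set G) := hNV.ge
  exact Cfsg.Agent.H82.Jv.caseA T' D (Cfsg.Agent.H52.Jx.Vof L) A k a hDT hVD hV4 hVe
    (fun g hg => hLV (hTI g hg)) ((hDT.trans hT'L).trans hLV) (hKD hkK) hk3 hkV hAT hAe hmax haA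
    (hLV (hT'L (hAT haA))) (hOD (hinv a (hAT haA) haD k hkK))
    (fun t ht => by
      by_cases htD : t ∈ D
      · exact Or.inl htD
      · exact Or.inr (hD2 t (hAT ht) a (hAT haA) htD haD))

example : (∀ {G : Type u} [Group G] [Finite G] (S : Sylow 2 G)
    (M K L T' K' L' : Subgroup G), RCtx2 S M K L T' K' L' →
    Cfsg.Agent.H52.Jx.Vof L ≤ pCoreOf 2 (K' ⊔ T') → False) := ka.{u}

example : Cfsg.Agent.H52.Jx.StKA.{u} := ka.{u}

end Cfsg.Agent.H13.Jx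

#print axioms Cfsg.Agent.H13.Jx.ka
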