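import Cfsg.Agent.H52.JxDefs
import Cfsg.Agent.H13.JxPF

/-!
# JX-PF in the exact shape of `H52.JxDefs` (piece (X2) of JY-KILL2, S2953)
-/

set_option autoImplicit false
open Cfsg

namespace Cfsg.Agent.H13.Jx

open Cfsg.Agent.H64.Jz

universe u

/-- JX-PF. -/
theorem pf : Cfsg.Agent.H52.Jx.StPF.{u} := pf'.{u}

example : (∀ {G : Type u} [Group G] [Finite G] (S : Sylow 2 G) (M T K L : Subgroup G),
  Base S M T K L →
  pCoreOf 2 (K ⊔ T) ≤ T ∧ pCoreOf 2 (K ⊔ T) ≠ ⊥ ∧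
    K ⊔ T ≤ Subgroup.normalizer (pCoreOf 2 (K ⊔ T) : Set G)) := pf.{u}

example : Cfsg.Agent.H52.Jx.StPF.{u} := pf.{u}

end Cfsg.Agent.H13.Jx

#print axioms Cfsg.Agent.H13.Jx.pf
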