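import Cfsg.Agent.H46.OutDefs

/-!
# S2124-ASM2N (piece for helper46's S2124 project): a normalised automorphism is the entrywise action of a
field automorphism (the second half of helper38's S2125-ASM2)
-/

set_option autoImplicit false

namespace Cfsg.Agent.H13.OutE

open Cfsg.Lie Cfsg.Agent.H23 Cfsg.Agent.H23.Stb Cfsg.Agent.H46.OutE

universe u

theorem asm2N (h2 : StPsi.{u}) (h3 : StMult.{u}) : StAsm2N.{u} := by
  intro D F _ z η rT w0 hC hrank hnb hconn hgen θ hθ
  classical
  have hS := hC.hP.sem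
  choose! φ ψ hφ hψ hφ1 using hθ
  have hpsi := fun i hi => h2 D F z η rT w0 hC θ i hi (φ i) (ψ i) (hφ i hi) (hψ i hi) (hφ1 i hi)
  have hmult := fun i hi j hj hz => h3 D F z η hC.hP θ i j hi hj hz (φ i) (φ j)
    (hφ i hi) (hpsi j hj).2.2 (hφ1 i hi) (hpsi i hi).2.1
  have hmul : ∀ i < D.rank, ∀ a b, φ i (a * b) = φ i a * φ i b := by
    intro i hi
    obtain ⟨j, hj, hz⟩ := hnb i hi
    exact (hmult i hi j hj hz).2
  have hall : ∀ i < D.rank, ∀ a, φ i a = φ 0 a := by
    apply hconn (fun i => ∀ a, φ i a = φ 0 a)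
    · intro a; rfl
    · intro i hi j hj hz hP a
      rw [← (hmult i hi j hj hz).1 a, hP a]
  let σ : F ≃+* F := { φ 0 with map_mul' := hmul 0 hrank }
  have hσ : ∀ t, (σ : F →+* F) t = φ 0 t := fun _ => rfl
  refine ⟨σ, ?_⟩
  let b : ↥(D.group F) →* ↥(D.group F) :=
    ((glMap D (σ : F →+* F)).comp (D.group F).subtype).codRestrict (D.group F)
      (fun y => glMap_group_le hS hS _ (Subgroup.mem_map_of_mem _ y.2))
  have hab : θ.toMonoidHom = b := by
    apply hgen
    intro i hi t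
    constructor
    · show θ (xG hS (D.simple i) t) = _
      rw [hφ i hi t]
      apply Subtype.ext
      show xU hS (D.simple i) (φ i t) = glMap D (σ : F →+* F) (xU hS (D.simple i) t)
      rw [glMap_xU hS hS, hσ, hall i hi t]
    · show θ (xG hS (D.neg (D.simple i)) t) = _
      rw [hψ i hi t]
      apply Subtype.ext
      show xU hS (D.neg (D.simple i)) (ψ i t) = glMap D (σ : F →+* F) (xU hS (D.neg (D.simple i)) t)
      rw [glMap_xU hS hS, hσ, (hpsi i hi).1 t, hall i hi t]
  intro y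
  exact congrArg (fun f : ↥(D.group F) →* ↥(D.group F) => ((f y : ↥(D.group F)) : GL D.Idx F)) hab

example (h2 : Cfsg.Agent.H23.Stb.StPsi.{u}) (h3 : Cfsg.Agent.H23.Stb.StMult.{u}) :
    Cfsg.Agent.H46.OutE.StAsm2N.{u} := asm2N h2 h3

end Cfsg.Agent.H13.OutE

#print axioms Cfsg.Agent.H13.OutE.asm2N
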