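import Cfsg.Agent.H46.OutDefs

/-!
# S2124-CARDT (piece for helper46's S2124 project): the order of `autT`
-/

set_option autoImplicit false

namespace Cfsg.Agent.H13.OutE

open Cfsg.Lie Cfsg.Agent.H23 Cfsg.Agent.H23.Stb Cfsg.Agent.H46.OutE

universe u

/-- `t ↦ c * σ t` as an additive equivalence. -/
theorem cardT_exists_addEquiv {F : Type u} [Field F] (c : F) (hc : c ≠ 0) (σ : F ≃+* F) :
    ∃ φ : F ≃+ F, ∀ t : F, φ t = c * σ t :=
  ⟨{ toFun := fun t => c * σ t
     invFun := fun t => σ.symm (c⁻¹ * t)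
     left_inv := fun t => by simp [hc]
     right_inv := fun t => by simp [hc]
     map_add' := fun a b => by simp [mul_add] }, fun _ => rfl⟩

theorem cardT : StCardT.{u} := by
  intro D F _ _ z η hP hrank hDAut hDecomp hField hExt
  classical
  have hS := hP.sem
  have hT := hP.tab
  choose χ δ hχ0 hδ hχc using hDAut
  choose φ hφ using hField
  -- the family of scalars attached to `c : Fin D.rank → Fˣ`
  let cN : (Fin D.rank → Fˣ) → ℕ → F := fun c i => if hi : i < D.rank then ((c ⟨i, hi⟩ : Fˣ) : F) else 1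
  have hcN : ∀ (c : Fin D.rank → Fˣ), ∀ i < D.rank, cN c i ≠ 0 := by
    intro c i hi
    show (if hi : i < D.rank then ((c ⟨i, hi⟩ : Fˣ) : F) else 1) ≠ 0
    rw [dif_pos hi]
    exact Units.ne_zero _
  have hcN' : ∀ (c : Fin D.rank → Fˣ) (i : ℕ) (hi : i < D.rank), cN c i = ((c ⟨i, hi⟩ : Fˣ) : F) := by
    intro c i hi
    show (if hi : i < D.rank then ((c ⟨i, hi⟩ : Fˣ) : F) else 1) = _
    rw [dif_pos hi]
  have hφx : ∀ (σ : F ≃+* F) (r : ℕ) (t : F), φ σ (xG hS r t) = xG hS r (σ t) := by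
    intro σ r t
    apply Subtype.ext
    rw [hφ]
    show glMap D (σ : F →+* F) (xU hS r t) = xU hS r (σ t)
    rw [glMap_xU hS hS]
    rfl
  -- the values of `δ_c ∘ φ_σ` on the fundamental root elements
  have hval : ∀ (c : Fin D.rank → Fˣ) (σ : F ≃+* F) (i : ℕ) (hi : i < D.rank) (t : F),
      ((δ (cN c) (hcN c) : MulAut ↥(D.group F)) * (φ σ : MulAut ↥(D.group F))) (xG hS (D.simple i) t) =
        xG hS (D.simple i) (((c ⟨i, hi⟩ : Fˣ) : F) * σ t) ∧
      ((δ (cN c) (hcN c) : MulAut ↥(D.group F)) * (φ σ : MulAut ↥(D.group F)))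
          (xG hS (D.neg (D.simple i)) t) =
        xG hS (D.neg (D.simple i)) ((((c ⟨i, hi⟩ : Fˣ) : F))⁻¹ * σ t) := by
    intro c σ i hi t
    have hl := hT.simple_lt i hi
    constructor
    · rw [MulAut.mul_apply, hφx, hδ (cN c) (hcN c) _ hl, (hχc (cN c) (hcN c) i hi).1, hcN' c i hi]
    · rw [MulAut.mul_apply, hφx, hδ (cN c) (hcN c) _ (hT.neg_lt _ hl), (hχc (cN c) (hcN c) i hi).2,
        hcN' c i hi]
  have hmem : ∀ (c : Fin D.rank → Fˣ) (σ : F ≃+* F),
      ((δ (cN c) (hcN c) : MulAut ↥(D.group F)) * (φ σ : MulAut ↥(D.group F))) ∈ autT hS := by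
    intro c σ i hi
    obtain ⟨φ₁, hφ₁⟩ := cardT_exists_addEquiv ((c ⟨i, hi⟩ : Fˣ) : F) (Units.ne_zero _) σ
    obtain ⟨ψ₁, hψ₁⟩ := cardT_exists_addEquiv (((c ⟨i, hi⟩ : Fˣ) : F))⁻¹
      (inv_ne_zero (Units.ne_zero _)) σ
    refine ⟨φ₁, ψ₁, fun t => ?_, fun t => ?_⟩
    · rw [hφ₁]; exact (hval c σ i hi t).1
    · rw [hψ₁]; exact (hval c σ i hi t).2
  have hbij : Function.Bijective
      (fun x : (Fin D.rank → Fˣ) × (F ≃+* F) =>
        (⟨(δ (cN x.1) (hcN x.1) : MulAut ↥(D.group F)) * (φ x.2 : MulAut ↥(D.group F)),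
          hmem x.1 x.2⟩ : ↥(autT hS))) := by
    constructor
    · rintro ⟨c, σ⟩ ⟨c', σ'⟩ hxy
      have hxy' : (δ (cN c) (hcN c) : MulAut ↥(D.group F)) * (φ σ : MulAut ↥(D.group F)) =
          (δ (cN c') (hcN c') : MulAut ↥(D.group F)) * (φ σ' : MulAut ↥(D.group F)) :=
        congrArg Subtype.val hxy
      have hc : ∀ (i : ℕ) (hi : i < D.rank), ((c ⟨i, hi⟩ : Fˣ) : F) = ((c' ⟨i, hi⟩ : Fˣ) : F) := by
        intro i hi
        have h1 := (hval c σ i hi 1).1
        rw [hxy', (hval c' σ' i hi 1).1] at h1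
        have h2 := xG_inj hP _ (hT.simple_lt i hi) _ _ h1
        rw [map_one, map_one, mul_one, mul_one] at h2
        exact h2.symm
      have hcc : c = c' := by
        funext i
        exact Units.ext (hc i.val i.isLt)
      have hσ : σ = σ' := by
        apply RingEquiv.ext
        intro t
        have h1 := (hval c σ 0 hrank t).1
        rw [hxy', (hval c' σ' 0 hrank t).1, hc 0 hrank] at h1
        have h2 := xG_inj hP _ (hT.simple_lt 0 hrank) _ _ h1
        exact (mul_left_cancel₀ (Units.ne_zero _) h2).symm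
      rw [hcc, hσ]
    · rintro ⟨θ, hθ⟩
      obtain ⟨χ', σ, hχ'0, hχ'neg, hθx⟩ := hDecomp θ hθ
      let c : Fin D.rank → Fˣ := fun i => Units.mk0 (χ' (D.simple i)) (hχ'0 _ (hT.simple_lt i i.isLt))
      refine ⟨(c, σ), ?_⟩
      apply Subtype.ext
      show (δ (cN c) (hcN c) : MulAut ↥(D.group F)) * (φ σ : MulAut ↥(D.group F)) = θ
      have h1 : ((δ (cN c) (hcN c) : MulAut ↥(D.group F)) * (φ σ : MulAut ↥(D.group F))).toMonoidHom =
          θ.toMonoidHom := by
        apply hExt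
        intro i hi t
        have hl := hT.simple_lt i hi
        constructor
        · show ((δ (cN c) (hcN c) : MulAut ↥(D.group F)) * (φ σ : MulAut ↥(D.group F)))
            (xG hS (D.simple i) t) = θ (xG hS (D.simple i) t)
          rw [(hval c σ i hi t).1, hθx _ hl t]
          rfl
        · show ((δ (cN c) (hcN c) : MulAut ↥(D.group F)) * (φ σ : MulAut ↥(D.group F)))
            (xG hS (D.neg (D.simple i)) t) = θ (xG hS (D.neg (D.simple i)) t)
          rw [(hval c σ i hi t).2, hθx _ (hT.neg_lt _ hl) t, hχ'neg i hi]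
          rfl
      exact MulEquiv.toMonoidHom_injective h1
  rw [← Nat.card_eq_of_bijective _ hbij, Nat.card_prod, Nat.card_fun, Nat.card_units, Nat.card_fin]

example : Cfsg.Agent.H46.OutE.StCardT.{u} := cardT

end Cfsg.Agent.H13.OutE

#print axioms Cfsg.Agent.H13.OutE.cardT
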