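import Cfsg.Agent.H46.OutDefs

/-!
# S2124-INN2 (piece for helper46's S2124 project): an element of the group normalising every root subgroup
lies in `H` (the first half of helper38's S2125-INN)
-/

set_option autoImplicit false

namespace Cfsg.Agent.H13.OutE

open Cfsg.Lie Cfsg.Agent.H23 Cfsg.Agent.H23.Stb Cfsg.Agent.H46.OutE

universe u

theorem inn2 (h1 : StNormU.{u}) (h2 : StW0.{u}) : StInn2.{u} := by
  intro D F _ z η rT w0 hC g hg hA hB
  have hS := hC.hP.sem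
  have hT := hC.hP.tab
  have key : ∀ (P : ℕ → Prop), (∀ r, P r → r < D.nroots) → ∀ x : GL D.Idx F,
      x ∈ rootGen D F P ↔ g * x * g⁻¹ ∈ rootGen D F P := by
    intro P hP
    have hn : g ∈ Subgroup.normalizer (rootGen D F P : Set (GL D.Idx F)) := by
      apply mem_normalizer_rootGen hS
      · intro r hr t
        obtain ⟨t', ht'⟩ := hA r (hP r hr) t
        rw [ht']
        exact xU_mem_rootGen hS P r hr _
      · intro r hr t
        obtain ⟨t', ht'⟩ := hB r (hP r hr) t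
        rw [ht']
        exact xU_mem_rootGen hS P r hr _
    intro x
    exact Subgroup.mem_normalizer_iff.mp hn x
  have hgB : g ∈ D.borelSubgroup F :=
    h1 D F z η rT w0 hC g hg (key D.IsPosRoot (fun _ hr => hr.1))
  obtain ⟨u, hu, h, hh, hguh⟩ := exists_mul_of_mem_sup _ _
    (diagonal_le_normalizer_rootGen hS D.IsPosRoot (fun _ hr => hr.1)) g hgB
  have hgV := key D.IsNegRoot (fun _ hr => hr.1)
  have hhV := diagonal_le_normalizer_rootGen hS D.IsNegRoot (fun _ hr => hr.1) hh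
  have huV : ∀ x : GL D.Idx F, x ∈ D.negUnipotent F ↔ u * x * u⁻¹ ∈ D.negUnipotent F := by
    intro x
    have a := Subgroup.mem_normalizer_iff.mp (Subgroup.inv_mem _ hhV) x
    have b := hgV (h⁻¹ * x * h⁻¹⁻¹)
    have e : g * (h⁻¹ * x * h⁻¹⁻¹) * g⁻¹ = u * x * u⁻¹ := by rw [hguh]; group
    rw [e] at b
    exact a.trans b
  have hW := h2 D F z η rT w0 hC
  have hv : nWU hS w0 * u * (nWU hS w0)⁻¹ ∈ D.negUnipotent F := (hW u).1.mp hu
  have hvN : ∀ x : GL D.Idx F, x ∈ D.posUnipotent F ↔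
      (nWU hS w0 * u * (nWU hS w0)⁻¹) * x * (nWU hS w0 * u * (nWU hS w0)⁻¹)⁻¹ ∈ D.posUnipotent F := by
    intro x
    have a := (hW ((nWU hS w0)⁻¹ * x * nWU hS w0)).2
    have e1 : nWU hS w0 * ((nWU hS w0)⁻¹ * x * nWU hS w0) * (nWU hS w0)⁻¹ = x := by group
    rw [e1] at a
    have b := huV ((nWU hS w0)⁻¹ * x * nWU hS w0)
    have c := (hW (u * ((nWU hS w0)⁻¹ * x * nWU hS w0) * u⁻¹)).2
    have e2 : nWU hS w0 * (u * ((nWU hS w0)⁻¹ * x * nWU hS w0) * u⁻¹) * (nWU hS w0)⁻¹ =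
        (nWU hS w0 * u * (nWU hS w0)⁻¹) * x * (nWU hS w0 * u * (nWU hS w0)⁻¹)⁻¹ := by group
    rw [e2] at c
    exact a.symm.trans (b.trans c)
  have hvG : nWU hS w0 * u * (nWU hS w0)⁻¹ ∈ D.group F := negUnipotent_le_group hS hv
  have hvB := h1 D F z η rT w0 hC _ hvG hvN
  have hv1 : nWU hS w0 * u * (nWU hS w0)⁻¹ = 1 := by
    have h5 : nWU hS w0 * u * (nWU hS w0)⁻¹ ∈ D.borelSubgroup F ⊓ D.negUnipotent F := ⟨hvB, hv⟩
    rw [borel_inf_neg hS hC.hV] at h5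
    exact Subgroup.mem_bot.mp h5
  have hu1 : u = 1 := by
    have h6 : u = (nWU hS w0)⁻¹ * (nWU hS w0 * u * (nWU hS w0)⁻¹) * nWU hS w0 := by group
    rw [h6, hv1]; group
  rw [hu1, one_mul] at hguh
  rw [hguh]
  exact hh

example (h1 : Cfsg.Agent.H23.Stb.StNormU.{u}) (h2 : Cfsg.Agent.H23.Stb.StW0.{u}) :
    Cfsg.Agent.H46.OutE.StInn2.{u} := inn2 h1 h2

end Cfsg.Agent.H13.OutE

#print axioms Cfsg.Agent.H13.OutE.inn2
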