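import Cfsg.Agent.H46.OutDefs

/-!
# S2124-TINN (piece for helper46's S2124 project): the inner automorphisms in `autT` are the conjugations
by `H`
-/

set_option autoImplicit false

namespace Cfsg.Agent.H13.OutE

open Cfsg.Lie Cfsg.Agent.H23 Cfsg.Agent.H23.Stb Cfsg.Agent.H46.OutE

universe u

/-- `t ↦ c * t` as an additive equivalence. -/
theorem tInn_exists_addEquiv {F : Type u} [Field F] (c : F) (hc : c ≠ 0) :
    ∃ φ : F ≃+ F, ∀ t : F, φ t = c * t :=
  ⟨{ toFun := fun t => c * t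
     invFun := fun t => c⁻¹ * t
     left_inv := fun t => by simp [hc]
     right_inv := fun t => by simp [hc]
     map_add' := fun a b => by simp [mul_add] }, fun _ => rfl⟩

theorem tInn : StTInn.{u} := by
  intro D F _ z η hP hDecomp hInn2
  have hS := hP.sem
  have hT := hP.tab
  have hHG : D.diagonalSubgroup F ≤ D.group F := diagonal_le_group hS
  -- conjugation by an element of `H` lies in `autT`
  have hmemT : ∀ h : ↥(D.diagonalSubgroup F),
      (MulAut.conj (⟨(h : GL D.Idx F), hHG h.2⟩ : ↥(D.group F)) : MulAut ↥(D.group F)) ∈ autT hS := by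
    intro h i hi
    obtain ⟨χ, hχ⟩ := diagonal_le_torus hS hT h.2
    have hl := hT.simple_lt i hi
    obtain ⟨φ₁, hφ₁⟩ := tInn_exists_addEquiv (χ (D.simple i)) (hχ.1 _)
    obtain ⟨ψ₁, hψ₁⟩ := tInn_exists_addEquiv (χ (D.neg (D.simple i))) (hχ.1 _)
    refine ⟨φ₁, ψ₁, fun t => ?_, fun t => ?_⟩
    · rw [hφ₁]
      apply Subtype.ext
      exact isTorus_conj hS χ _ hχ _ hl t
    · rw [hψ₁]
      apply Subtype.ext
      exact isTorus_conj hS χ _ hχ _ (hT.neg_lt _ hl) t
  have hmem : ∀ h : ↥(D.diagonalSubgroup F),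
      (MulAut.conj (⟨(h : GL D.Idx F), hHG h.2⟩ : ↥(D.group F)) : MulAut ↥(D.group F)) ∈
        autT hS ⊓ Cfsg.Inn ↥(D.group F) :=
    fun h => ⟨hmemT h, ⟨_, rfl⟩⟩
  have hbij : Function.Bijective
      (fun h : ↥(D.diagonalSubgroup F) =>
        (⟨MulAut.conj (⟨(h : GL D.Idx F), hHG h.2⟩ : ↥(D.group F)), hmem h⟩ :
          ↥(autT hS ⊓ Cfsg.Inn ↥(D.group F)))) := by
    constructor
    · intro h h' hhh'
      have h1 : (MulAut.conj (⟨(h : GL D.Idx F), hHG h.2⟩ : ↥(D.group F)) : MulAut ↥(D.group F)) =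
          MulAut.conj (⟨(h' : GL D.Idx F), hHG h'.2⟩ : ↥(D.group F)) := congrArg Subtype.val hhh'
      obtain ⟨χ, hχ⟩ := diagonal_le_torus hS hT h.2
      obtain ⟨χ', hχ'⟩ := diagonal_le_torus hS hT h'.2
      have hroot : ∀ r < D.nroots, χ r = χ' r := by
        intro r hr
        have h2 := congrArg (fun θ : MulAut ↥(D.group F) =>
          ((θ (xG hS r 1) : ↥(D.group F)) : GL D.Idx F)) h1
        have h3 : (h : GL D.Idx F) * xU hS r 1 * (h : GL D.Idx F)⁻¹ =
            (h' : GL D.Idx F) * xU hS r 1 * (h' : GL D.Idx F)⁻¹ := h2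
        rw [isTorus_conj hS χ _ hχ r hr 1, isTorus_conj hS χ' _ hχ' r hr 1] at h3
        have h4 := xU_inj hP r hr _ _ h3
        rwa [mul_one, mul_one] at h4
      apply Subtype.ext
      apply Units.ext
      rw [hχ.2.2.2, hχ'.2.2.2]
      congr 1
      funext j
      rcases j with i | s
      · show χ (D.nroots + i.val) = χ' (D.nroots + i.val)
        rw [hχ.2.2.1 i, hχ'.2.2.1 i]
      · exact hroot s.val s.isLt
    · rintro ⟨θ, hθT, g, hg⟩
      have hg' : ∀ y : ↥(D.group F), θ y = g * y * g⁻¹ := by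
        intro y
        rw [← hg]
        rfl
      obtain ⟨χ₁, σ₁, -, -, h1⟩ := hDecomp θ hθT
      have hθinv : FixFund hS (θ⁻¹ : MulAut ↥(D.group F)) := (autT hS).inv_mem hθT
      obtain ⟨χ₂, σ₂, -, -, h2⟩ := hDecomp _ hθinv
      have hginv : ∀ y : ↥(D.group F), (θ⁻¹ : MulAut ↥(D.group F)) y = g⁻¹ * y * g := by
        intro y
        rw [MulAut.inv_apply, MulEquiv.symm_apply_eq, hg']
        group
      have hgH : (g : GL D.Idx F) ∈ D.diagonalSubgroup F := by
        apply hInn2 _ g.2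
        · intro r hr t
          refine ⟨χ₁ r * σ₁ t, ?_⟩
          have h3 := congrArg Subtype.val (h1 r hr t)
          rw [hg'] at h3
          exact h3
        · intro r hr t
          refine ⟨χ₂ r * σ₂ t, ?_⟩
          have h3 := congrArg Subtype.val (h2 r hr t)
          rw [hginv] at h3
          exact h3
      refine ⟨⟨(g : GL D.Idx F), hgH⟩, ?_⟩
      apply Subtype.ext
      exact hg
  exact (Nat.card_eq_of_bijective _ hbij).symm

example : Cfsg.Agent.H46.OutE.StTInn.{u} := tInn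

end Cfsg.Agent.H13.OutE

#print axioms Cfsg.Agent.H13.OutE.tInn
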