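import Mathlib
import Cfsg.Agent.H25.Q8Full
import Cfsg.Agent.H25.Q8Aut
import Cfsg.Agent.H60.Cores
import Cfsg.Agent.H6.Q8SL

/-!
# helper13: S3361 piece P-E3

A finite solvable group `X` with `O(X) = 1` and `O₂(X) ≅ Q₈` is a 2-group, or has a subgroup of
index 2, or is `SL(2,3)`.
-/

set_option autoImplicit false

namespace Cfsg.Agent.H13.Reg

open Cfsg

theorem q8_pCore {X : Type*} [Group X] [Finite X] (hs : Group.IsSolvable X)
    (hO : Cfsg.pPrimeCore 2 X = ⊥)
    (hQ : Nonempty (Cfsg.pCore 2 X ≃* QuaternionGroup 2)) :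
    IsPGroup 2 X ∨ (∃ N : Subgroup X, N.index = 2) ∨
      Nonempty (X ≃* Matrix.SpecialLinearGroup (Fin 2) (ZMod 3)) := by
  have : Fact (Nat.Prime 2) := ⟨Nat.prime_two⟩
  obtain ⟨e⟩ := hQ
  have hQn : (pCore 2 X).Normal := inferInstance
  have hQ8 : Nat.card (pCore 2 X) = 8 := by
    rw [Nat.card_congr e.toEquiv, Nat.card_eq_fintype_card, QuaternionGroup.card]
  obtain ⟨c, z, hI⟩ := Cfsg.Agent.H39.qiface_of_equiv (pCore 2 X) 2 e
  have hC : Subgroup.centralizer (pCore 2 X : Set X) ≤ pCore 2 X :=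
    Cfsg.Agent.H60.centralizer_pCore_le hs hO
  by_cases h2 : IsPGroup 2 X
  · left; exact h2
  · right
    have hex : ∃ p : ℕ, p.Prime ∧ p ≠ 2 ∧ p ∣ Nat.card X := by
      by_contra hno
      apply h2
      rw [IsPGroup.iff_card]
      refine ⟨(Nat.card X).primeFactorsList.length, ?_⟩
      apply Nat.eq_prime_pow_of_unique_prime_dvd Nat.card_pos.ne'
      intro d hd hdvd
      by_contra hd2
      exact hno ⟨d, hd, hd2, hdvd⟩
    obtain ⟨p, hp, hp2, hpd⟩ := hex
    haveI := Fact.mk hp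
    obtain ⟨g, hg⟩ := exists_prime_orderOf_dvd_card' p hpd
    have hgo : (orderOf g).Coprime 2 := by
      rw [hg]; exact (Nat.coprime_primes hp Nat.prime_two).mpr hp2
    have hgC : g ∉ Subgroup.centralizer (pCore 2 X : Set X) := by
      intro hgc
      have hgQ := hC hgc
      have h1 : (⟨g, hgQ⟩ : pCore 2 X) ^ Nat.card (pCore 2 X) = 1 := pow_card_eq_one'
      rw [hQ8] at h1
      have h3 : g ^ 8 = 1 := by
        have := congrArg Subtype.val h1
        simpa using this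
      have h4 : orderOf g ∣ 2 ^ 3 := orderOf_dvd_of_pow_eq_one h3
      rw [hg] at h4
      exact hp2 ((Nat.prime_dvd_prime_iff_eq hp Nat.prime_two).mp (hp.dvd_of_dvd_pow h4))
    obtain ⟨a, b, hS⟩ := Cfsg.Agent.H25.exists_q8set (pCore 2 X) hQ8 hI hC hgo hgC
    have h48 : Nat.card X ≤ 48 := hS.card_le
    obtain ⟨U, hUn, ⟨eU⟩⟩ := Cfsg.Agent.H25.normal_sl_of_q8 (pCore 2 X) hQ8 hI hC hgo hgC
    have hU24 : Nat.card U = 24 := by
      rw [Nat.card_congr eU.toEquiv, Cfsg.Agent.H6.card_sl2_zmod3]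
    have h1 := Subgroup.card_mul_index U
    have h2' : U.index ≠ 0 := Subgroup.index_ne_zero_of_finite
    have hidx : U.index = 1 ∨ U.index = 2 := by
      rw [hU24] at h1
      have : 24 * U.index ≤ 48 := h1 ▸ h48
      omega
    rcases hidx with h | h
    · right
      rw [Subgroup.index_eq_one] at h
      exact ⟨(Subgroup.topEquiv.symm.trans (MulEquiv.subgroupCongr h.symm)).trans eU⟩
    · left; exact ⟨U, h⟩

end Cfsg.Agent.H13.Reg
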