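import Mathlib
import Cfsg.Agent.H35.RegPE2
import Cfsg.Agent.H13.RegE3
import Cfsg.Agent.H53.RegPE1
import Cfsg.Agent.H60.QuatSylow
import Cfsg.Agent.S0016

/-!
# helper13: finite solvable groups with a unique involution (for S3361)

`invol_solvable` : a finite solvable group with a unique involution has a normal subgroup of
index 2, or a normal subgroup `N` of odd order with `G ⧸ N ≃* SL(2,3)`.
-/

set_option autoImplicit false

namespace Cfsg.Agent.H13.Reg

open Cfsg
open Cfsg.Agent.H35.Reg
open Cfsg.Agent.H53.Reg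

/-- a nontrivial finite 2-group has a subgroup of index 2 -/
theorem exists_index_two_of_two_group {X : Type*} [Group X] [Finite X] [Nontrivial X]
    (h : IsPGroup 2 X) : ∃ M : Subgroup X, M.index = 2 := by
  have : Fact (Nat.Prime 2) := ⟨Nat.prime_two⟩
  obtain ⟨k, hk⟩ := IsPGroup.iff_card.mp h
  have hk1 : 1 ≤ k := by
    rcases Nat.eq_zero_or_pos k with h0 | h0
    · exfalso
      rw [h0, pow_zero] at hk
      have := Finite.one_lt_card (α := X)
      omega
    · exact h0
  obtain ⟨M, hM⟩ := Sylow.exists_subgroup_card_pow_prime (G := X) 2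
    (n := k - 1) (by rw [hk]; exact pow_dvd_pow 2 (Nat.sub_le k 1))
  refine ⟨M, ?_⟩
  have h1 := Subgroup.card_mul_index M
  rw [hM, hk] at h1
  have h2 : 2 ^ k = 2 ^ (k - 1) * 2 := by
    rw [← pow_succ]; congr 1; omega
  rw [h2] at h1
  exact Nat.eq_of_mul_eq_mul_left (pow_pos (by norm_num) _) h1

theorem invol_solvable {G : Type*} [Group G] [Finite G] (hsol : Group.IsSolvable G)
    (z : G) (hz1 : z ≠ 1) (hz2 : z ^ 2 = 1) (huniq : ∀ t : G, t ^ 2 = 1 → t = 1 ∨ t = z) :
    (∃ N : Subgroup G, N.Normal ∧ N.index = 2) ∨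
    (∃ (N : Subgroup G) (_ : N.Normal), Odd (Nat.card N) ∧
      Nonempty (G ⧸ N ≃* Matrix.SpecialLinearGroup (Fin 2) (ZMod 3))) := by
  have : Fact (Nat.Prime 2) := ⟨Nat.prime_two⟩
  have hNn : (pPrimeCore 2 G).Normal := inferInstance
  have hNodd : Odd (Nat.card (pPrimeCore 2 G)) := by
    have h := Cfsg.Agent.H60.card_pPrimeCore_coprime (G := G) 2
    exact (Nat.coprime_two_right).mp h
  have hXsol : Group.IsSolvable (G ⧸ pPrimeCore 2 G) := inferInstance
  have hO : pPrimeCore 2 (G ⧸ pPrimeCore 2 G) = ⊥ := Cfsg.Agent.H60.pPrimeCore_quotient_eq_bot 2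
  obtain ⟨hzb1, hzbuniq⟩ := invol_quot (pPrimeCore 2 G) hNodd z hz1 hz2 huniq
  have : Nontrivial (G ⧸ pPrimeCore 2 G) := ⟨⟨_, 1, hzb1⟩⟩
  have key : (∃ M : Subgroup (G ⧸ pPrimeCore 2 G), M.index = 2) ∨
      Nonempty ((G ⧸ pPrimeCore 2 G) ≃* Matrix.SpecialLinearGroup (Fin 2) (ZMod 3)) := by
    have hQ2 : IsPGroup 2 (pCore 2 (G ⧸ pPrimeCore 2 G)) := Cfsg.Agent.H60.isPGroup_pCore 2
    have hsub : ∀ H K : Subgroup (pCore 2 (G ⧸ pPrimeCore 2 G)), Nat.card H = 2 →
        Nat.card K = 2 → H ≤ K := by
      intro H K hH hK x hx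
      have hx2 : x ^ 2 = 1 := by
        have h1 : (⟨x, hx⟩ : H) ^ Nat.card H = 1 := pow_card_eq_one'
        rw [hH] at h1
        have h2 := congrArg Subtype.val h1
        simpa using h2
      have hx2' : (x : G ⧸ pPrimeCore 2 G) ^ 2 = 1 := by
        have h2 := congrArg Subtype.val hx2
        simpa using h2
      rcases hzbuniq _ hx2' with h1 | h1
      · have : x = 1 := Subtype.ext h1
        rw [this]; exact one_mem K
      · -- K has a non-identity element
        have : Nontrivial K := by
          rw [← Finite.one_lt_card_iff_nontrivial, hK]; norm_num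
        obtain ⟨k, hk⟩ := exists_ne (1 : K)
        have hk2 : (k : pCore 2 (G ⧸ pPrimeCore 2 G)) ^ 2 = 1 := by
          have h1 : k ^ Nat.card K = 1 := pow_card_eq_one'
          rw [hK] at h1
          have h2 := congrArg Subtype.val h1
          simpa using h2
        have hk2' : ((k : pCore 2 (G ⧸ pPrimeCore 2 G)) : G ⧸ pPrimeCore 2 G) ^ 2 = 1 := by
          have h2 := congrArg Subtype.val hk2
          simpa using h2
        rcases hzbuniq _ hk2' with h3 | h3
        · exfalso
          apply hk
          apply Subtype.ext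
          apply Subtype.ext
          exact h3
        · have : x = (k : pCore 2 (G ⧸ pPrimeCore 2 G)) := Subtype.ext (h1.trans h3.symm)
          rw [this]; exact k.2
    have huq : ∀ H K : Subgroup (pCore 2 (G ⧸ pPrimeCore 2 G)), Nat.card H = 2 →
        Nat.card K = 2 → H = K := fun H K hH hK => le_antisymm (hsub H K hH hK) (hsub K H hK hH)
    rcases Cfsg.Agent.S0016.result 2 hQ2 huq with hc | ⟨_, n, hn⟩
    · left
      exact exists_index_two_of_two_group
        (Cfsg.Agent.H60.isPGroup_two_of_cyclic_pCore hXsol hO hc)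
    · rcases n with _ | _ | n
      · left
        apply exists_index_two_of_two_group
        apply Cfsg.Agent.H60.isPGroup_two_of_cyclic_pCore hXsol hO
        obtain ⟨e⟩ := hn
        have : IsCyclic (QuaternionGroup (2 ^ 0)) := by
          rw [pow_zero]; exact QuaternionGroup.quaternionGroup_one_isCyclic
        exact (MulEquiv.isCyclic e).2 inferInstance
      · have hn' : Nonempty (pCore 2 (G ⧸ pPrimeCore 2 G) ≃* QuaternionGroup 2) := by
          simpa using hn
        rcases q8_pCore hXsol hO hn' with h | h | h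
        · left; exact exists_index_two_of_two_group h
        · left; exact h
        · right; exact h
      · left
        exact exists_index_two_of_two_group
          (isPGroup_two_of_quat_pCore hXsol hO (n + 1 + 1) (by omega) hn)
  rcases key with ⟨M, hM⟩ | hSL
  · left
    have hidx : (M.comap (QuotientGroup.mk' (pPrimeCore 2 G))).index = 2 := by
      rw [Subgroup.index_comap_of_surjective _ (QuotientGroup.mk'_surjective _)]; exact hM
    exact ⟨_, Subgroup.normal_of_index_eq_two hidx, hidx⟩
  · right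
    exact ⟨pPrimeCore 2 G, hNn, hNodd, hSL⟩

end Cfsg.Agent.H13.Reg
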