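import Cfsg.Agent.H78.StbE6Defs

/-!
# S2123-E6ADJ (piece for helper78's S2123 project): in type `E₆`, `X_{α_i}` and `X_{α_j}` commute exactly
when `i`, `j` are not adjacent
-/

set_option autoImplicit false
set_option synthInstance.maxSize 4096
set_option synthInstance.maxHeartbeats 400000

namespace Cfsg.Agent.H13.StbG

open Cfsg.Lie Cfsg.Agent.H23 Cfsg.Agent.H23.Stb Cfsg.Agent.H78.StbG

universe u

theorem e6Adj_terms_nonadj : ∀ i < chevE6.rank, ∀ j < chevE6.rank, i ≠ j →
    zE6 (chevE6.simple j) (chevE6.simple i) ≠ -1 →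
    chevE6.commTerms (chevE6.simple i) (chevE6.simple j) = [] := by
  decide +kernel

theorem e6Adj_terms_adj : ∀ i < chevE6.rank, ∀ j < chevE6.rank, i ≠ j →
    zE6 (chevE6.simple j) (chevE6.simple i) = -1 →
    (chevE6.commTerms (chevE6.simple i) (chevE6.simple j)).length = 1 ∧
      ∀ x ∈ chevE6.commTerms (chevE6.simple i) (chevE6.simple j),
        x.1 < chevE6.nroots ∧ (x.2.1 = 1 ∨ x.2.1 = -1) ∧ x.2.2.1 = 1 ∧ x.2.2.2 = 1 := by
  decide +kernel

theorem e6Adj : StE6Adj.{u} := by
  intro F _ i hi j hj hij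
  have hP := (packS_E6 F).hP
  have hS := hP.sem
  have h1 := fun t u => hP.semC.comm i hi (chevE6.simple j) (tab_E6.simple_pos j hj)
    (fun e => hij (tab2_E6.simple_inj j hj i hi e).symm) t u
  constructor
  · intro hcomm hadj
    obtain ⟨hlen, hall⟩ := e6Adj_terms_adj i hi j hj hij hadj
    obtain ⟨x, hx⟩ := List.length_eq_one_iff.mp hlen
    obtain ⟨hk, hc, he1, he2⟩ := hall x (by rw [hx]; exact List.mem_singleton.mpr rfl)
    have hw : chevE6.commWord F (chevE6.simple i) (chevE6.simple j) 1 1 =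
        [(x.1, ((x.2.1 : ℤ) : F) * (-1) ^ x.2.2.1 * 1 ^ x.2.2.2)] := by
      unfold ChevalleyDatum.commWord
      rw [hx]
      rfl
    have h2 := h1 1 1
    rw [hw] at h2
    have h3 : xU hS (chevE6.simple j) 1 * xU hS (chevE6.simple i) 1 =
        xU hS (chevE6.simple i) 1 * xU hS (chevE6.simple j) 1 *
          xU hS x.1 (((x.2.1 : ℤ) : F) * (-1) ^ x.2.2.1 * 1 ^ x.2.2.2) := by
      apply Units.ext
      simp only [Units.val_mul, xU_val]
      rw [h2]
      simp [ChevalleyDatum.wordMat]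
    rw [← hcomm 1 1] at h3
    have h4 : xU hS x.1 (((x.2.1 : ℤ) : F) * (-1) ^ x.2.2.1 * 1 ^ x.2.2.2) = 1 := by
      have := h3.symm
      rwa [mul_eq_left] at this
    have h5 := xU_eq_one_imp hS tab_E6 tab2_E6 _ hk _ h4
    rw [he1, he2] at h5
    rcases hc with hc | hc <;> rw [hc] at h5 <;> simp at h5
  · intro hnadj t u
    have hnadj' : zE6 (chevE6.simple j) (chevE6.simple i) ≠ -1 := hnadj
    have hw : chevE6.commWord F (chevE6.simple i) (chevE6.simple j) t u = [] := by
      unfold ChevalleyDatum.commWord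
      rw [e6Adj_terms_nonadj i hi j hj hij hnadj']
      rfl
    have h2 := h1 t u
    rw [hw] at h2
    apply Units.ext
    simp only [Units.val_mul, xU_val]
    rw [h2]
    simp [ChevalleyDatum.wordMat]

example : Cfsg.Agent.H78.StbG.StE6Adj.{u} := e6Adj

end Cfsg.Agent.H13.StbG

#print axioms Cfsg.Agent.H13.StbG.e6Adj
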