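import Cfsg.Agent.H78.StbE6Defs

/-!
# S2123-E6C2 (piece for helper78's S2123 project): `x_{α_j}(u)` and `x_{-α_i}(t)` commute for `i ≠ j`
in type `E₆`
-/

set_option autoImplicit false

namespace Cfsg.Agent.H13.StbG

open Cfsg.Lie Cfsg.Agent.H23 Cfsg.Agent.H23.Stb Cfsg.Agent.H78.StbG

universe u

theorem e6C2_terms : ∀ i < chevE6.rank, ∀ j < chevE6.rank, i ≠ j →
    chevE6.commTerms (chevE6.neg (chevE6.simple i)) (chevE6.simple j) = [] := by
  decide +kernel

theorem e6C2 : StE6C2.{u} := by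
  intro F _ i hi j hj hij t u
  have hP := (packS_E6 F).hP
  have h1 := hP.semC.commN i hi (chevE6.simple j) (tab_E6.simple_pos j hj)
    (fun e => hij (tab2_E6.simple_inj j hj i hi e).symm) t u
  have hw : chevE6.commWord F (chevE6.neg (chevE6.simple i)) (chevE6.simple j) t u = [] := by
    unfold ChevalleyDatum.commWord
    rw [e6C2_terms i hi j hj hij]
    rfl
  rw [hw] at h1
  apply Units.ext
  simp only [Units.val_mul, xU_val]
  rw [h1]
  simp [ChevalleyDatum.wordMat]

example : Cfsg.Agent.H78.StbG.StE6C2.{u} := e6C2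

end Cfsg.Agent.H13.StbG

#print axioms Cfsg.Agent.H13.StbG.e6C2
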