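import Cfsg.Agent.H78.StbE6Defs

/-!
# S2123-E6CONN (piece for helper78's S2123 project): the `E₆` diagram is connected
-/

set_option autoImplicit false

namespace Cfsg.Agent.H13.StbG

open Cfsg.Lie Cfsg.Agent.H23 Cfsg.Agent.H23.Stb Cfsg.Agent.H78.StbG

theorem e6Conn_nb : ∀ i < chevE6.rank, ∃ j < chevE6.rank, zE6 (chevE6.simple j) (chevE6.simple i) = -1 := by
  decide +kernel

theorem e6Conn_edges :
    zE6 (chevE6.simple 2) (chevE6.simple 0) = -1 ∧ zE6 (chevE6.simple 3) (chevE6.simple 2) = -1 ∧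
    zE6 (chevE6.simple 1) (chevE6.simple 3) = -1 ∧ zE6 (chevE6.simple 4) (chevE6.simple 3) = -1 ∧
    zE6 (chevE6.simple 5) (chevE6.simple 4) = -1 := by
  decide +kernel

theorem e6Conn_rank : chevE6.rank = 6 := by decide +kernel

theorem e6Conn : StE6Conn := by
  refine ⟨e6Conn_nb, ?_⟩
  intro P h0 hstep
  obtain ⟨e02, e23, e31, e34, e45⟩ := e6Conn_edges
  have hr := e6Conn_rank
  have h2 := hstep 0 (by omega) 2 (by omega) e02 h0
  have h3 := hstep 2 (by omega) 3 (by omega) e23 h2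
  have h1 := hstep 3 (by omega) 1 (by omega) e31 h3
  have h4 := hstep 3 (by omega) 4 (by omega) e34 h3
  have h5 := hstep 4 (by omega) 5 (by omega) e45 h4
  intro i hi
  rw [hr] at hi
  interval_cases i <;> assumption

example : Cfsg.Agent.H78.StbG.StE6Conn := e6Conn

end Cfsg.Agent.H13.StbG

#print axioms Cfsg.Agent.H13.StbG.e6Conn
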