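import Cfsg.Agent.H78.StbE6Defs

/-!
# S2123-E6DIAG (piece for helper78's S2123 project): the symmetries of the `E₆` diagram are the identity
and `σ`
-/

set_option autoImplicit false
set_option synthInstance.maxSize 4096
set_option synthInstance.maxHeartbeats 400000

namespace Cfsg.Agent.H13.StbG

open Cfsg.Lie Cfsg.Agent.H23 Cfsg.Agent.H23.Stb Cfsg.Agent.H78.StbG

theorem e6Diag_rank : chevE6.rank = 6 := by decide +kernel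

/-- The five edges of the diagram that are used. -/
theorem e6Diag_edges :
    zE6 (chevE6.simple 1) (chevE6.simple 3) = -1 ∧ zE6 (chevE6.simple 2) (chevE6.simple 3) = -1 ∧
    zE6 (chevE6.simple 4) (chevE6.simple 3) = -1 ∧ zE6 (chevE6.simple 0) (chevE6.simple 2) = -1 ∧
    zE6 (chevE6.simple 5) (chevE6.simple 4) = -1 := by
  decide +kernel

theorem e6Diag_sig : sigE6 0 = 5 ∧ sigE6 1 = 1 ∧ sigE6 2 = 4 ∧ sigE6 3 = 3 ∧ sigE6 4 = 2 ∧ sigE6 5 = 0 := by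
  decide +kernel

/-- The neighbours in the diagram `0 – 2 – 3 – 4 – 5`, `1 – 3`. -/
theorem e6Diag_nb : ∀ x < 6, ∀ y < 6, zE6 (chevE6.simple y) (chevE6.simple x) = -1 →
    (x = 0 ∧ y = 2) ∨ (x = 2 ∧ y = 0) ∨ (x = 2 ∧ y = 3) ∨ (x = 3 ∧ y = 2) ∨ (x = 3 ∧ y = 4) ∨
    (x = 4 ∧ y = 3) ∨ (x = 4 ∧ y = 5) ∨ (x = 5 ∧ y = 4) ∨ (x = 1 ∧ y = 3) ∨ (x = 3 ∧ y = 1) := by
  decide +kernel

/-- The combinatorial core: the images `a, b, c, d, e, f` of the nodes `0, …, 5`. -/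
theorem e6Diag_comb (a b c d e f : ℕ)
    (n1 : (d = 0 ∧ b = 2) ∨ (d = 2 ∧ b = 0) ∨ (d = 2 ∧ b = 3) ∨ (d = 3 ∧ b = 2) ∨ (d = 3 ∧ b = 4) ∨
      (d = 4 ∧ b = 3) ∨ (d = 4 ∧ b = 5) ∨ (d = 5 ∧ b = 4) ∨ (d = 1 ∧ b = 3) ∨ (d = 3 ∧ b = 1))
    (n2 : (d = 0 ∧ c = 2) ∨ (d = 2 ∧ c = 0) ∨ (d = 2 ∧ c = 3) ∨ (d = 3 ∧ c = 2) ∨ (d = 3 ∧ c = 4) ∨
      (d = 4 ∧ c = 3) ∨ (d = 4 ∧ c = 5) ∨ (d = 5 ∧ c = 4) ∨ (d = 1 ∧ c = 3) ∨ (d = 3 ∧ c = 1))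
    (n3 : (d = 0 ∧ e = 2) ∨ (d = 2 ∧ e = 0) ∨ (d = 2 ∧ e = 3) ∨ (d = 3 ∧ e = 2) ∨ (d = 3 ∧ e = 4) ∨
      (d = 4 ∧ e = 3) ∨ (d = 4 ∧ e = 5) ∨ (d = 5 ∧ e = 4) ∨ (d = 1 ∧ e = 3) ∨ (d = 3 ∧ e = 1))
    (n4 : (c = 0 ∧ a = 2) ∨ (c = 2 ∧ a = 0) ∨ (c = 2 ∧ a = 3) ∨ (c = 3 ∧ a = 2) ∨ (c = 3 ∧ a = 4) ∨
      (c = 4 ∧ a = 3) ∨ (c = 4 ∧ a = 5) ∨ (c = 5 ∧ a = 4) ∨ (c = 1 ∧ a = 3) ∨ (c = 3 ∧ a = 1))
    (n5 : (e = 0 ∧ f = 2) ∨ (e = 2 ∧ f = 0) ∨ (e = 2 ∧ f = 3) ∨ (e = 3 ∧ f = 2) ∨ (e = 3 ∧ f = 4) ∨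
      (e = 4 ∧ f = 3) ∨ (e = 4 ∧ f = 5) ∨ (e = 5 ∧ f = 4) ∨ (e = 1 ∧ f = 3) ∨ (e = 3 ∧ f = 1))
    (d12 : b ≠ c) (d14 : b ≠ e) (d24 : c ≠ e) (d03 : a ≠ d) (d53 : f ≠ d) :
    (a = 0 ∧ b = 1 ∧ c = 2 ∧ d = 3 ∧ e = 4 ∧ f = 5) ∨
      (a = 5 ∧ b = 1 ∧ c = 4 ∧ d = 3 ∧ e = 2 ∧ f = 0) := by
  have hd : d = 3 := by omega
  subst hd
  have hb : b = 1 ∨ b = 2 ∨ b = 4 := by omega
  have hc : c = 2 ∨ c = 4 := by omega
  have he : e = 2 ∨ e = 4 := by omega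
  have hb1 : b = 1 := by omega
  subst hb1
  rcases hc with rfl | rfl
  · have he4 : e = 4 := by omega
    subst he4
    left
    omega
  · have he2 : e = 2 := by omega
    subst he2
    right
    omega

theorem e6Diag : StE6Diag := by
  intro π hπ hinj hadj
  have hr := e6Diag_rank
  rw [hr] at hπ hinj hadj ⊢
  obtain ⟨e31, e32, e34, e20, e45⟩ := e6Diag_edges
  obtain ⟨s0, s1, s2, s3, s4, s5⟩ := e6Diag_sig
  have ne : ∀ i < 6, ∀ j < 6, i ≠ j → π i ≠ π j := fun i hi j hj hij h => hij (hinj i hi j hj h)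
  have a31 : zE6 (chevE6.simple (π 1)) (chevE6.simple (π 3)) = -1 :=
    (hadj 3 (by omega) 1 (by omega) (by omega)).mpr e31
  have a32 : zE6 (chevE6.simple (π 2)) (chevE6.simple (π 3)) = -1 :=
    (hadj 3 (by omega) 2 (by omega) (by omega)).mpr e32
  have a34 : zE6 (chevE6.simple (π 4)) (chevE6.simple (π 3)) = -1 :=
    (hadj 3 (by omega) 4 (by omega) (by omega)).mpr e34
  have a20 : zE6 (chevE6.simple (π 0)) (chevE6.simple (π 2)) = -1 :=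
    (hadj 2 (by omega) 0 (by omega) (by omega)).mpr e20
  have a45 : zE6 (chevE6.simple (π 5)) (chevE6.simple (π 4)) = -1 :=
    (hadj 4 (by omega) 5 (by omega) (by omega)).mpr e45
  have n1 := e6Diag_nb (π 3) (hπ 3 (by omega)) (π 1) (hπ 1 (by omega)) a31
  have n2 := e6Diag_nb (π 3) (hπ 3 (by omega)) (π 2) (hπ 2 (by omega)) a32
  have n3 := e6Diag_nb (π 3) (hπ 3 (by omega)) (π 4) (hπ 4 (by omega)) a34
  have n4 := e6Diag_nb (π 2) (hπ 2 (by omega)) (π 0) (hπ 0 (by omega)) a20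
  have n5 := e6Diag_nb (π 4) (hπ 4 (by omega)) (π 5) (hπ 5 (by omega)) a45
  have d12 := ne 1 (by omega) 2 (by omega) (by omega)
  have d14 := ne 1 (by omega) 4 (by omega) (by omega)
  have d24 := ne 2 (by omega) 4 (by omega) (by omega)
  have d03 := ne 0 (by omega) 3 (by omega) (by omega)
  have d53 := ne 5 (by omega) 3 (by omega) (by omega)
  have key := e6Diag_comb (π 0) (π 1) (π 2) (π 3) (π 4) (π 5) n1 n2 n3 n4 n5 d12 d14 d24 d03 d53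
  rcases key with ⟨h0, h1, h2, h3, h4, h5⟩ | ⟨h0, h1, h2, h3, h4, h5⟩
  · left
    intro i hi
    interval_cases i <;> assumption
  · right
    intro i hi
    interval_cases i
    · rw [s0]; exact h0
    · rw [s1]; exact h1
    · rw [s2]; exact h2
    · rw [s3]; exact h3
    · rw [s4]; exact h4
    · rw [s5]; exact h5

example : Cfsg.Agent.H78.StbG.StE6Diag := e6Diag

end Cfsg.Agent.H13.StbG

#print axioms Cfsg.Agent.H13.StbG.e6Diag
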