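import Cfsg.Agent.H78.StbE6Defs

/-!
# S2123-E6W0 (piece for helper78's S2123 project): the longest element of `E₆` maps `-α_i` to `α_{σ i}`
-/

set_option autoImplicit false

namespace Cfsg.Agent.H13.StbG

open Cfsg.Lie Cfsg.Agent.H23 Cfsg.Agent.H23.Stb Cfsg.Agent.H78.StbG

theorem e6W0_table : ∀ i < chevE6.rank,
    reflWT rTE6 w0E6 (chevE6.neg (chevE6.simple i)) = chevE6.simple (sigE6 i) := by
  decide +kernel

theorem e6W0 : StE6W0 := by
  intro i hi
  rw [reflW_eq tabT_E6 w0E6 tabW_E6.lt _ (tab_E6.neg_lt _ (tab_E6.simple_lt i hi))]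
  exact e6W0_table i hi

example : Cfsg.Agent.H78.StbG.StE6W0 := e6W0

end Cfsg.Agent.H13.StbG

#print axioms Cfsg.Agent.H13.StbG.e6W0
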