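import Cfsg.Agent.H78.StbGrDefs

/-!
# S2123-NOTGAMMA (piece for helper78's S2123 project): a graph automorphism with a nontrivial diagram
symmetry is not of the form `α ∘ (inner)` with `α` preserving `U`, `V` and every fundamental root subgroup
-/

set_option autoImplicit false

namespace Cfsg.Agent.H13.StbG

open Cfsg.Lie Cfsg.Agent.H23 Cfsg.Agent.H23.Stb Cfsg.Agent.H78.StbG

universe u

theorem notGamma (h1 : StNUV.{u}) : StNotGamma.{u} := by
  intro D F _ z η rT w0 hC sig γ hγ hsig _ α hαU hαV hαroot x hx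
  have hP := hC.hP
  have hS := hP.sem
  have hT := hP.tab
  have hUG : D.posUnipotent F ≤ D.group F := posUnipotent_le_group hS
  have hVG : D.negUnipotent F ≤ D.group F := negUnipotent_le_group hS
  -- conjugation by `x` preserves any subgroup `K ≤ G` preserved by `α` and `γ`
  have key : ∀ K : Subgroup (GL D.Idx F), K ≤ D.group F → Pres α K K → Pres γ K K →
      ∀ y : GL D.Idx F, y ∈ K ↔ (x : GL D.Idx F) * y * (x : GL D.Idx F)⁻¹ ∈ K := by
    intro K hK hα hγK y
    by_cases hy : y ∈ D.group F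
    · have e1 := hγK ⟨y, hy⟩
      have e2 := hα (x * ⟨y, hy⟩ * x⁻¹)
      rw [hx ⟨y, hy⟩] at e2
      exact e1.symm.trans e2
    · constructor
      · intro h; exact absurd (hK h) hy
      · intro h
        exfalso
        apply hy
        have h2 := hK h
        have : y = (x : GL D.Idx F)⁻¹ * ((x : GL D.Idx F) * y * (x : GL D.Idx F)⁻¹) * (x : GL D.Idx F) := by
          group
        rw [this]
        exact Subgroup.mul_mem _ (Subgroup.mul_mem _ (Subgroup.inv_mem _ x.2) h2) x.2
  have hxH : (x : GL D.Idx F) ∈ D.diagonalSubgroup F :=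
    h1 D F z η rT w0 hC _ x.2 (key _ hUG hαU hγ.presU) (key _ hVG hαV hγ.presV)
  obtain ⟨χ, hχ⟩ := diagonal_le_torus hS hT hxH
  obtain ⟨i, hi, hne⟩ := hsig
  have hl := hT.simple_lt i hi
  have e1 : x * xG hS (D.simple i) 1 * x⁻¹ = xG hS (D.simple i) (χ (D.simple i) * 1) :=
    Subtype.ext (isTorus_conj hS χ _ hχ _ hl 1)
  have e2 := hx (xG hS (D.simple i) 1)
  rw [e1, hγ.pos i hi 1] at e2
  obtain ⟨t', ht'⟩ := (hαroot i hi).1 (χ (D.simple i) * 1)
  rw [ht'] at e2
  have e3 : xU hS (D.simple (sig i)) 1 = xU hS (D.simple i) t' := (congrArg Subtype.val e2).symm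
  have e4 := xU_eq_imp hP _ _ (hT.simple_lt _ (hγ.sig_lt i hi)) hl 1 t' e3 one_ne_zero
  exact hne (hP.tab2.simple_inj _ (hγ.sig_lt i hi) _ hi e4)

example (h1 : Cfsg.Agent.H78.StbG.StNUV.{u}) : Cfsg.Agent.H78.StbG.StNotGamma.{u} := notGamma h1

end Cfsg.Agent.H13.StbG

#print axioms Cfsg.Agent.H13.StbG.notGamma
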