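import Cfsg.Agent.H78.StbGrDefs

/-!
# S2123-TORUSPRES (piece for helper78's S2123 project): `Ĥ` normalises `U` and `V`
-/

set_option autoImplicit false

namespace Cfsg.Agent.H13.StbG

open Cfsg.Lie Cfsg.Agent.H23 Cfsg.Agent.H23.Stb Cfsg.Agent.H78.StbG

universe u

theorem torusPres : StTorusPres.{u} := by
  intro D F _ z hS k hk x
  obtain ⟨χ, hχ⟩ := hk
  obtain ⟨χ', hχ'⟩ := (torusGroup D F).inv_mem ⟨χ, hχ⟩
  have key : ∀ (P : ℕ → Prop), (∀ r, P r → r < D.nroots) →
      k ∈ Subgroup.normalizer (rootGen D F P : Set (GL D.Idx F)) := by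
    intro P hP
    apply mem_normalizer_rootGen hS
    · intro r hr t
      rw [isTorus_conj hS χ k hχ r (hP r hr) t]
      exact xU_mem_rootGen hS P r hr _
    · intro r hr t
      have h1 := isTorus_conj hS χ' k⁻¹ hχ' r (hP r hr) t
      rw [inv_inv] at h1
      rw [h1]
      exact xU_mem_rootGen hS P r hr _
  exact ⟨Subgroup.mem_normalizer_iff.mp (key D.IsPosRoot (fun _ hr => hr.1)) x,
    Subgroup.mem_normalizer_iff.mp (key D.IsNegRoot (fun _ hr => hr.1)) x⟩

example : Cfsg.Agent.H78.StbG.StTorusPres.{u} := torusPres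

end Cfsg.Agent.H13.StbG

#print axioms Cfsg.Agent.H13.StbG.torusPres
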