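import Cfsg.Agent.H23.StbHatDefs

/-!
# S2124-HATCARD (piece for helper23's S2124 project): `|Ĥ| = (q - 1)^l`
-/

set_option autoImplicit false

namespace Cfsg.Agent.H13.Stb

open Cfsg.Lie Cfsg.Agent.H23 Cfsg.Agent.H23.Stb

universe u

theorem hatCard (h : StHatEx.{u}) : StHatCard.{u} := by
  intro D F _ _ z η hP m hm
  have hS := hP.sem
  have hN := hP.semN
  have hT := hP.tab
  have hT2 := hP.tab2
  -- injectivity of `t ↦ x_r(t)`
  have hinj : ∀ r < D.nroots, ∀ a b : F, xU hS r a = xU hS r b → a = b := by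
    intro r hr a b hab
    have h2 : xU hS r (a + -b) = 1 := by
      rw [← xU_mul, ← xU_inv, hab, mul_inv_cancel]
    have h3 := xU_eq_one_imp hS hT hT2 r hr _ h2
    linear_combination h3
  -- the entries of a torus element
  have hentry : ∀ (k : GL D.Idx F) (χ : ℕ → F), IsTorus D χ k → ∀ (s : ℕ) (hs : s < D.nroots),
      (k : Matrix D.Idx D.Idx F) (Sum.inr ⟨s, hs⟩) (Sum.inr ⟨s, hs⟩) = χ s := by
    intro k χ hk s hs
    rw [hk.2.2.2, Matrix.diagonal_apply_eq]
    rfl
  -- a character takes inverse values on opposite roots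
  have hneg : ∀ (k : GL D.Idx F) (χ : ℕ → F), IsTorus D χ k → ∀ r < D.nroots,
      χ (D.neg r) = (χ r)⁻¹ := by
    intro k χ hk r hr
    have hmem : ((r, -1, 2) : ℕ × ℤ × ℕ) ∈ xEntries D r (D.neg r) := by
      unfold xEntries
      rw [if_pos (hT.neg_lt r hr), if_neg (hT2.neg_ne r hr),
        if_pos (show D.neg r = D.negIdx.getD r 0 from rfl)]
      simp
    have h1 := hk.2.1 r hr (D.neg r) _ hmem
    have h0 := hk.1 r
    simp only at h1
    field_simp
    rw [pow_two] at h1
    have : χ r * 1 = χ r * (χ (D.neg r) * χ r) := by rw [mul_one]; nth_rewrite 1 [h1]; ring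
    exact (mul_left_cancel₀ h0 this).symm
  -- two torus elements with the same scalars on the fundamental root subgroups agree
  have hagree : ∀ (k k' : GL D.Idx F) (χ χ' : ℕ → F), IsTorus D χ k → IsTorus D χ' k' →
      (∀ i < D.rank, χ (D.simple i) = χ' (D.simple i)) → k = k' := by
    intro k k' χ χ' hk hk' hsim
    have hc1 : ∀ i < D.rank, ∀ t : F, Commute (k⁻¹ * k') (xU hS (D.simple i) t) := by
      intro i hi t
      have e1 := isTorus_conj hS χ k hk _ (hT.simple_lt i hi) t
      have e2 := isTorus_conj hS χ' k' hk' _ (hT.simple_lt i hi) t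
      rw [← hsim i hi, ← e1] at e2
      show k⁻¹ * k' * xU hS (D.simple i) t = xU hS (D.simple i) t * (k⁻¹ * k')
      have : k' * xU hS (D.simple i) t = k * xU hS (D.simple i) t * k⁻¹ * k' := by
        rw [← e2]; group
      rw [mul_assoc, this]; group
    have hc2 : ∀ i < D.rank, ∀ t : F, Commute (k⁻¹ * k') (xU hS (D.neg (D.simple i)) t) := by
      intro i hi t
      have hl := hT.simple_lt i hi
      have e1 := isTorus_conj hS χ k hk _ (hT.neg_lt _ hl) t
      have e2 := isTorus_conj hS χ' k' hk' _ (hT.neg_lt _ hl) t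
      rw [hneg k' χ' hk' _ hl, ← hsim i hi, ← hneg k χ hk _ hl, ← e1] at e2
      show k⁻¹ * k' * xU hS (D.neg (D.simple i)) t = xU hS (D.neg (D.simple i)) t * (k⁻¹ * k')
      have : k' * xU hS (D.neg (D.simple i)) t = k * xU hS (D.neg (D.simple i)) t * k⁻¹ * k' := by
        rw [← e2]; group
      rw [mul_assoc, this]; group
    have hc3 : ∀ i < D.rank, Commute (k⁻¹ * k') (nU hS (D.simple i) 1) := by
      intro i hi
      rw [nU_eq]
      exact ((hc1 i hi _).mul_right (hc2 i hi _)).mul_right (hc1 i hi _)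
    have hc4 : ∀ w : List ℕ, (∀ i ∈ w, i < D.rank) → Commute (k⁻¹ * k') (nWU hS w) := by
      intro w hw
      unfold nWU
      apply Commute.list_prod_right
      intro x hx
      obtain ⟨i, hi, rfl⟩ := List.mem_map.mp hx
      exact hc3 i (hw i hi)
    have hc5 : ∀ r < D.nroots, ∀ t : F, Commute (k⁻¹ * k') (xU hS r t) := by
      intro r hr t
      obtain ⟨w, hw, j, hj, e⟩ := exists_word_to_simple hT r hr
      obtain ⟨c, _, hc⟩ := nWU_conj hS hN hT w hw r hr
      have e1 : xU hS r t = (nWU hS w)⁻¹ * xU hS (D.simple j) (c * t) * nWU hS w := by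
        rw [← e, ← hc t]; group
      rw [e1]
      exact ((hc4 w hw).inv_right.mul_right (hc1 j hj _)).mul_right (hc4 w hw)
    have hroot : ∀ r < D.nroots, χ r = χ' r := by
      intro r hr
      have e1 := isTorus_conj hS χ k hk r hr 1
      have e2 := isTorus_conj hS χ' k' hk' r hr 1
      have e3 : k * xU hS r 1 * k⁻¹ = k' * xU hS r 1 * k'⁻¹ := by
        have hcomm : k⁻¹ * k' * xU hS r 1 = xU hS r 1 * (k⁻¹ * k') := hc5 r hr 1
        have : k' * xU hS r 1 = k * (k⁻¹ * k' * xU hS r 1) := by group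
        rw [mul_assoc k', ← mul_assoc k' (xU hS r 1)] 
        rw [this, hcomm]; group
      rw [e1, e2] at e3
      have := hinj r hr _ _ e3
      rwa [mul_one, mul_one] at this
    apply Units.ext
    rw [hk.2.2.2, hk'.2.2.2]
    congr 1
    funext j
    rcases j with i | s
    · show χ (D.nroots + i.val) = χ' (D.nroots + i.val)
      rw [hk.2.2.1 i, hk'.2.2.1 i]
    · exact hroot s.val s.isLt
  -- the bijection
  have hbij : ∃ e : ↥(torusGroup D F) → (Fin D.rank → Fˣ), Function.Bijective e := by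
    have hne : ∀ (k : ↥(torusGroup D F)) (i : Fin D.rank),
        ((k : GL D.Idx F) : Matrix D.Idx D.Idx F) (Sum.inr ⟨D.simple i, hT.simple_lt i i.isLt⟩)
          (Sum.inr ⟨D.simple i, hT.simple_lt i i.isLt⟩) ≠ 0 := by
      intro k i
      obtain ⟨χ, hχ⟩ := k.2
      rw [hentry _ χ hχ]
      exact hχ.1 _
    refine ⟨fun k i => Units.mk0 _ (hne k i), ?_, ?_⟩
    · intro k k' hkk'
      obtain ⟨χ, hχ⟩ := k.2
      obtain ⟨χ', hχ'⟩ := k'.2
      apply Subtype.ext
      apply hagree _ _ χ χ' hχ hχ'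
      intro i hi
      have h1 := congrArg (fun f : Fin D.rank → Fˣ => ((f ⟨i, hi⟩ : Fˣ) : F)) hkk'
      simp only [Units.val_mk0] at h1
      rw [hentry _ χ hχ, hentry _ χ' hχ'] at h1
      exact h1
    · intro f
      have hc : ∀ i < D.rank, (fun i : ℕ => if hi : i < D.rank then ((f ⟨i, hi⟩ : Fˣ) : F) else 1) i ≠ 0 := by
        intro i hi
        simp only [dif_pos hi]
        exact Units.ne_zero _
      obtain ⟨k, hk, hkc⟩ := h D F z η hP m hm _ hc
      refine ⟨⟨k, hk⟩, ?_⟩
      funext i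
      apply Units.ext
      obtain ⟨χ, hχ⟩ := hk
      simp only [Units.val_mk0]
      rw [hentry _ χ hχ]
      have e1 := isTorus_conj hS χ k hχ _ (hT.simple_lt i i.isLt) 1
      rw [(hkc i i.isLt 1).1] at e1
      have := hinj _ (hT.simple_lt i i.isLt) _ _ e1
      simp only [dif_pos i.isLt, mul_one] at this
      exact this.symm
  obtain ⟨e, he⟩ := hbij
  rw [Nat.card_eq_of_bijective e he, Nat.card_fun, Nat.card_units, Nat.card_fin]

example (h : Cfsg.Agent.H23.Stb.StHatEx.{u}) : Cfsg.Agent.H23.Stb.StHatCard.{u} := hatCard h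

end Cfsg.Agent.H13.Stb

#print axioms Cfsg.Agent.H13.Stb.hatCard
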