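import Cfsg.Agent.H23.StbHatDefs

/-!
# S2124-HATEX (piece for helper23's S2124 project): `Ĥ` realises every family of scalars on the
fundamental root subgroups
-/

set_option autoImplicit false

namespace Cfsg.Agent.H13.Stb

open Cfsg.Lie Cfsg.Agent.H23 Cfsg.Agent.H23.Stb

universe u

theorem hatEx : StHatEx.{u} := by
  intro D F _ z η hP m hm c hc
  have hS := hP.sem
  have hT := hP.tab
  set χ : ℕ → F := fun c' => ∏ i ∈ Finset.range D.rank, (c i) ^ (m i c') with hχ
  have hχ0 : ∀ c', χ c' ≠ 0 := by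
    intro c'
    exact Finset.prod_ne_zero_iff.mpr (fun i hi => zpow_ne_zero _ (hc i (Finset.mem_range.mp hi)))
  have hadm : MAdm D χ := by
    intro s hs c' x hx
    show ∏ i ∈ Finset.range D.rank, (c i) ^ (m i x.1) =
      (∏ i ∈ Finset.range D.rank, (c i) ^ (m i c')) * (∏ i ∈ Finset.range D.rank, (c i) ^ (m i s)) ^ x.2.2
    rw [← Finset.prod_pow, ← Finset.prod_mul_distrib]
    apply Finset.prod_congr rfl
    intro i hi
    have hi' := Finset.mem_range.mp hi
    rw [hm.adm i hi' s hs c' x hx, zpow_add₀ (hc i hi'), mul_comm (x.2.2 : ℤ), zpow_mul, zpow_natCast]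
  have hcart : ∀ i : Fin D.rank, χ (D.nroots + i.val) = 1 := by
    intro i
    show ∏ j ∈ Finset.range D.rank, (c j) ^ (m j (D.nroots + i.val)) = 1
    apply Finset.prod_eq_one
    intro j hj
    rw [hm.cartan j (Finset.mem_range.mp hj) i.val i.isLt, zpow_zero]
  have h1 : Matrix.diagonal (fun j : D.Idx => χ (ix D j)) *
      Matrix.diagonal (fun j : D.Idx => (χ (ix D j))⁻¹) = 1 := by
    rw [Matrix.diagonal_mul_diagonal, ← Matrix.diagonal_one]
    congr 1
    funext j
    exact mul_inv_cancel₀ (hχ0 _)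
  have h2 : Matrix.diagonal (fun j : D.Idx => (χ (ix D j))⁻¹) *
      Matrix.diagonal (fun j : D.Idx => χ (ix D j)) = 1 := by
    rw [Matrix.diagonal_mul_diagonal, ← Matrix.diagonal_one]
    congr 1
    funext j
    exact inv_mul_cancel₀ (hχ0 _)
  have hk : IsTorus D χ (⟨_, _, h1, h2⟩ : GL D.Idx F) := ⟨hχ0, hadm, hcart, rfl⟩
  refine ⟨_, ⟨χ, hk⟩, ?_⟩
  intro i hi t
  have hsl := hT.simple_lt i hi
  have e1 : χ (D.simple i) = c i := by
    show ∏ j ∈ Finset.range D.rank, (c j) ^ (m j (D.simple i)) = c i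
    rw [Finset.prod_eq_single i]
    · rw [hm.simple i hi i hi, if_pos rfl, zpow_one]
    · intro j hj hji
      rw [hm.simple j (Finset.mem_range.mp hj) i hi, if_neg hji, zpow_zero]
    · intro h; exact absurd (Finset.mem_range.mpr hi) h
  have e2 : χ (D.neg (D.simple i)) = (c i)⁻¹ := by
    show ∏ j ∈ Finset.range D.rank, (c j) ^ (m j (D.neg (D.simple i))) = (c i)⁻¹
    rw [Finset.prod_eq_single i]
    · rw [hm.neg i hi i hi, if_pos rfl, zpow_neg_one]
    · intro j hj hji
      rw [hm.neg j (Finset.mem_range.mp hj) i hi, if_neg hji, zpow_zero]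
    · intro h; exact absurd (Finset.mem_range.mpr hi) h
  constructor
  · rw [isTorus_conj hS χ _ hk _ hsl t, e1]
  · rw [isTorus_conj hS χ _ hk _ (hT.neg_lt _ hsl) t, e2]

example : Cfsg.Agent.H23.Stb.StHatEx.{u} := hatEx

end Cfsg.Agent.H13.Stb

#print axioms Cfsg.Agent.H13.Stb.hatEx
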