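import Cfsg.Agent.H23.StbDefs

/-!
# S2125-MULT (piece for helper23's S2125 project): adjacent fundamental roots carry the same map, and it
is multiplicative
-/

set_option autoImplicit false

namespace Cfsg.Agent.H13.Stb

open Cfsg.Lie Cfsg.Agent.H23 Cfsg.Agent.H23.Stb

universe u

theorem mult : StMult.{u} := by
  intro D F _ z η hP θ i j hi hj hz φi φj hθi hθj h1 hinv
  have hS := hP.sem
  have hT := hP.tab
  have hT2 := hP.tab2
  have hil := hT.simple_lt i hi
  have hjl := hT.simple_lt j hj
  have hinj : ∀ a b : F, xG hS (D.simple i) a = xG hS (D.simple i) b → a = b := by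
    intro a b hab
    have hab' : xU hS (D.simple i) a = xU hS (D.simple i) b := congrArg Subtype.val hab
    have h2 : xU hS (D.simple i) (a + -b) = 1 := by
      rw [← xU_mul, ← xU_inv, hab', mul_inv_cancel]
    have h3 := xU_eq_one_imp hS hT hT2 _ hil _ h2
    linear_combination h3
  have hconj : ∀ a : F, a ≠ 0 → ∀ u : F,
      hG hS (D.simple j) a * xG hS (D.simple i) u * (hG hS (D.simple j) a)⁻¹ =
        xG hS (D.simple i) (a⁻¹ * u) := by
    intro a ha u
    apply Subtype.ext
    show hU hS (D.simple j) a * xU hS (D.simple i) u * (hU hS (D.simple j) a)⁻¹ =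
      xU hS (D.simple i) (a⁻¹ * u)
    rw [hU_conj hS _ hjl a ha _ hil u, hz, zpow_neg_one]
  have key : ∀ a : F, a ≠ 0 → ∀ u : F, (φj a)⁻¹ * φi u = φi (a⁻¹ * u) := by
    intro a ha u
    have hφja : φj a ≠ 0 := by
      intro h0
      exact ha (φj.injective (h0.trans (map_zero φj).symm))
    have e2 := congrArg θ (hconj a ha u)
    rw [map_mul, map_mul, map_inv, hθi, hθi, hθj a ha, hconj _ hφja] at e2
    exact hinj _ _ e2
  have hsame : ∀ a : F, φi a = φj a := by
    intro a
    by_cases ha : a = 0
    · rw [ha, map_zero, map_zero]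
    · have h2 := key a ha 1
      rw [mul_one, h1, mul_one, hinv a ha] at h2
      exact (inv_injective h2).symm
  refine ⟨hsame, ?_⟩
  intro a b
  by_cases ha : a = 0
  · rw [ha, zero_mul, map_zero, zero_mul]
  · have h2 := key a⁻¹ (inv_ne_zero ha) b
    rw [inv_inv, ← hsame, hinv a ha, inv_inv] at h2
    exact h2.symm

example : Cfsg.Agent.H23.Stb.StMult.{u} := mult

end Cfsg.Agent.H13.Stb

#print axioms Cfsg.Agent.H13.Stb.mult
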