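import Cfsg.Agent.H23.StbDefs

/-!
# S2125-OPP (piece for helper23's S2125 project): an automorphism fixing `U` fixes `V` after conjugation
by an element of `U`
-/

set_option autoImplicit false

namespace Cfsg.Agent.H13.Stb

open Cfsg.Lie Cfsg.Agent.H23 Cfsg.Agent.H23.Stb

universe u

theorem opp (hW : StW0.{u}) : StOpp.{u} := by
  intro D F _ _ z η rT w0 hC θ hθ
  have hP := hC.hP
  have hV := hC.hV
  have hS := hP.sem
  have hN := hP.semN
  have hT := hP.tab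
  have hT2 := hP.tab2
  have hUB : D.posUnipotent F ≤ D.borelSubgroup F := le_sup_left
  have hUG : D.posUnipotent F ≤ D.group F := posUnipotent_le_group hS
  have hnormU := diagonal_le_normalizer_rootGen hS D.IsPosRoot (fun _ hr => hr.1)
  have hnormV := diagonal_le_normalizer_rootGen hS D.IsNegRoot (fun _ hr => hr.1)
  have hW0 := hW D F z η rT w0 hC
  -- the canonical form of `m = θ n₀`
  obtain ⟨b, hb, w, hw, u', hu', hm⟩ := canon_exists_word hP hV hC.hTT hC.hL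
    ((θ (nWG hS w0) : ↥(D.group F)) : GL D.Idx F) (θ (nWG hS w0)).2
  have hu'U : u' ∈ D.posUnipotent F := UmG_le_pos _ hu'
  obtain ⟨u₁, hu₁, h, hh, hbeq⟩ := exists_mul_of_mem_sup _ _ hnormU b hb
  -- `g ∈ V ↔ m⁻¹ θ(g) m ∈ U`
  have hA : ∀ g : ↥(D.group F), (g : GL D.Idx F) ∈ D.negUnipotent F ↔
      ((θ (nWG hS w0) : ↥(D.group F)) : GL D.Idx F)⁻¹ * ((θ g : ↥(D.group F)) : GL D.Idx F) *
        ((θ (nWG hS w0) : ↥(D.group F)) : GL D.Idx F) ∈ D.posUnipotent F := by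
    intro g
    have h1 := hθ ((nWG hS w0)⁻¹ * g * nWG hS w0)
    have h2 := (hW0 ((nWU hS w0)⁻¹ * (g : GL D.Idx F) * nWU hS w0)).1
    have e1 : nWU hS w0 * ((nWU hS w0)⁻¹ * (g : GL D.Idx F) * nWU hS w0) * (nWU hS w0)⁻¹ =
        (g : GL D.Idx F) := by group
    rw [e1] at h2
    rw [map_mul, map_mul, map_inv] at h1
    rw [← h2]
    exact h1.symm
  -- every positive root is made negative by `w`
  have h1 : ∀ r, D.IsPosRoot r → D.IsNegRoot (reflW D w r) := by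
    intro r hr
    have hr' := reflW_lt hT w hw r hr.1
    refine (pos_or_neg hT _ hr').resolve_left (fun hpos => ?_)
    obtain ⟨c, hc1, hc⟩ := nWU_conj hS hN hT w hw r hr.1
    have hc0 : c * 1 ≠ 0 := by
      rcases hc1 with h | h <;> rw [h] <;> simp
    have hxU : b * xU hS (reflW D w r) (c * 1) * b⁻¹ ∈ D.posUnipotent F := by
      rw [hbeq]
      have e : u₁ * h * xU hS (reflW D w r) (c * 1) * (u₁ * h)⁻¹ =
          u₁ * (h * xU hS (reflW D w r) (c * 1) * h⁻¹) * u₁⁻¹ := by group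
      rw [e]
      exact Subgroup.mul_mem _ (Subgroup.mul_mem _ hu₁
        ((Subgroup.mem_normalizer_iff.mp (hnormU hh) _).mp (xU_mem_rootGen hS D.IsPosRoot _ hpos _)))
        (Subgroup.inv_mem _ hu₁)
    set g : ↥(D.group F) := θ.symm ⟨b * xU hS (reflW D w r) (c * 1) * b⁻¹, hUG hxU⟩ with hg
    have hθg : ((θ g : ↥(D.group F)) : GL D.Idx F) = b * xU hS (reflW D w r) (c * 1) * b⁻¹ := by
      rw [hg, MulEquiv.apply_symm_apply]
    have hgU : (g : GL D.Idx F) ∈ D.posUnipotent F := by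
      rw [← hθ g, hθg]; exact hxU
    have hgV : (g : GL D.Idx F) ∈ D.negUnipotent F := by
      rw [hA g, hθg, hm]
      have e : (b * nWU hS w * u')⁻¹ * (b * xU hS (reflW D w r) (c * 1) * b⁻¹) * (b * nWU hS w * u') =
          u'⁻¹ * ((nWU hS w)⁻¹ * xU hS (reflW D w r) (c * 1) * nWU hS w) * u' := by group
      have e2 : (nWU hS w)⁻¹ * xU hS (reflW D w r) (c * 1) * nWU hS w = xU hS r 1 := by
        rw [← hc 1]; group
      rw [e, e2]
      exact Subgroup.mul_mem _ (Subgroup.mul_mem _ (Subgroup.inv_mem _ hu'U)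
        (xU_mem_rootGen hS D.IsPosRoot _ hr _)) hu'U
    have hg1 : (g : GL D.Idx F) ∈ D.posUnipotent F ⊓ D.negUnipotent F := ⟨hgU, hgV⟩
    rw [pos_inf_neg hS hV, Subgroup.mem_bot] at hg1
    have hg1' : g = 1 := Subtype.ext hg1
    rw [hg1', map_one] at hθg
    have e3 : xU hS (reflW D w r) (c * 1) = 1 := by
      have : xU hS (reflW D w r) (c * 1) = b⁻¹ * (b * xU hS (reflW D w r) (c * 1) * b⁻¹) * b := by group
      rw [this, ← hθg]
      simp
    exact hc0 (xU_eq_one_imp hS hT hT2 _ hr' _ e3)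
  -- `n_w U n_w⁻¹ ≤ V`
  have h2a : ∀ g ∈ D.posUnipotent F, nWU hS w * g * (nWU hS w)⁻¹ ∈ D.negUnipotent F := by
    intro g hg
    apply conj_mem_of_closure _ (D.negUnipotent F) _ _ g hg
    rintro x ⟨r, t, hr, hx⟩
    rw [eq_xU hS x r t hx]
    obtain ⟨c, _, hc⟩ := nWU_conj hS hN hT w hw r hr.1
    rw [hc t]
    exact xU_mem_rootGen hS D.IsNegRoot _ (h1 r hr) _
  -- `n_w⁻¹ V n_w ≤ U`
  have h2b : ∀ g ∈ D.negUnipotent F, (nWU hS w)⁻¹ * g * nWU hS w ∈ D.posUnipotent F := by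
    intro g hg
    have key := conj_mem_of_closure _ (D.posUnipotent F) (nWU hS w)⁻¹ ?_ g hg
    · rw [inv_inv] at key; exact key
    · rintro x ⟨s, t, hs, hx⟩
      rw [eq_xU hS x s t hx, inv_inv]
      obtain ⟨c, _, hc⟩ := nWU_conj' hS hN hT w hw s hs.1
      rw [hc t]
      have hs' := reflW_lt hT w.reverse (fun i hi => hw i (List.mem_reverse.mp hi)) s hs.1
      refine xU_mem_rootGen hS D.IsPosRoot _ ((pos_or_neg hT _ hs').resolve_right (fun hn => ?_)) _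
      have hp : D.IsPosRoot (D.neg (reflW D w.reverse s)) := (hT.pos_neg _ hs').2.1 hn
      have hn2 := h1 _ hp
      rw [reflW_neg hT w hw _ hs', reflW_cancel_reverse hT w hw s hs.1] at hn2
      exact not_pos_and_neg hT _ (hT.neg_lt s hs.1) ⟨(hT.pos_neg s hs.1).2.1 hs, hn2⟩
  -- `g ∈ V ↔ u₁⁻¹ θ(g) u₁ ∈ V`
  have h3 : ∀ g : ↥(D.group F), (g : GL D.Idx F) ∈ D.negUnipotent F ↔
      u₁⁻¹ * ((θ g : ↥(D.group F)) : GL D.Idx F) * u₁ ∈ D.negUnipotent F := by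
    intro g
    rw [hA g, hm, hbeq]
    constructor
    · intro hZ
      have e : u₁⁻¹ * ((θ g : ↥(D.group F)) : GL D.Idx F) * u₁ =
          h * (nWU hS w * (u' * ((u₁ * h * nWU hS w * u')⁻¹ * ((θ g : ↥(D.group F)) : GL D.Idx F) *
            (u₁ * h * nWU hS w * u')) * u'⁻¹) * (nWU hS w)⁻¹) * h⁻¹ := by group
      rw [e]
      exact (Subgroup.mem_normalizer_iff.mp (hnormV hh) _).mp
        (h2a _ (Subgroup.mul_mem _ (Subgroup.mul_mem _ hu'U hZ) (Subgroup.inv_mem _ hu'U)))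
    · intro hX
      have e : (u₁ * h * nWU hS w * u')⁻¹ * ((θ g : ↥(D.group F)) : GL D.Idx F) *
            (u₁ * h * nWU hS w * u') =
          u'⁻¹ * ((nWU hS w)⁻¹ * (h⁻¹ * (u₁⁻¹ * ((θ g : ↥(D.group F)) : GL D.Idx F) * u₁) * h⁻¹⁻¹) *
            nWU hS w) * u' := by group
      rw [e]
      exact Subgroup.mul_mem _ (Subgroup.mul_mem _ (Subgroup.inv_mem _ hu'U)
        (h2b _ ((Subgroup.mem_normalizer_iff.mp (hnormV (Subgroup.inv_mem _ hh)) _).mp hX))) hu'U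
  -- conclusion
  have hcoe : ∀ g : ↥(D.group F),
      ((conjL ⟨u₁⁻¹, hUG (Subgroup.inv_mem _ hu₁)⟩ θ g : ↥(D.group F)) : GL D.Idx F) =
        u₁⁻¹ * ((θ g : ↥(D.group F)) : GL D.Idx F) * u₁ := by
    intro g
    rw [conjL_apply]
    simp
  refine ⟨⟨u₁⁻¹, hUG (Subgroup.inv_mem _ hu₁)⟩, ?_, ?_⟩
  · intro g
    rw [hcoe, ← hθ g]
    constructor
    · intro hx
      have e : ((θ g : ↥(D.group F)) : GL D.Idx F) =
          u₁ * (u₁⁻¹ * ((θ g : ↥(D.group F)) : GL D.Idx F) * u₁) * u₁⁻¹ := by group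
      rw [e]
      exact Subgroup.mul_mem _ (Subgroup.mul_mem _ hu₁ hx) (Subgroup.inv_mem _ hu₁)
    · intro hx
      exact Subgroup.mul_mem _ (Subgroup.mul_mem _ (Subgroup.inv_mem _ hu₁) hx) hu₁
  · intro g
    rw [hcoe]
    exact (h3 g).symm

example (hW : Cfsg.Agent.H23.Stb.StW0.{u}) : Cfsg.Agent.H23.Stb.StOpp.{u} := opp hW

end Cfsg.Agent.H13.Stb

#print axioms Cfsg.Agent.H13.Stb.opp
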