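import Cfsg.Agent.H23.StbDefs
import Cfsg.Agent.H8BN3

/-!
# S2125-PV (piece for helper23's S2125 project): `⟨B, n_i⟩ ∩ V = X_{-α_i}`
-/

set_option autoImplicit false

namespace Cfsg.Agent.H13.Stb

open Cfsg.Lie Cfsg.Agent.H23 Cfsg.Agent.H23.Stb

universe u

theorem pv (hW : StW0.{u}) : StPV.{u} := by
  intro D F _ z η rT w0 hC i hi v
  have hP := hC.hP
  have hV := hC.hV
  have hS := hP.sem
  have hN := hP.semN
  have hT := hP.tab
  have hαlt : D.simple i < D.nroots := hT.simple_lt i hi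
  have hαpos : D.IsPosRoot (D.simple i) := hT.simple_pos i hi
  have hnlt : D.neg (D.simple i) < D.nroots := hT.neg_lt _ hαlt
  have hnneg : D.IsNegRoot (D.neg (D.simple i)) := (hT.pos_neg _ hαlt).1 hαpos
  have hUB : D.posUnipotent F ≤ D.borelSubgroup F := le_sup_left
  have hHB : D.diagonalSubgroup F ≤ D.borelSubgroup F := le_sup_right
  have hpar := Cfsg.H8BN.mem_parabolic_singleton (bnPair hP) ⟨nG hS i, nG_mem_S hP i hi⟩
  have hconj : ∀ t : F, nU hS (D.simple i) 1 * xU hS (D.simple i) t * (nU hS (D.simple i) 1)⁻¹ =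
      xU hS (D.neg (D.simple i)) (((η i (D.simple i) : ℤ) : F) * t) := by
    intro t
    rw [nU_conj hS hN i hi _ hαlt t, reflectRoot_simple]
  have hη : ((η i (D.simple i) : ℤ) : F) ≠ 0 := by
    rcases hN.eta i (D.simple i) with h | h <;> rw [h] <;> simp
  constructor
  · rintro ⟨hvV, hvP⟩
    rcases (hpar v).mp hvP with hB | hdc
    · -- `v ∈ B`
      rw [bnPair_B, Subgroup.mem_subgroupOf] at hB
      have h1 : (v : GL D.Idx F) ∈ D.borelSubgroup F ⊓ D.negUnipotent F := ⟨hB, hvV⟩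
      rw [borel_inf_neg hS hV, Subgroup.mem_bot] at h1
      exact ⟨0, Subtype.ext (by rw [h1]; exact (xU_zero hS _).symm)⟩
    · obtain ⟨b, hb, b', hb', e⟩ := (Cfsg.H8BN.mem_dc (bnPair hP)).mp hdc
      rw [bnPair_B, Subgroup.mem_subgroupOf] at hb hb'
      have e' : (v : GL D.Idx F) = (b : GL D.Idx F) * nU hS (D.simple i) 1 * (b' : GL D.Idx F) :=
        congrArg Subtype.val e
      obtain ⟨v', hv', t, h, hh, hb'eq⟩ := exists_of_mem_borel hS hP.semC hT hP.tabC i hi _ hb'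
      have hv'B : nU hS (D.simple i) 1 * v' * (nU hS (D.simple i) 1)⁻¹ ∈ D.borelSubgroup F :=
        rootGen_posNe_le_borel hS i
          ((Subgroup.mem_normalizer_iff.mp (nU_mem_normalizer_posNe hS hN hT i hi) v').mp hv')
      have hb₁ : (b : GL D.Idx F) * (nU hS (D.simple i) 1 * v' * (nU hS (D.simple i) 1)⁻¹) ∈
          D.borelSubgroup F := Subgroup.mul_mem _ hb hv'B
      have e1 : (v : GL D.Idx F) =
          ((b : GL D.Idx F) * (nU hS (D.simple i) 1 * v' * (nU hS (D.simple i) 1)⁻¹)) *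
            xU hS (D.neg (D.simple i)) (((η i (D.simple i) : ℤ) : F) * t) *
            nU hS (D.simple i) 1 * h := by
        rw [e', hb'eq, ← hconj]; group
      generalize (b : GL D.Idx F) * (nU hS (D.simple i) 1 * v' * (nU hS (D.simple i) 1)⁻¹) = b₁
        at hb₁ e1
      generalize ((η i (D.simple i) : ℤ) : F) * t = s at e1
      by_cases hs : s = 0
      · -- impossible: `v = b₁ n h`
        exfalso
        rw [hs, xU_zero, mul_one] at e1
        have hv₂ : h * (v : GL D.Idx F) * h⁻¹ ∈ D.negUnipotent F :=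
          (Subgroup.mem_normalizer_iff.mp
            (diagonal_le_normalizer_rootGen hS D.IsNegRoot (fun _ hr => hr.1) hh) _).mp hvV
        have hu₂ := (hW D F z η rT w0 hC (h * (v : GL D.Idx F) * h⁻¹)).2.mp hv₂
        have hn₀N : nWU hS w0 ∈ D.monomialSubgroup F := nWU_mem hS hT w0 hC.hW.lt
        have hnN : nU hS (D.simple i) 1 ∈ D.monomialSubgroup F := nU_mem_mono hS _ hαlt
        have hdcB : nU hS (D.simple i) 1 * (nWU hS w0)⁻¹ ∈ dcB D F (nWU hS w0)⁻¹ := by
          refine ⟨b₁⁻¹ * h⁻¹, Subgroup.mul_mem _ (Subgroup.inv_mem _ hb₁) (Subgroup.inv_mem _ (hHB hh)),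
            nWU hS w0 * (h * (v : GL D.Idx F) * h⁻¹) * (nWU hS w0)⁻¹, hUB hu₂, ?_⟩
          rw [e1]; group
        have h3 := inv_mul_mem_of_mem_dcB hP (Subgroup.inv_mem _ hn₀N)
          (Subgroup.mul_mem _ hnN (Subgroup.inv_mem _ hn₀N)) hdcB
        have h4 : (nWU hS w0)⁻¹⁻¹ * (nU hS (D.simple i) 1 * (nWU hS w0)⁻¹) ∈
            D.borelSubgroup F ⊓ D.monomialSubgroup F :=
          ⟨h3, Subgroup.mul_mem _ (Subgroup.inv_mem _ (Subgroup.inv_mem _ hn₀N))
            (Subgroup.mul_mem _ hnN (Subgroup.inv_mem _ hn₀N))⟩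
        rw [borel_inf_monomial hS] at h4
        have h5 := (Subgroup.mem_normalizer_iff.mp
          (monomial_le_normalizer_diag hS hN hT hP.etaNeg (Subgroup.inv_mem _ hn₀N)) _).mp h4
        have h6 : (nWU hS w0)⁻¹ * ((nWU hS w0)⁻¹⁻¹ * (nU hS (D.simple i) 1 * (nWU hS w0)⁻¹)) *
            (nWU hS w0)⁻¹⁻¹ = nU hS (D.simple i) 1 := by group
        rw [h6] at h5
        exact nU_simple_not_mem_borel hP i hi (hHB h5)
      · -- `s ≠ 0`
        have hx := xU_neg_eq hS (D.simple i) s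
        have hnn := nU_mul_self hS (D.simple i)
        have hh₂ : (hU hS (D.simple i) (-1))⁻¹ * h ∈ D.diagonalSubgroup F :=
          Subgroup.mul_mem _ (Subgroup.inv_mem _ (hU_mem_diag hS _ hαlt _ (by simp))) hh
        have hb₂ : b₁ * xU hS (D.simple i) s⁻¹ * hU hS (D.simple i) (-s⁻¹) ∈ D.borelSubgroup F :=
          Subgroup.mul_mem _ (Subgroup.mul_mem _ hb₁ (hUB (xU_mem_rootGen hS D.IsPosRoot _ hαpos _)))
            (hHB (hU_mem_diag hS _ hαlt _ (neg_ne_zero.mpr (inv_ne_zero hs))))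
        have e2 : (v : GL D.Idx F) = (b₁ * xU hS (D.simple i) s⁻¹ * hU hS (D.simple i) (-s⁻¹)) *
            xU hS (D.neg (D.simple i)) (((η i (D.simple i) : ℤ) : F) * s⁻¹) *
            ((hU hS (D.simple i) (-1))⁻¹ * h) := by
          rw [e1, hx, ← hconj, ← hnn]; group
        generalize b₁ * xU hS (D.simple i) s⁻¹ * hU hS (D.simple i) (-s⁻¹) = b₂ at hb₂ e2
        generalize (hU hS (D.simple i) (-1))⁻¹ * h = h₂ at hh₂ e2
        generalize ((η i (D.simple i) : ℤ) : F) * s⁻¹ = s' at e2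
        obtain ⟨χ, hχ⟩ := diagonal_le_torus hS hT (Subgroup.inv_mem _ hh₂)
        have hc := isTorus_conj hS χ _ hχ _ hnlt s'
        have e3 : (v : GL D.Idx F) = (b₂ * h₂) * xU hS (D.neg (D.simple i)) (χ (D.neg (D.simple i)) * s') := by
          rw [e2, ← hc]; group
        have hb₃ : b₂ * h₂ ∈ D.borelSubgroup F ⊓ D.negUnipotent F := by
          refine ⟨Subgroup.mul_mem _ hb₂ (hHB hh₂), ?_⟩
          have : b₂ * h₂ = (v : GL D.Idx F) *
              (xU hS (D.neg (D.simple i)) (χ (D.neg (D.simple i)) * s'))⁻¹ := by rw [e3]; group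
          rw [this]
          exact Subgroup.mul_mem _ hvV (Subgroup.inv_mem _ (xU_mem_rootGen hS D.IsNegRoot _ hnneg _))
        rw [borel_inf_neg hS hV, Subgroup.mem_bot] at hb₃
        rw [hb₃, one_mul] at e3
        exact ⟨_, Subtype.ext e3⟩
  · rintro ⟨t, rfl⟩
    refine ⟨xU_mem_rootGen hS D.IsNegRoot _ hnneg t, ?_⟩
    apply (hpar _).mpr
    by_cases ht : t = 0
    · left
      rw [bnPair_B, Subgroup.mem_subgroupOf]
      show xU hS (D.neg (D.simple i)) t ∈ _
      rw [ht, xU_zero]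
      exact Subgroup.one_mem _
    · right
      exact mem_dc_of_mem_dcB hP _ _ (xU_neg_mem_dcB hS hT i hi t ht)

example (hW : Cfsg.Agent.H23.Stb.StW0.{u}) : Cfsg.Agent.H23.Stb.StPV.{u} := pv hW

end Cfsg.Agent.H13.Stb

#print axioms Cfsg.Agent.H13.Stb.pv
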