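import Cfsg.Agent.H23.StbDefs

/-!
# S2125-ROOTMAP (piece for helper23's S2125 project): an automorphism fixing a root subgroup acts on it
by an additive bijection
-/

set_option autoImplicit false

namespace Cfsg.Agent.H13.Stb

open Cfsg.Lie Cfsg.Agent.H23 Cfsg.Agent.H23.Stb

universe u

theorem rootMap : StRootMap.{u} := by
  intro D F _ z η hP θ r hr hθ
  have hS := hP.sem
  have hT := hP.tab
  have hT2 := hP.tab2
  have hinj : ∀ a b : F, xG hS r a = xG hS r b → a = b := by
    intro a b hab
    have hab' : xU hS r a = xU hS r b := congrArg Subtype.val hab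
    have h2 : xU hS r (a + -b) = 1 := by
      rw [← xU_mul, ← xU_inv, hab', mul_inv_cancel]
    have h3 := xU_eq_one_imp hS hT hT2 r hr _ h2
    linear_combination h3
  have hmul : ∀ a b : F, xG hS r a * xG hS r b = xG hS r (a + b) := by
    intro a b
    exact Subtype.ext (xU_mul hS r a b)
  choose f hf using hθ.1
  have hadd : ∀ a b : F, f (a + b) = f a + f b := by
    intro a b
    apply hinj
    rw [← hf, ← hmul, map_mul, hf, hf, hmul]
  have hfinj : Function.Injective f := by
    intro a b hab
    apply hinj
    apply θ.injective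
    rw [hf, hf, hab]
  have hfsurj : Function.Surjective f := by
    intro t'
    obtain ⟨t, ht⟩ := hθ.2 t'
    refine ⟨t, hinj _ _ ?_⟩
    rw [← hf, ht]
  exact ⟨AddEquiv.ofBijective (AddMonoidHom.mk' f hadd) ⟨hfinj, hfsurj⟩, fun t => hf t⟩

example : Cfsg.Agent.H23.Stb.StRootMap.{u} := rootMap

end Cfsg.Agent.H13.Stb

#print axioms Cfsg.Agent.H13.Stb.rootMap
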