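import Mathlib

set_option autoImplicit false

namespace Cfsg.Agent.H13

/-- If a subgroup `M` contains the normalizer of a Sylow `p`-subgroup then `|G : M| ≡ 1 (mod p)`. -/
theorem index_modEq_one_of_normalizer_le {G : Type*} [Group G] [Finite G] {p : ℕ} [Fact p.Prime]
    (P : Sylow p G) (M : Subgroup G) (h : Subgroup.normalizer ((P : Subgroup G) : Set G) ≤ M) :
    M.index ≡ 1 [MOD p] := by
  have hPM : (P : Subgroup G) ≤ M := Subgroup.le_normalizer.trans h
  have h1 : (Subgroup.normalizer ((P : Subgroup G) : Set G)).index ≡ 1 [MOD p] := by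
    have e1 : Nat.card (Sylow p G) = (Subgroup.normalizer ((P : Subgroup G) : Set G)).index :=
      P.card_eq_index_normalizer
    rw [← e1]
    exact card_sylow_modEq_one p G
  have h2 : (Subgroup.normalizer ((P : Subgroup G) : Set G)).relIndex M ≡ 1 [MOD p] := by
    have e : (Subgroup.normalizer ((P : Subgroup G) : Set G)).relIndex M =
        (Subgroup.normalizer (((P.subtype hPM : Sylow p M) : Subgroup M) : Set M)).index := by
      rw [Sylow.coe_subtype, ← Subgroup.subgroupOf_normalizer_eq hPM]
      rfl
    have e2 : Nat.card (Sylow p M) =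
        (Subgroup.normalizer (((P.subtype hPM : Sylow p M) : Subgroup M) : Set M)).index :=
      (P.subtype hPM).card_eq_index_normalizer
    rw [e, ← e2]
    exact card_sylow_modEq_one p M
  have h3 := Subgroup.relIndex_mul_index h
  have h4 : (Subgroup.normalizer ((P : Subgroup G) : Set G)).relIndex M * M.index ≡ 1 * M.index [MOD p] :=
    Nat.ModEq.mul_right _ h2
  rw [h3, one_mul] at h4
  exact h4.symm.trans h1

end Cfsg.Agent.H13
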