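import Mathlib
import Cfsg.Prelude.Def_SolvableStructure
import Cfsg.Agent.H12.HallSystem
import Cfsg.Agent.H12.PGroup
import Cfsg.Agent.H1.MinNormal

/-!
# System normalizers: covering and avoidance (helper13)
-/

set_option autoImplicit false
set_option linter.style.haveILetI false
open Pointwise
open scoped commutatorElement

namespace Cfsg.Agent.H13

universe u

section General

variable {G : Type*} [Group G]

theorem mem_systemNormalizer_iff (K : Nat.Primes → Subgroup G) (x : G) :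
    x ∈ Cfsg.systemNormalizer K ↔ ∀ p, x ∈ Subgroup.normalizer (K p : Set G) := by
  show x ∈ ⨅ p : Nat.Primes, Subgroup.normalizer (K p : Set G) ↔ _
  rw [Subgroup.mem_iInf]

theorem center_le_systemNormalizer (K : Nat.Primes → Subgroup G) :
    Subgroup.center G ≤ Cfsg.systemNormalizer K := by
  intro z hz
  rw [mem_systemNormalizer_iff]
  intro p
  rw [Subgroup.mem_normalizer_iff]
  intro h
  have e : z * h * z⁻¹ = h := by
    rw [Subgroup.mem_center_iff] at hz
    rw [← hz h]; group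
  rw [e]

/-- A normal `r`-subgroup lies in every subgroup whose index is a power of a different prime. -/
theorem normal_pgroup_le_of_index [Finite G] {r p : ℕ} (hr : r.Prime) (hp : p.Prime)
    (hrp : r ≠ p) (N X : Subgroup G) [N.Normal] (hN : IsPGroup r N) {j : ℕ}
    (hX : X.index = p ^ j) : N ≤ X := by
  haveI : Fact r.Prime := ⟨hr⟩
  have h1 : X.relIndex N ∣ p ^ j := hX ▸ Cfsg.Agent.H12.relIndex_dvd_index_of_normal_right X N
  have h2 : X.relIndex N ∣ Nat.card N := Subgroup.relIndex_dvd_card X N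
  obtain ⟨k, hk⟩ := IsPGroup.iff_card.mp hN
  rw [hk] at h2
  have hcop : Nat.Coprime (p ^ j) (r ^ k) :=
    Nat.Coprime.pow _ _ ((Nat.coprime_primes hp hr).mpr (fun h => hrp h.symm))
  exact Subgroup.relIndex_eq_one.mp (Nat.eq_one_of_dvd_coprimes hcop h1 h2)

end General

/-- A non-central minimal normal subgroup of a finite solvable group meets every system
normalizer trivially. -/
theorem minimal_normal_inf_systemNormalizer {H : Type u} [Group H] [Finite H]
    [Group.IsSolvable H] (K : Nat.Primes → Subgroup H) (hK : Cfsg.IsComplementSystem K)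
    (M : Subgroup H) [M.Normal] (hM : M ≠ ⊥)
    (hmin : ∀ N : Subgroup H, N.Normal → N ≤ M → N = ⊥ ∨ N = M)
    (hnc : ¬ M ≤ Subgroup.center H) : M ⊓ Cfsg.systemNormalizer K = ⊥ := by
  obtain ⟨hMc, p, hp, hMp⟩ := Cfsg.Agent.H1.minimal_normal_elementary_abelian M hM hmin
  haveI : Fact p.Prime := ⟨hp⟩
  have hMpg : IsPGroup p M := by
    intro x
    refine ⟨1, ?_⟩
    apply Subtype.ext
    simpa using hMp x x.2
  have hMcomm : ∀ a ∈ M, ∀ b ∈ M, a * b = b * a := fun a ha b hb => by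
    have := hMc.is_comm.comm ⟨a, ha⟩ ⟨b, hb⟩
    exact congrArg Subtype.val this
  -- the centralizer of `M`
  obtain ⟨C, hC⟩ : ∃ C : Subgroup H, C = Subgroup.centralizer (M : Set H) := ⟨_, rfl⟩
  haveI hCn : C.Normal := by rw [hC]; infer_instance
  have hCmem : ∀ c ∈ C, ∀ m ∈ M, m * c = c * m := by
    intro c hc m hm
    rw [hC, Subgroup.mem_centralizer_iff] at hc
    exact hc m hm
  have hCtop : C ≠ ⊤ := by
    intro h
    apply hnc
    intro m hm
    rw [Subgroup.mem_center_iff]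
    intro g
    have hg : g ∈ C := h ▸ Subgroup.mem_top g
    exact (hCmem g hg m hm).symm
  haveI hnt : Nontrivial (H ⧸ C) := QuotientGroup.nontrivial_iff.mpr hCtop
  obtain ⟨Lb, hLbn, hLb1, hLbmin⟩ := Cfsg.Agent.H1.exists_minimal_normal (G := H ⧸ C)
  haveI := hLbn
  obtain ⟨r, hr, hLbr⟩ := Cfsg.Agent.H1.minimal_normal_isPGroup Lb hLb1 hLbmin
  haveI : Fact r.Prime := ⟨hr⟩
  obtain ⟨L, hL⟩ : ∃ L : Subgroup H, L = Lb.comap (QuotientGroup.mk' C) := ⟨_, rfl⟩
  haveI hLn : L.Normal := by rw [hL]; infer_instance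
  have hLmap : L.map (QuotientGroup.mk' C) = Lb := by
    rw [hL]; exact Subgroup.map_comap_eq_self_of_surjective (QuotientGroup.mk'_surjective C) Lb
  -- `M ⊓ C_H(L) = ⊥`
  have hML : M ⊓ Subgroup.centralizer (L : Set H) = ⊥ := by
    have hn : (M ⊓ Subgroup.centralizer (L : Set H)).Normal := inferInstance
    rcases hmin _ hn inf_le_left with h | h
    · exact h
    · exfalso
      apply hLb1
      rw [← hLmap, eq_bot_iff]
      rintro _ ⟨l, hl, rfl⟩
      rw [Subgroup.mem_bot]
      show QuotientGroup.mk' C l = 1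
      rw [QuotientGroup.mk'_apply, QuotientGroup.eq_one_iff, hC, Subgroup.mem_centralizer_iff]
      intro m hm
      have hm' : m ∈ M ⊓ Subgroup.centralizer (L : Set H) := by rw [h]; exact hm
      have := (Subgroup.mem_centralizer_iff.mp (Subgroup.mem_inf.mp hm').2) l hl
      exact this.symm
  -- `r ≠ p`
  have hrp : r ≠ p := by
    rintro rfl
    obtain ⟨P⟩ : Nonempty (Sylow r H) := inferInstance
    obtain ⟨z, hzM, hz1, hzP⟩ := Cfsg.Agent.H12.exists_ne_one_commute_of_isPGroup
      (P := (P : Subgroup H)) (N := M) P.isPGroup' hMpg hM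
      (fun x _ => by
        have : Subgroup.normalizer (M : Set H) = ⊤ := Subgroup.normalizer_eq_top M
        rw [this]; exact Subgroup.mem_top x)
    apply hz1
    have hz : z ∈ M ⊓ Subgroup.centralizer (L : Set H) := by
      refine Subgroup.mem_inf.mpr ⟨hzM, ?_⟩
      rw [Subgroup.mem_centralizer_iff]
      intro l hl
      -- `l = u * c` with `u ∈ P`, `c ∈ C`
      have hPb : ((P : Subgroup H).map (QuotientGroup.mk' C)).index.Coprime r := by
        have h1 : ((P : Subgroup H).map (QuotientGroup.mk' C)).index ∣ (P : Subgroup H).index :=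
          Subgroup.index_map_dvd _ (QuotientGroup.mk'_surjective C)
        exact Nat.Coprime.coprime_dvd_left h1
          ((Nat.Prime.coprime_iff_not_dvd hr).mpr P.not_dvd_index).symm
      have hle : Lb ≤ (P : Subgroup H).map (QuotientGroup.mk' C) := by
        have h1 : ((P : Subgroup H).map (QuotientGroup.mk' C)).relIndex Lb ∣
            ((P : Subgroup H).map (QuotientGroup.mk' C)).index :=
          Cfsg.Agent.H12.relIndex_dvd_index_of_normal_right _ Lb
        have h2 : ((P : Subgroup H).map (QuotientGroup.mk' C)).relIndex Lb ∣ Nat.card Lb :=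
          Subgroup.relIndex_dvd_card _ Lb
        obtain ⟨k, hk⟩ := IsPGroup.iff_card.mp hLbr
        rw [hk] at h2
        have hcop : Nat.Coprime ((P : Subgroup H).map (QuotientGroup.mk' C)).index (r ^ k) :=
          Nat.Coprime.pow_right _ hPb
        exact Subgroup.relIndex_eq_one.mp (Nat.eq_one_of_dvd_coprimes hcop h1 h2)
      have hl' : QuotientGroup.mk' C l ∈ (P : Subgroup H).map (QuotientGroup.mk' C) :=
        hle (hLmap ▸ Subgroup.mem_map_of_mem _ hl)
      obtain ⟨u, hu, hul⟩ := hl'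
      have hc : u⁻¹ * l ∈ C := by
        have := QuotientGroup.eq.mp hul
        exact this
      have h1 := hzP u hu
      have h2 := hCmem _ hc z hzM
      calc l * z = u * ((u⁻¹ * l) * z) := by group
        _ = u * (z * (u⁻¹ * l)) := by rw [h2]
        _ = (u * z) * (u⁻¹ * l) := by group
        _ = (z * u) * (u⁻¹ * l) := by rw [h1]
        _ = z * l := by group
    rw [hML] at hz
    exact hz
  -- `L ≤ K p ⊔ C`
  have hLK : ∀ l ∈ L, ∃ k ∈ K ⟨p, hp⟩, k⁻¹ * l ∈ C := by
    intro l hl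
    have hidx := Cfsg.Agent.H12.complementSystem_map hK C ⟨p, hp⟩
    have hle : Lb ≤ (K ⟨p, hp⟩).map (QuotientGroup.mk' C) :=
      normal_pgroup_le_of_index hr hp hrp Lb _ hLbr hidx
    have hl' : QuotientGroup.mk' C l ∈ (K ⟨p, hp⟩).map (QuotientGroup.mk' C) :=
      hle (hLmap ▸ Subgroup.mem_map_of_mem _ hl)
    obtain ⟨k, hk, hkl⟩ := hl'
    exact ⟨k, hk, QuotientGroup.eq.mp hkl⟩
  -- `M ⊓ K p = ⊥`
  have hMK : ∀ x, x ∈ M → x ∈ K ⟨p, hp⟩ → x = 1 := by
    intro x hxM hxK
    have h1 : orderOf x ∣ Nat.card (K ⟨p, hp⟩) := by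
      have := orderOf_dvd_natCard (⟨x, hxK⟩ : K ⟨p, hp⟩)
      rwa [Subgroup.orderOf_mk] at this
    have h2 : orderOf x ∣ p := orderOf_dvd_of_pow_eq_one (hMp x hxM)
    have hcop := Cfsg.Agent.H12.complementSystem_coprime hK ⟨p, hp⟩
    have h3 : orderOf x = 1 := Nat.eq_one_of_dvd_coprimes hcop h1 h2
    exact orderOf_eq_one_iff.mp h3
  rw [eq_bot_iff]
  rintro x ⟨hxM, hxD⟩
  rw [Subgroup.mem_bot]
  have hxN : x ∈ Subgroup.normalizer (K ⟨p, hp⟩ : Set H) :=
    (mem_systemNormalizer_iff K x).mp hxD ⟨p, hp⟩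
  have hxK : ∀ k ∈ K ⟨p, hp⟩, x * k = k * x := by
    intro k hk
    have h1 : x * k * x⁻¹ * k⁻¹ ∈ K ⟨p, hp⟩ :=
      (K ⟨p, hp⟩).mul_mem ((Subgroup.mem_normalizer_iff.mp hxN k).mp hk) ((K ⟨p, hp⟩).inv_mem hk)
    have h2 : x * k * x⁻¹ * k⁻¹ ∈ M := by
      have h3 : k * x⁻¹ * k⁻¹ ∈ M := ‹M.Normal›.conj_mem _ (M.inv_mem hxM) k
      have e : x * k * x⁻¹ * k⁻¹ = x * (k * x⁻¹ * k⁻¹) := by group
      rw [e]; exact M.mul_mem hxM h3
    have h4 := hMK _ h2 h1
    calc x * k = (x * k * x⁻¹ * k⁻¹) * (k * x) := by group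
      _ = k * x := by rw [h4, one_mul]
  have hx : x ∈ M ⊓ Subgroup.centralizer (L : Set H) := by
    refine Subgroup.mem_inf.mpr ⟨hxM, ?_⟩
    rw [Subgroup.mem_centralizer_iff]
    intro l hl
    obtain ⟨k, hk, hc⟩ := hLK l hl
    have h1 := hxK k hk
    have h2 := hCmem _ hc x hxM
    calc l * x = k * ((k⁻¹ * l) * x) := by group
      _ = k * (x * (k⁻¹ * l)) := by rw [h2]
      _ = (k * x) * (k⁻¹ * l) := by group
      _ = (x * k) * (k⁻¹ * l) := by rw [h1]
      _ = x * l := by group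
  rw [hML] at hx
  exact hx

section CoverAvoid

variable {G : Type u} [Group G] [Finite G] [Group.IsSolvable G]

/-- Covering of central factors. -/
theorem cover_of_central (K : Nat.Primes → Subgroup G) (hK : Cfsg.IsComplementSystem K)
    (A B : Subgroup G) [A.Normal] (h : ⁅B, (⊤ : Subgroup G)⁆ ≤ A) :
    B ≤ A ⊔ Cfsg.systemNormalizer K := by
  intro b hb
  have hc : QuotientGroup.mk' A b ∈ Subgroup.center (G ⧸ A) := by
    rw [Subgroup.mem_center_iff]
    intro q
    obtain ⟨g, rfl⟩ := QuotientGroup.mk'_surjective A q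
    have h1 : ⁅b, g⁆ ∈ A := h (Subgroup.commutator_mem_commutator hb (Subgroup.mem_top g))
    rw [← map_mul, ← map_mul]
    symm
    apply QuotientGroup.eq.mpr
    have e : (b * g)⁻¹ * (g * b) = (b * g)⁻¹ * ⁅b, g⁆⁻¹ * (b * g)⁻¹⁻¹ := by
      rw [commutatorElement_def]; group
    rw [e]
    exact ‹A.Normal›.conj_mem _ (A.inv_mem h1) (b * g)⁻¹
  have h2 := center_le_systemNormalizer (fun p => (K p).map (QuotientGroup.mk' A)) hc
  rw [Cfsg.Agent.H12.systemNormalizer_map K hK A] at h2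
  obtain ⟨d, hd, hdb⟩ := h2
  have h3 : d⁻¹ * b ∈ A := QuotientGroup.eq.mp hdb
  have e : b = d * (d⁻¹ * b) := by group
  rw [e]
  exact Subgroup.mul_mem _ (Subgroup.mem_sup_right hd) (Subgroup.mem_sup_left h3)

/-- Avoidance of non-central chief factors. -/
theorem avoid_of_chief (K : Nat.Primes → Subgroup G) (hK : Cfsg.IsComplementSystem K)
    (A B : Subgroup G) [A.Normal] [B.Normal] (hAB : A < B)
    (hchief : ∀ N : Subgroup G, N.Normal → A ≤ N → N ≤ B → N = A ∨ N = B)
    (h : ¬ ⁅B, (⊤ : Subgroup G)⁆ ≤ A) : B ⊓ Cfsg.systemNormalizer K ≤ A := by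
  have hsurj := QuotientGroup.mk'_surjective A
  obtain ⟨M, hMdef⟩ : ∃ M : Subgroup (G ⧸ A), M = B.map (QuotientGroup.mk' A) := ⟨_, rfl⟩
  haveI hMn : M.Normal := by rw [hMdef]; exact Subgroup.Normal.map inferInstance _ hsurj
  have hcomap : M.comap (QuotientGroup.mk' A) = B := by
    rw [hMdef, Subgroup.comap_map_eq, QuotientGroup.ker_mk']
    exact sup_eq_left.mpr hAB.le
  have hM1 : M ≠ ⊥ := by
    intro h0
    apply hAB.not_ge
    intro b hb
    have : QuotientGroup.mk' A b ∈ M := hMdef ▸ Subgroup.mem_map_of_mem _ hb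
    rw [h0, Subgroup.mem_bot] at this
    exact (QuotientGroup.eq_one_iff b).mp this
  have hmin : ∀ N : Subgroup (G ⧸ A), N.Normal → N ≤ M → N = ⊥ ∨ N = M := by
    intro N hN hNM
    have h1 : (N.comap (QuotientGroup.mk' A)).Normal := Subgroup.Normal.comap hN _
    have h2 : A ≤ N.comap (QuotientGroup.mk' A) := Cfsg.Agent.H12.le_comap_mk' A N
    have h3 : N.comap (QuotientGroup.mk' A) ≤ B := by
      rw [← hcomap]; exact Subgroup.comap_mono hNM
    rcases hchief _ h1 h2 h3 with h4 | h4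
    · left
      rw [← Subgroup.map_comap_eq_self_of_surjective hsurj N, h4, QuotientGroup.map_mk'_self]
    · right
      rw [← Subgroup.map_comap_eq_self_of_surjective hsurj N, h4, hMdef]
  have hnc : ¬ M ≤ Subgroup.center (G ⧸ A) := by
    intro hc
    apply h
    rw [Subgroup.commutator_le]
    intro b hb g _
    have h1 : QuotientGroup.mk' A b ∈ Subgroup.center (G ⧸ A) :=
      hc (hMdef ▸ Subgroup.mem_map_of_mem _ hb)
    rw [Subgroup.mem_center_iff] at h1
    have h2 := h1 (QuotientGroup.mk' A g)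
    rw [← QuotientGroup.eq_one_iff]
    show QuotientGroup.mk' A ⁅b, g⁆ = 1
    rw [commutatorElement_def, map_mul, map_mul, map_mul, map_inv, map_inv, ← h2]
    group
  have key := minimal_normal_inf_systemNormalizer (fun p => (K p).map (QuotientGroup.mk' A))
    (Cfsg.Agent.H12.complementSystem_map hK A) M hM1 hmin hnc
  rw [Cfsg.Agent.H12.systemNormalizer_map K hK A] at key
  rintro x ⟨hxB, hxD⟩
  have hx : QuotientGroup.mk' A x ∈ M ⊓ (Cfsg.systemNormalizer K).map (QuotientGroup.mk' A) :=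
    ⟨hMdef ▸ Subgroup.mem_map_of_mem _ hxB, Subgroup.mem_map_of_mem _ hxD⟩
  rw [key, Subgroup.mem_bot] at hx
  exact (QuotientGroup.eq_one_iff x).mp hx

end CoverAvoid

end Cfsg.Agent.H13
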