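import Mathlib
import Cfsg.Prelude.Def_SolvableStructure
import Cfsg.Agent.H13.SysNorm
import Cfsg.Agent.H13.Carter
import Cfsg.Agent.H1.Hall
import Cfsg.Agent.H1.Coprime

/-!
# System normalizers and Carter subgroups (helper13)
-/

set_option autoImplicit false
set_option linter.style.haveILetI false
open Pointwise
open scoped commutatorElement

namespace Cfsg.Agent.H13

universe u

section Conj

variable {G : Type*} [Group G]

theorem systemNormalizer_conj (K : Nat.Primes → Subgroup G) (g : G) :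
    Cfsg.systemNormalizer (fun p => MulAut.conj g • K p) =
      MulAut.conj g • Cfsg.systemNormalizer K := by
  ext x
  rw [mem_systemNormalizer_iff, Cfsg.Agent.H1.mem_conj_smul_iff, mem_systemNormalizer_iff]
  refine forall_congr' fun p => ?_
  rw [normalizer_conj_smul, Cfsg.Agent.H1.mem_conj_smul_iff]

/-- criterion for a complement system -/
theorem isComplementSystem_of [Finite G] (K : Nat.Primes → Subgroup G)
    (hidx : ∀ p : Nat.Primes, ∃ j, (K p).index = (p : ℕ) ^ j)
    (hcop : ∀ p : Nat.Primes, (Nat.card (K p)).Coprime p) : Cfsg.IsComplementSystem K := by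
  intro p
  obtain ⟨j, hj⟩ := hidx p
  rw [hj]
  congr 1
  have h2 := Subgroup.card_mul_index (K p)
  rw [hj] at h2
  have hz : (Nat.card (K p)).factorization p = 0 :=
    Nat.factorization_eq_zero_of_not_dvd
      ((Nat.Prime.coprime_iff_not_dvd p.2).mp (hcop p).symm)
  rw [← h2, Nat.factorization_mul Nat.card_pos.ne' (pow_ne_zero _ p.2.ne_zero),
    p.2.factorization_pow, Finsupp.add_apply, hz, Finsupp.single_eq_same, zero_add]

end Conj

section Solvable

variable {G : Type u} [Group G] [Finite G] [Group.IsSolvable G]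

theorem exists_complementSystem : ∃ K : Nat.Primes → Subgroup G, Cfsg.IsComplementSystem K := by
  have h : ∀ p : Nat.Primes, ∃ H : Subgroup G,
      H.index = (p : ℕ) ^ (Nat.card G).factorization p := by
    intro p
    have hG : Nat.card G = (Nat.card G / (p : ℕ) ^ (Nat.card G).factorization p) *
        (p : ℕ) ^ (Nat.card G).factorization p :=
      (Nat.div_mul_cancel (Nat.ordProj_dvd (Nat.card G) p)).symm
    have hcop : (Nat.card G / (p : ℕ) ^ (Nat.card G).factorization p).Coprime
        ((p : ℕ) ^ (Nat.card G).factorization p) :=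
      Nat.Coprime.pow_right _ (Nat.coprime_ordCompl p.2 Nat.card_pos.ne').symm
    obtain ⟨H, hH⟩ := Cfsg.Agent.H1.hall_exists _ _ hG hcop
    refine ⟨H, ?_⟩
    have h1 := Subgroup.card_mul_index H
    rw [hH] at h1
    have hpos : 0 < Nat.card G / (p : ℕ) ^ (Nat.card G).factorization p := by
      rw [← hH]; exact Nat.card_pos
    exact Nat.eq_of_mul_eq_mul_left hpos (h1.trans hG)
  choose K hK using h
  exact ⟨K, hK⟩

/-- A system normalizer supplements every term of the lower central series. -/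
theorem systemNormalizer_sup_lowerCentralSeries (K : Nat.Primes → Subgroup G)
    (hK : Cfsg.IsComplementSystem K) (n : ℕ) :
    Cfsg.systemNormalizer K ⊔ (⊤ : Subgroup G).lowerCentralSeries n = ⊤ := by
  induction n with
  | zero => rw [Subgroup.lowerCentralSeries_zero, sup_top_eq]
  | succ n ih =>
    have h1 := cover_of_central K hK ((⊤ : Subgroup G).lowerCentralSeries (n + 1))
      ((⊤ : Subgroup G).lowerCentralSeries n) (le_of_eq (Subgroup.lowerCentralSeries_succ _ n).symm)
    have h2 : Cfsg.systemNormalizer K ⊔ (⊤ : Subgroup G).lowerCentralSeries n ≤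
        Cfsg.systemNormalizer K ⊔ (⊤ : Subgroup G).lowerCentralSeries (n + 1) :=
      sup_le le_sup_left (by rw [sup_comm]; exact h1)
    rw [ih] at h2
    exact top_le_iff.mp h2

theorem systemNormalizer_eq_top_of_nilpotent [hnil : Group.IsNilpotent G]
    (K : Nat.Primes → Subgroup G) (hK : Cfsg.IsComplementSystem K) :
    Cfsg.systemNormalizer K = ⊤ := by
  obtain ⟨n, hn⟩ := Subgroup.nilpotent_iff_lowerCentralSeries.mp hnil
  have := systemNormalizer_sup_lowerCentralSeries K hK n
  rwa [hn, sup_bot_eq] at this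

omit [Finite G] [Group.IsSolvable G] in
/-- a chief factor gives a minimal normal subgroup of the quotient -/
theorem chief_map_minimal (A B : Subgroup G) [A.Normal] [B.Normal] (hAB : A < B)
    (hchief : ∀ N : Subgroup G, N.Normal → A ≤ N → N ≤ B → N = A ∨ N = B) :
    (B.map (QuotientGroup.mk' A)).Normal ∧ B.map (QuotientGroup.mk' A) ≠ ⊥ ∧
      ∀ N : Subgroup (G ⧸ A), N.Normal → N ≤ B.map (QuotientGroup.mk' A) →
        N = ⊥ ∨ N = B.map (QuotientGroup.mk' A) := by
  have hsurj := QuotientGroup.mk'_surjective A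
  have hcomap : (B.map (QuotientGroup.mk' A)).comap (QuotientGroup.mk' A) = B := by
    rw [Subgroup.comap_map_eq, QuotientGroup.ker_mk']
    exact sup_eq_left.mpr hAB.le
  refine ⟨Subgroup.Normal.map inferInstance _ hsurj, ?_, ?_⟩
  · intro h0
    apply hAB.not_ge
    intro b hb
    have : QuotientGroup.mk' A b ∈ B.map (QuotientGroup.mk' A) := Subgroup.mem_map_of_mem _ hb
    rw [h0, Subgroup.mem_bot] at this
    exact (QuotientGroup.eq_one_iff b).mp this
  · intro N hN hNM
    have h1 : (N.comap (QuotientGroup.mk' A)).Normal := Subgroup.Normal.comap hN _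
    have h2 : A ≤ N.comap (QuotientGroup.mk' A) := Cfsg.Agent.H12.le_comap_mk' A N
    have h3 : N.comap (QuotientGroup.mk' A) ≤ B := by
      rw [← hcomap]; exact Subgroup.comap_mono hNM
    rcases hchief _ h1 h2 h3 with h4 | h4
    · left
      rw [← Subgroup.map_comap_eq_self_of_surjective hsurj N, h4, QuotientGroup.map_mk'_self]
    · right
      rw [← Subgroup.map_comap_eq_self_of_surjective hsurj N, h4]

theorem chief_factor_abelian (A B : Subgroup G) [A.Normal] [B.Normal] (hAB : A < B)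
    (hchief : ∀ N : Subgroup G, N.Normal → A ≤ N → N ≤ B → N = A ∨ N = B) :
    ⁅B, B⁆ ≤ A := by
  obtain ⟨hMn, hM1, hmin⟩ := chief_map_minimal A B hAB hchief
  haveI := hMn
  obtain ⟨hMc, -⟩ := Cfsg.Agent.H1.minimal_normal_elementary_abelian _ hM1 hmin
  rw [Subgroup.commutator_le]
  intro a ha b hb
  have h := hMc.is_comm.comm ⟨QuotientGroup.mk' A a, Subgroup.mem_map_of_mem _ ha⟩
    ⟨QuotientGroup.mk' A b, Subgroup.mem_map_of_mem _ hb⟩
  have h2 : QuotientGroup.mk' A a * QuotientGroup.mk' A b =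
      QuotientGroup.mk' A b * QuotientGroup.mk' A a := congrArg Subtype.val h
  rw [← QuotientGroup.eq_one_iff]
  show QuotientGroup.mk' A ⁅a, b⁆ = 1
  rw [commutatorElement_def, map_mul, map_mul, map_mul, map_inv, map_inv, h2]
  group

omit [Finite G] [Group.IsSolvable G] in
theorem mk_comm_of_commutator_mem (L : Subgroup G) [L.Normal] {a b : G}
    (h : a * b * a⁻¹ * b⁻¹ ∈ L) :
    QuotientGroup.mk' L a * QuotientGroup.mk' L b =
      QuotientGroup.mk' L b * QuotientGroup.mk' L a := by
  have h1 : QuotientGroup.mk' L a * QuotientGroup.mk' L b * (QuotientGroup.mk' L a)⁻¹ *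
      (QuotientGroup.mk' L b)⁻¹ = 1 := by
    rw [← map_inv, ← map_inv, ← map_mul, ← map_mul, ← map_mul]
    exact (QuotientGroup.eq_one_iff _).mpr h
  calc QuotientGroup.mk' L a * QuotientGroup.mk' L b
      = (QuotientGroup.mk' L a * QuotientGroup.mk' L b * (QuotientGroup.mk' L a)⁻¹ *
          (QuotientGroup.mk' L b)⁻¹) * (QuotientGroup.mk' L b * QuotientGroup.mk' L a) := by group
    _ = QuotientGroup.mk' L b * QuotientGroup.mk' L a := by rw [h1, one_mul]

omit [Group.IsSolvable G] in
/-- The complement system of `G` reduces into `D ⊔ L` for `D` its system normalizer and `L`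
normal. -/
theorem complementSystem_subgroupOf (K : Nat.Primes → Subgroup G)
    (hK : Cfsg.IsComplementSystem K) (L : Subgroup G) [L.Normal] :
    Cfsg.IsComplementSystem (fun p => (K p).subgroupOf (Cfsg.systemNormalizer K ⊔ L)) := by
  obtain ⟨D, hD⟩ : ∃ D, D = Cfsg.systemNormalizer K := ⟨_, rfl⟩
  rw [← hD]
  have hDK : ∀ p, D ≤ Subgroup.normalizer (K p : Set G) := fun p => by
    rw [hD]; exact iInf_le _ p
  apply isComplementSystem_of
  · intro p
    show ∃ j, (K p).relIndex (D ⊔ L) = (p : ℕ) ^ j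
    have e1 : (K p).relIndex (D ⊔ L) = (K p ⊓ (D ⊔ L)).relIndex (D ⊔ L) :=
      (Subgroup.inf_relIndex_right (K p) (D ⊔ L)).symm
    have e2 := Subgroup.relIndex_mul_relIndex (H := K p ⊓ (D ⊔ L)) (K := (K p ⊓ (D ⊔ L)) ⊔ L)
      (L := D ⊔ L) le_sup_left (sup_le inf_le_right le_sup_right)
    have ha : (K p ⊓ (D ⊔ L)).relIndex ((K p ⊓ (D ⊔ L)) ⊔ L) ∣
        (p : ℕ) ^ (Nat.card G).factorization p := by
      rw [Cfsg.Agent.H12.relIndex_sup_eq_relIndex_of_normal]
      have e0 : (D ⊔ L) ⊓ L = L := inf_eq_right.mpr le_sup_right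
      have e : K p ⊓ (D ⊔ L) ⊓ L = K p ⊓ L := by
        rw [inf_assoc, e0]
      have e' : (K p ⊓ (D ⊔ L)).relIndex L = (K p).relIndex L := by
        rw [← Subgroup.inf_relIndex_right (K p ⊓ (D ⊔ L)) L, e, Subgroup.inf_relIndex_right]
      rw [e', ← hK p]
      exact Cfsg.Agent.H12.relIndex_dvd_index_of_normal_right (K p) L
    have hb : ((K p ⊓ (D ⊔ L)) ⊔ L).relIndex (D ⊔ L) ∣
        (p : ℕ) ^ (Nat.card G).factorization p := by
      have h1 : D ⊓ K p ⊔ L ≤ K p ⊓ (D ⊔ L) ⊔ L :=
        sup_le_sup_right (le_inf inf_le_right (inf_le_left.trans le_sup_left)) L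
      have h2 := Subgroup.relIndex_dvd_of_le_left (D ⊔ L) h1
      have hn : D ≤ Subgroup.normalizer ((D ⊓ K p ⊔ L : Subgroup G) : Set G) :=
        Cfsg.Agent.H1.le_normalizer_sup D _ _
          (Cfsg.Agent.H1.le_normalizer_inf D D (K p) Subgroup.le_normalizer (hDK p))
          (by rw [Subgroup.normalizer_eq_top L]; exact le_top)
      have h3 := Cfsg.Agent.H1.relIndex_sup_of_le_normalizer D (D ⊓ K p ⊔ L) hn
      have e0 : D ⊔ D ⊓ K p = D := sup_eq_left.mpr inf_le_left
      have e3 : D ⊔ (D ⊓ K p ⊔ L) = D ⊔ L := by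
        rw [← sup_assoc, e0]
      rw [e3] at h3
      rw [h3] at h2
      have h4 : (D ⊓ K p ⊔ L).relIndex D ∣ (D ⊓ K p).relIndex D :=
        Subgroup.relIndex_dvd_of_le_left D le_sup_left
      have h5 : (D ⊓ K p).relIndex D = (K p).relIndex D := Subgroup.inf_relIndex_left D (K p)
      have h6 := Cfsg.Agent.H1.relIndex_sup_of_le_normalizer D (K p) (hDK p)
      have h7 : (K p).relIndex (D ⊔ K p) ∣ (K p).index :=
        Subgroup.relIndex_dvd_index_of_le le_sup_right
      rw [h6] at h7
      rw [h5] at h4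
      rw [← hK p]
      exact h2.trans (h4.trans h7)
    have h8 : (K p).relIndex (D ⊔ L) ∣ (p : ℕ) ^ (Nat.card G).factorization p *
        (p : ℕ) ^ (Nat.card G).factorization p := by
      rw [e1, ← e2]; exact Nat.mul_dvd_mul ha hb
    rw [← pow_add] at h8
    obtain ⟨j, -, hj⟩ := (Nat.dvd_prime_pow p.2).mp h8
    exact ⟨j, hj⟩
  · intro p
    have h1 : Nat.card ((K p).subgroupOf (D ⊔ L)) ∣ Nat.card (K p) := by
      rw [Cfsg.Agent.H1.card_subgroupOf]; exact Subgroup.card_dvd_of_le inf_le_left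
    exact Nat.Coprime.coprime_dvd_left h1 (Cfsg.Agent.H12.complementSystem_coprime hK p)

omit [Finite G] [Group.IsSolvable G] in
theorem systemNormalizer_le_subgroupOf (K : Nat.Primes → Subgroup G) (M : Subgroup G) :
    (Cfsg.systemNormalizer K).subgroupOf M ≤
      Cfsg.systemNormalizer (fun p => (K p).subgroupOf M) := by
  intro x hx
  rw [mem_systemNormalizer_iff]
  intro p
  rw [Subgroup.mem_normalizer_iff]
  intro h
  rw [Subgroup.mem_subgroupOf, Subgroup.mem_subgroupOf]
  have h1 := (mem_systemNormalizer_iff K (x : G)).mp (Subgroup.mem_subgroupOf.mp hx) p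
  have h2 := Subgroup.mem_normalizer_iff.mp h1 (h : G)
  simpa using h2

end Solvable

/-- Every system normalizer of a finite solvable group lies in a Carter subgroup. -/
theorem exists_carter_ge_aux (n : ℕ) : ∀ (G : Type u) [Group G] [Finite G] [Group.IsSolvable G],
    Nat.card G = n → ∀ K : Nat.Primes → Subgroup G, Cfsg.IsComplementSystem K →
    ∃ C : Subgroup G, Cfsg.IsCarterSubgroup C ∧ Cfsg.systemNormalizer K ≤ C := by
  induction n using Nat.strong_induction_on with
  | _ n ih =>
  intro G _ _ _ hn K hK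
  by_cases hnil : Group.IsNilpotent G
  · exact ⟨⊤, ⟨Group.isNilpotent_top.mpr hnil, Subgroup.normalizer_eq_top ⊤⟩, le_top⟩
  have hP0 : ¬ ∃ k, (⊤ : Subgroup G).lowerCentralSeries k ≤ ⊥ := by
    rintro ⟨k, hk⟩
    exact hnil (Subgroup.nilpotent_iff_lowerCentralSeries.mpr ⟨k, le_bot_iff.mp hk⟩)
  obtain ⟨L, -, hLmax⟩ := Finite.exists_le_maximal
    (p := fun L : Subgroup G => L.Normal ∧ ¬ ∃ k, (⊤ : Subgroup G).lowerCentralSeries k ≤ L)
    (a := ⊥) ⟨inferInstance, hP0⟩
  obtain ⟨⟨hLn, hLP⟩, hLm⟩ := hLmax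
  haveI := hLn
  have hLtop : L < ⊤ := by
    rw [lt_top_iff_ne_top]; rintro rfl; exact hLP ⟨0, le_top⟩
  obtain ⟨N, -, hNmin⟩ := Finite.exists_le_minimal
    (p := fun N : Subgroup G => N.Normal ∧ L < N) (a := ⊤) ⟨inferInstance, hLtop⟩
  obtain ⟨⟨hNn, hLN⟩, hNm⟩ := hNmin
  haveI := hNn
  have hchief : ∀ X : Subgroup G, X.Normal → L ≤ X → X ≤ N → X = L ∨ X = N := by
    intro X hX hLX hXN
    by_cases h : X = L
    · exact Or.inl h
    · right
      exact le_antisymm hXN (hNm ⟨hX, lt_of_le_of_ne hLX (Ne.symm h)⟩ hXN)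
  obtain ⟨k, hk⟩ : ∃ k, (⊤ : Subgroup G).lowerCentralSeries k ≤ N := by
    by_contra hcon
    exact hLN.not_ge (hLm ⟨hNn, hcon⟩ hLN.le)
  have hecc : ¬ ⁅N, (⊤ : Subgroup G)⁆ ≤ L := by
    intro h
    apply hLP
    refine ⟨k + 1, ?_⟩
    rw [Subgroup.lowerCentralSeries_succ]
    exact (Subgroup.commutator_mono hk le_rfl).trans h
  obtain ⟨D, hD⟩ : ∃ D, D = Cfsg.systemNormalizer K := ⟨_, rfl⟩
  have hDN : D ⊔ N = ⊤ := by
    have h1 := systemNormalizer_sup_lowerCentralSeries K hK k
    rw [← hD] at h1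
    exact top_le_iff.mp (h1 ▸ sup_le_sup_left hk D)
  have havoid : N ⊓ D ≤ L := by
    rw [hD]; exact avoid_of_chief K hK L N hLN hchief hecc
  have hNN : ⁅N, N⁆ ≤ L := chief_factor_abelian L N hLN hchief
  have hMN : ∀ x, x ∈ D ⊔ L → x ∈ N → x ∈ L := by
    intro x hxM hxN
    obtain ⟨d, hd, l, hl, rfl⟩ := Subgroup.mem_sup_of_normal_right.mp hxM
    have h1 : d ∈ N := by
      have e : d = (d * l) * l⁻¹ := by group
      rw [e]; exact N.mul_mem hxN (N.inv_mem (hLN.le hl))
    exact L.mul_mem (havoid (Subgroup.mem_inf.mpr ⟨h1, hd⟩)) hl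
  have hMtop : D ⊔ L ≠ ⊤ := by
    intro h
    apply hLN.not_ge
    intro x hx
    exact hMN x (h ▸ Subgroup.mem_top x) hx
  have hMself : ∀ x, x ∈ Subgroup.normalizer ((D ⊔ L : Subgroup G) : Set G) → x ∈ D ⊔ L := by
    intro x hx
    have hx' : x ∈ D ⊔ N := hDN ▸ Subgroup.mem_top x
    obtain ⟨d, hd, n', hn', rfl⟩ := Subgroup.mem_sup_of_normal_right.mp hx'
    have hnM : n' ∈ Subgroup.normalizer ((D ⊔ L : Subgroup G) : Set G) := by
      have e : n' = d⁻¹ * (d * n') := by group
      rw [e]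
      exact Subgroup.mul_mem _
        (Subgroup.inv_mem _ (Subgroup.le_normalizer (Subgroup.mem_sup_left hd))) hx
    have hnL : n' ∈ L := by
      have hZn : (N ⊓ (Subgroup.center (G ⧸ L)).comap (QuotientGroup.mk' L)).Normal :=
        inferInstance
      have hLZ : L ≤ N ⊓ (Subgroup.center (G ⧸ L)).comap (QuotientGroup.mk' L) :=
        le_inf hLN.le (Cfsg.Agent.H12.le_comap_mk' L _)
      rcases hchief _ hZn hLZ inf_le_left with hZ | hZ
      · rw [← hZ]
        refine Subgroup.mem_inf.mpr ⟨hn', ?_⟩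
        rw [Subgroup.mem_comap, Subgroup.mem_center_iff]
        intro qb
        obtain ⟨g, rfl⟩ := QuotientGroup.mk'_surjective L qb
        have hg : g ∈ D ⊔ N := hDN ▸ Subgroup.mem_top g
        obtain ⟨d', hd', n'', hn'', rfl⟩ := Subgroup.mem_sup_of_normal_right.mp hg
        have h1 : QuotientGroup.mk' L n' * QuotientGroup.mk' L d' =
            QuotientGroup.mk' L d' * QuotientGroup.mk' L n' := by
          apply mk_comm_of_commutator_mem
          apply hMN
          · exact Subgroup.mul_mem _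
              ((Subgroup.mem_normalizer_iff.mp hnM d').mp (Subgroup.mem_sup_left hd'))
              (Subgroup.inv_mem _ (Subgroup.mem_sup_left hd'))
          · have e : n' * d' * n'⁻¹ * d'⁻¹ = n' * (d' * n'⁻¹ * d'⁻¹) := by group
            rw [e]; exact N.mul_mem hn' (hNn.conj_mem _ (N.inv_mem hn') d')
        have h2 : QuotientGroup.mk' L n' * QuotientGroup.mk' L n'' =
            QuotientGroup.mk' L n'' * QuotientGroup.mk' L n' := by
          apply mk_comm_of_commutator_mem
          have := Subgroup.commutator_mem_commutator hn' hn''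
          rw [commutatorElement_def] at this
          exact hNN this
        rw [map_mul]
        calc QuotientGroup.mk' L d' * QuotientGroup.mk' L n'' * QuotientGroup.mk' L n'
            = QuotientGroup.mk' L d' * (QuotientGroup.mk' L n'' * QuotientGroup.mk' L n') :=
              mul_assoc _ _ _
          _ = QuotientGroup.mk' L d' * (QuotientGroup.mk' L n' * QuotientGroup.mk' L n'') := by
              rw [h2]
          _ = (QuotientGroup.mk' L d' * QuotientGroup.mk' L n') * QuotientGroup.mk' L n'' := by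
              group
          _ = (QuotientGroup.mk' L n' * QuotientGroup.mk' L d') * QuotientGroup.mk' L n'' := by
              rw [h1]
          _ = QuotientGroup.mk' L n' * (QuotientGroup.mk' L d' * QuotientGroup.mk' L n'') :=
              mul_assoc _ _ _
      · exfalso
        apply hecc
        rw [Subgroup.commutator_le]
        intro y hy g _
        have hy' : y ∈ N ⊓ (Subgroup.center (G ⧸ L)).comap (QuotientGroup.mk' L) := by
          rw [hZ]; exact hy
        have hc := Subgroup.mem_center_iff.mp (Subgroup.mem_comap.mp (Subgroup.mem_inf.mp hy').2)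
          (QuotientGroup.mk' L g)
        rw [← QuotientGroup.eq_one_iff]
        show QuotientGroup.mk' L ⁅y, g⁆ = 1
        rw [commutatorElement_def, map_mul, map_mul, map_mul, map_inv, map_inv, ← hc]
        group
    exact Subgroup.mul_mem _ (Subgroup.mem_sup_left hd) (Subgroup.mem_sup_right hnL)
  have hcardM : Nat.card (D ⊔ L : Subgroup G) < n := by
    rw [← hn, ← Subgroup.card_top (G := G)]
    exact Cfsg.Agent.H1.card_lt_card_of_lt (lt_top_iff_ne_top.mpr hMtop)
  have hKM := complementSystem_subgroupOf K hK L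
  rw [← hD] at hKM
  obtain ⟨C', hC', hDC'⟩ := ih _ hcardM ↥(D ⊔ L) rfl _ hKM
  have hCM : C'.map (D ⊔ L).subtype ≤ D ⊔ L := Subgroup.map_subtype_le C'
  have hcin : CarterIn (D ⊔ L) (C'.map (D ⊔ L).subtype) := by
    rw [carterIn_iff_subgroupOf hCM]
    have e : (C'.map (D ⊔ L).subtype).subgroupOf (D ⊔ L) = C' :=
      Subgroup.comap_map_eq_self_of_injective (Subgroup.subtype_injective _) C'
    rw [e]; exact hC'
  have hDC : D ≤ C'.map (D ⊔ L).subtype := by
    intro d hd
    have h1 : (⟨d, Subgroup.mem_sup_left hd⟩ : ↥(D ⊔ L)) ∈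
        Cfsg.systemNormalizer (fun p => (K p).subgroupOf (D ⊔ L)) := by
      apply systemNormalizer_le_subgroupOf K (D ⊔ L)
      rw [Subgroup.mem_subgroupOf, ← hD]
      exact hd
    exact ⟨_, hDC' h1, rfl⟩
  refine ⟨C'.map (D ⊔ L).subtype, ⟨hcin.2.1, le_antisymm ?_ Subgroup.le_normalizer⟩, ?_⟩
  · intro x hx
    apply hcin.2.2 x _ hx
    apply hMself
    have e : C'.map (D ⊔ L).subtype ⊔ L = D ⊔ L :=
      le_antisymm (sup_le hCM le_sup_right) (sup_le_sup_right hDC L)
    rw [← e]
    exact Cfsg.Agent.H1.le_normalizer_sup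
      (Subgroup.normalizer ((C'.map (D ⊔ L).subtype : Subgroup G) : Set G)) _ L le_rfl
      (by rw [Subgroup.normalizer_eq_top L]; exact le_top) hx
  · rw [← hD]; exact hDC

section Main

variable {G : Type u} [Group G] [Finite G] [Group.IsSolvable G]

theorem exists_carter_ge (K : Nat.Primes → Subgroup G) (hK : Cfsg.IsComplementSystem K) :
    ∃ C : Subgroup G, Cfsg.IsCarterSubgroup C ∧ Cfsg.systemNormalizer K ≤ C :=
  exists_carter_ge_aux _ G rfl K hK

theorem exists_complementSystem_le (C : Subgroup G) (hC : Cfsg.IsCarterSubgroup C) :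
    ∃ K : Nat.Primes → Subgroup G, Cfsg.IsComplementSystem K ∧ Cfsg.systemNormalizer K ≤ C := by
  obtain ⟨K₀, hK₀⟩ := exists_complementSystem (G := G)
  obtain ⟨C₀, hC₀, hle⟩ := exists_carter_ge K₀ hK₀
  obtain ⟨g, hg⟩ := isCarter_conj_exists C₀ C hC₀ hC
  refine ⟨fun p => MulAut.conj g • K₀ p, Cfsg.Agent.H12.complementSystem_conj hK₀ g, ?_⟩
  rw [systemNormalizer_conj, ← hg]
  exact Subgroup.pointwise_smul_le_pointwise_smul_iff.mpr hle

end Main

end Cfsg.Agent.H13
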