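import Mathlib
import Cfsg.Prelude.Def_SolvableStructure
import Cfsg.Agent.H13.SysNorm2

/-!
# System normalizers are Carter subgroups in groups of nilpotent length two (helper13)
-/

set_option autoImplicit false
set_option linter.style.haveILetI false
open Pointwise
open scoped commutatorElement

namespace Cfsg.Agent.H13

universe u

/-- A nontrivial normal subgroup of a nilpotent group meets the centre nontrivially. -/
theorem exists_ne_one_mem_center_of_normal {H : Type*} [Group H] [hH : Group.IsNilpotent H]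
    (M : Subgroup H) [hM : M.Normal] (hM1 : M ≠ ⊥) :
    ∃ z ∈ M, z ≠ 1 ∧ z ∈ Subgroup.center H := by
  classical
  obtain ⟨n, hn⟩ := hH.nilpotent'
  have hex : ∃ k, M ⊓ Subgroup.upperCentralSeries H k ≠ ⊥ := ⟨n, by rwa [hn, inf_top_eq]⟩
  have hk := Nat.find_spec hex
  obtain ⟨k, hkdef⟩ : ∃ k, k = Nat.find hex := ⟨_, rfl⟩
  rw [← hkdef] at hk
  cases k with
  | zero =>
    exfalso
    apply hk
    rw [Subgroup.upperCentralSeries_zero, inf_bot_eq]
  | succ j =>
    have hj : M ⊓ Subgroup.upperCentralSeries H j = ⊥ := by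
      by_contra hcon
      have := Nat.find_min' hex hcon
      omega
    obtain ⟨⟨z, hz⟩, hz1⟩ := Subgroup.ne_bot_iff_exists_ne_one.mp hk
    obtain ⟨hzM, hzZ⟩ := Subgroup.mem_inf.mp hz
    refine ⟨z, hzM, fun h => hz1 (Subtype.ext h), ?_⟩
    rw [Subgroup.mem_center_iff]
    intro g
    have h1 : ⁅z, g⁆ ∈ Subgroup.upperCentralSeries H j :=
      Subgroup.mem_upperCentralSeries_succ_iff.mp hzZ g
    have h2 : ⁅z, g⁆ ∈ M := by
      rw [commutatorElement_def]
      have e : z * g * z⁻¹ * g⁻¹ = z * (g * z⁻¹ * g⁻¹) := by group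
      rw [e]
      exact M.mul_mem hzM (hM.conj_mem _ (M.inv_mem hzM) g)
    have h3 : ⁅z, g⁆ ∈ M ⊓ Subgroup.upperCentralSeries H j := Subgroup.mem_inf.mpr ⟨h2, h1⟩
    rw [hj, Subgroup.mem_bot, commutatorElement_def] at h3
    calc g * z = (z * g * z⁻¹ * g⁻¹)⁻¹ * (z * g) := by group
      _ = z * g := by rw [h3, inv_one, one_mul]

/-- In a finite group with a nilpotent normal subgroup with nilpotent quotient, a system
normalizer contained in a Carter subgroup equals it. -/
theorem systemNormalizer_eq_carter_aux (n : ℕ) : ∀ (G : Type u) [Group G] [Finite G]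
    [Group.IsSolvable G], Nat.card G = n → ∀ (F : Subgroup G) [F.Normal],
    Group.IsNilpotent F → Group.IsNilpotent (G ⧸ F) → ∀ K : Nat.Primes → Subgroup G,
    Cfsg.IsComplementSystem K → ∀ C : Subgroup G, Cfsg.IsCarterSubgroup C →
    Cfsg.systemNormalizer K ≤ C → Cfsg.systemNormalizer K = C := by
  induction n using Nat.strong_induction_on with
  | _ n ih =>
  intro G _ _ _ hn F hFn hF hGF K hK C hC hDC
  by_cases hF1 : F = ⊥
  · subst hF1
    haveI : Group.IsNilpotent G := Group.nilpotent_of_mulEquiv QuotientGroup.quotientBot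
    have h1 := systemNormalizer_eq_top_of_nilpotent K hK
    rw [h1] at hDC ⊢
    exact (top_le_iff.mp hDC).symm
  obtain ⟨N, hNF, ⟨hNn, hN1⟩, hNm⟩ := Finite.exists_le_minimal
    (p := fun N : Subgroup G => N.Normal ∧ N ≠ ⊥) (a := F) ⟨hFn, hF1⟩
  haveI := hNn
  have hNmin : ∀ X : Subgroup G, X.Normal → X ≠ ⊥ → X ≤ N → N ≤ X :=
    fun X hX hX1 hXN => hNm ⟨hX, hX1⟩ hXN
  -- `F` centralizes `N`
  have hNcF : ∀ x ∈ N, ∀ f ∈ F, f * x = x * f := by
    haveI := hF
    have hsub1 : N.subgroupOf F ≠ ⊥ := by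
      intro h0
      apply hN1
      rw [eq_bot_iff]
      intro x hx
      have : (⟨x, hNF hx⟩ : F) ∈ N.subgroupOf F := Subgroup.mem_subgroupOf.mpr hx
      rw [h0, Subgroup.mem_bot] at this
      rw [Subgroup.mem_bot]
      exact congrArg Subtype.val this
    obtain ⟨z, hzN, hz1, hzc⟩ := exists_ne_one_mem_center_of_normal (N.subgroupOf F) hsub1
    have hX1 : N ⊓ Subgroup.centralizer (F : Set G) ≠ ⊥ := by
      intro h0
      apply hz1
      have : (z : G) ∈ N ⊓ Subgroup.centralizer (F : Set G) := by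
        refine Subgroup.mem_inf.mpr ⟨Subgroup.mem_subgroupOf.mp hzN, ?_⟩
        rw [Subgroup.mem_centralizer_iff]
        intro f hf
        have := Subgroup.mem_center_iff.mp hzc ⟨f, hf⟩
        exact congrArg Subtype.val this
      rw [h0, Subgroup.mem_bot] at this
      exact Subtype.ext this
    have hle := hNmin _ inferInstance hX1 inf_le_left
    intro x hx f hf
    have := Subgroup.mem_centralizer_iff.mp (Subgroup.mem_inf.mp (hle hx)).2 f hf
    exact this
  -- induction in `G ⧸ N`
  have hcardQ : Nat.card (G ⧸ N) < n := by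
    rw [← hn]; exact Cfsg.Agent.H12.card_quotient_lt_of_ne_bot N hN1
  have hFQ : Group.IsNilpotent (F.map (QuotientGroup.mk' N)) := by
    haveI := hF
    exact Group.nilpotent_of_surjective ((QuotientGroup.mk' N).subgroupMap F)
      ((QuotientGroup.mk' N).subgroupMap_surjective F)
  have hGFQ : Group.IsNilpotent ((G ⧸ N) ⧸ F.map (QuotientGroup.mk' N)) := by
    haveI := hGF
    exact Group.nilpotent_of_mulEquiv (QuotientGroup.quotientQuotientEquivQuotient N F hNF).symm
  have hmapD := Cfsg.Agent.H12.systemNormalizer_map K hK N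
  have hIH := ih _ hcardQ (G ⧸ N) rfl (F.map (QuotientGroup.mk' N)) hFQ hGFQ
    (fun p => (K p).map (QuotientGroup.mk' N)) (Cfsg.Agent.H12.complementSystem_map hK N)
    (C.map (QuotientGroup.mk' N)) (isCarter_map N C hC)
    (by rw [hmapD]; exact Subgroup.map_mono hDC)
  rw [hmapD] at hIH
  have hsup : Cfsg.systemNormalizer K ⊔ N = C ⊔ N := by
    have := congrArg (Subgroup.comap (QuotientGroup.mk' N)) hIH
    rwa [Subgroup.comap_map_eq, Subgroup.comap_map_eq, QuotientGroup.ker_mk'] at this
  by_cases hNc : N ≤ Subgroup.center G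
  · have h1 : N ≤ Cfsg.systemNormalizer K := hNc.trans (center_le_systemNormalizer K)
    rw [sup_eq_left.mpr h1] at hsup
    apply le_antisymm hDC
    rw [hsup]; exact le_sup_left
  -- `C ⊔ F = ⊤`
  have hCF : C ⊔ F = ⊤ := by
    have h1 := isCarter_map F C hC
    haveI := hGF
    have hnc := (normalizerCondition_iff_only_full_group_self_normalizing (G := G ⧸ F)).mp
      Group.normalizerCondition_of_isNilpotent
    have h2 := hnc _ h1.2
    have := congrArg (Subgroup.comap (QuotientGroup.mk' F)) h2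
    rwa [Subgroup.comap_map_eq, QuotientGroup.ker_mk', Subgroup.comap_top] at this
  -- `C ⊓ N = ⊥`
  have hCN : C ⊓ N = ⊥ := by
    by_contra hcon
    haveI := hC.1
    have hsub1 : N.subgroupOf C ≠ ⊥ := by
      intro h0
      apply hcon
      rw [eq_bot_iff]
      intro x hx
      obtain ⟨hxC, hxN⟩ := Subgroup.mem_inf.mp hx
      have : (⟨x, hxC⟩ : C) ∈ N.subgroupOf C := Subgroup.mem_subgroupOf.mpr hxN
      rw [h0, Subgroup.mem_bot] at this
      rw [Subgroup.mem_bot]
      exact congrArg Subtype.val this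
    obtain ⟨z, hzN, hz1, hzc⟩ := exists_ne_one_mem_center_of_normal (N.subgroupOf C) hsub1
    have hzN' : (z : G) ∈ N := Subgroup.mem_subgroupOf.mp hzN
    have hzG : (z : G) ∈ Subgroup.center G := by
      rw [Subgroup.mem_center_iff]
      intro g
      have hg : g ∈ C ⊔ F := hCF ▸ Subgroup.mem_top g
      obtain ⟨c, hc, f, hf, rfl⟩ := Subgroup.mem_sup_of_normal_right.mp hg
      have h1 : c * (z : G) = z * c := by
        have := Subgroup.mem_center_iff.mp hzc ⟨c, hc⟩
        exact congrArg Subtype.val this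
      have h2 : f * (z : G) = z * f := hNcF _ hzN' f hf
      calc c * f * (z : G) = c * (f * z) := mul_assoc _ _ _
        _ = c * (z * f) := by rw [h2]
        _ = (c * z) * f := by group
        _ = (z * c) * f := by rw [h1]
        _ = z * (c * f) := mul_assoc _ _ _
    have hX1 : N ⊓ Subgroup.center G ≠ ⊥ := by
      intro h0
      apply hz1
      have : (z : G) ∈ N ⊓ Subgroup.center G := Subgroup.mem_inf.mpr ⟨hzN', hzG⟩
      rw [h0, Subgroup.mem_bot] at this
      exact Subtype.ext this
    exact hNc ((hNmin _ inferInstance hX1 inf_le_left).trans inf_le_right)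
  apply le_antisymm hDC
  intro x hx
  have hx' : x ∈ Cfsg.systemNormalizer K ⊔ N := by
    rw [hsup]; exact Subgroup.mem_sup_left hx
  obtain ⟨d, hd, n', hn', rfl⟩ := Subgroup.mem_sup_of_normal_right.mp hx'
  have h1 : n' ∈ C ⊓ N := by
    refine Subgroup.mem_inf.mpr ⟨?_, hn'⟩
    have e : n' = d⁻¹ * (d * n') := by group
    rw [e]
    exact C.mul_mem (C.inv_mem (hDC hd)) hx
  rw [hCN, Subgroup.mem_bot] at h1
  rw [h1, mul_one]
  exact hd

end Cfsg.Agent.H13
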