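import Mathlib
import Cfsg.Prelude.Def_GeometricClasses
import Cfsg.Prelude.Def_ClassicalGeometry
import Cfsg.Agent.H77.TpDefs

/-!
# S5980-FORM (piece for helper77's S5980 project)

The factors of a symplectic element of the tensor product subgroup are similarities of the two
forms, with inverse multipliers.
-/

set_option autoImplicit false
open scoped MatrixGroups
open scoped Matrix
open scoped Kronecker

namespace Cfsg.Agent.H13.Tp

universe u

open Cfsg.Agent.H77.Fx Cfsg.Agent.H77.Tp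

/-- A matrix with unit determinant over a nonempty index set has a nonzero entry. -/
theorem exists_entry_ne_zero {F : Type u} [Field F] {n : ℕ} (hn : 0 < n)
    (G : Matrix (Fin n) (Fin n) F) (hG : IsUnit G.det) : ∃ i j, G i j ≠ 0 := by
  by_contra hcon
  have h0 : G = 0 := by
    ext i j
    by_contra hij
    exact hcon ⟨i, j, hij⟩
  have hne : Nonempty (Fin n) := ⟨⟨0, hn⟩⟩
  rw [h0, Matrix.det_zero] at hG
  exact not_isUnit_zero hG

/-- `formOfGram id` at basis vectors. -/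
theorem formOfGram_single {F : Type u} [Field F] {κ : Type} [Fintype κ] [DecidableEq κ]
    (M K : Matrix κ κ F) (i j : κ) :
    Cfsg.Geo.formOfGram id M (K *ᵥ Pi.single i 1) (K *ᵥ Pi.single j 1) = (Kᵀ * M * K) i j := by
  unfold Cfsg.Geo.formOfGram
  simp only [Matrix.mulVec_single_one, id, Matrix.mul_apply, Matrix.transpose_apply,
    Matrix.col_apply, Finset.sum_mul]
  exact Finset.sum_comm

theorem form (hGram : StGram.{u}) : StForm.{u} := by
  intro F _ d a b e P f₁ f₂ hT ha hb x g hx hg A B h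
  obtain ⟨c, hc, hS⟩ := hT.ten
  have hG1 : IsUnit (Cfsg.Geo.gramMatrix f₁).det := ((hGram F a f₁).2 hT.sym).2.2.1
  have hG2 : IsUnit (Cfsg.Geo.gramMatrix f₂).det := ((hGram F b f₂).1 hT.orth).2.1
  obtain ⟨G₁, hG₁⟩ : ∃ G₁, G₁ = Cfsg.Geo.gramMatrix f₁ := ⟨_, rfl⟩
  obtain ⟨G₂, hG₂⟩ : ∃ G₂, G₂ = Cfsg.Geo.gramMatrix f₂ := ⟨_, rfl⟩
  rw [← hG₁] at hG1 hS ⊢
  rw [← hG₂] at hG2 hS ⊢
  replace hx : ∀ u v, Cfsg.sympForm d F ((x : Mat d F) *ᵥ u) ((x : Mat d F) *ᵥ v) =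
      Cfsg.sympForm d F u v := hx
  replace hg : ∀ u v, Cfsg.sympForm d F ((g : Mat d F) *ᵥ u) ((g : Mat d F) *ᵥ v) =
      Cfsg.sympForm d F u v := hg
  rw [Units.val_mul] at h
  obtain ⟨K, hK⟩ : ∃ K, K = A ⊗ₖ B := ⟨_, rfl⟩
  rw [← hK] at h
  -- the reindexed matrix acts through `e`
  have hR : ∀ u : Fin a × Fin b → F,
      Matrix.reindex e.symm e.symm K *ᵥ (u ∘ e) = (K *ᵥ u) ∘ e := by
    intro u
    rw [Matrix.reindex_apply, Matrix.submatrix_mulVec_equiv]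
    congr 2
    funext t
    simp
  -- invariance of the symplectic form
  have hinv : ∀ w w' : Fin d ⊕ Fin d → F,
      Cfsg.sympForm d F ((P : Mat d F) *ᵥ (Matrix.reindex e.symm e.symm K *ᵥ w))
        ((P : Mat d F) *ᵥ (Matrix.reindex e.symm e.symm K *ᵥ w')) =
      Cfsg.sympForm d F ((P : Mat d F) *ᵥ w) ((P : Mat d F) *ᵥ w') := by
    intro w w'
    have key : ∀ w : Fin d ⊕ Fin d → F,
        (g : Mat d F) *ᵥ ((P : Mat d F) *ᵥ (Matrix.reindex e.symm e.symm K *ᵥ w)) =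
        (x : Mat d F) *ᵥ ((g : Mat d F) *ᵥ ((P : Mat d F) *ᵥ w)) := by
      intro w
      simp only [Matrix.mulVec_mulVec]
      rw [h, Matrix.mul_assoc]
    rw [← hg, key, key, hx, hg]
  -- invariance of the tensor form
  have hPhi : ∀ u v : Fin a × Fin b → F,
      Cfsg.Geo.formOfGram id (G₁ ⊗ₖ G₂) (K *ᵥ u) (K *ᵥ v) =
        Cfsg.Geo.formOfGram id (G₁ ⊗ₖ G₂) u v := by
    intro u v
    have h1 := hS (K *ᵥ u) (K *ᵥ v)
    rw [← hR, ← hR, hinv, hS] at h1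
    exact (mul_left_cancel₀ hc h1).symm
  -- matrix identity
  have hmat : Kᵀ * (G₁ ⊗ₖ G₂) * K = G₁ ⊗ₖ G₂ := by
    ext i j
    rw [← formOfGram_single, hPhi]
    have := formOfGram_single (G₁ ⊗ₖ G₂) (1 : Matrix (Fin a × Fin b) (Fin a × Fin b) F) i j
    rw [Matrix.one_mulVec, Matrix.one_mulVec, Matrix.transpose_one, Matrix.one_mul,
      Matrix.mul_one] at this
    exact this
  have hkron : (Aᵀ * G₁ * A) ⊗ₖ (Bᵀ * G₂ * B) = G₁ ⊗ₖ G₂ := by
    rw [← hmat, hK, Matrix.mul_kronecker_mul, Matrix.mul_kronecker_mul,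
      Matrix.kroneckerMap_transpose]
  obtain ⟨M, hM⟩ : ∃ M, M = Aᵀ * G₁ * A := ⟨_, rfl⟩
  obtain ⟨N, hN⟩ : ∃ N, N = Bᵀ * G₂ * B := ⟨_, rfl⟩
  rw [← hM, ← hN] at hkron ⊢
  have hent : ∀ i j k l, M i j * N k l = G₁ i j * G₂ k l := by
    intro i j k l
    have := congrFun (congrFun hkron (i, k)) (j, l)
    simpa [Matrix.kroneckerMap_apply] using this
  obtain ⟨i₀, j₀, h1⟩ := exists_entry_ne_zero ha G₁ hG1
  obtain ⟨k₀, l₀, h2⟩ := exists_entry_ne_zero hb G₂ hG2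
  have h00 := hent i₀ j₀ k₀ l₀
  have hM0 : M i₀ j₀ ≠ 0 := by
    intro h0
    rw [h0, zero_mul] at h00
    exact mul_ne_zero h1 h2 h00.symm
  have hN0 : N k₀ l₀ ≠ 0 := by
    intro h0
    rw [h0, mul_zero] at h00
    exact mul_ne_zero h1 h2 h00.symm
  refine ⟨M i₀ j₀ / G₁ i₀ j₀, div_ne_zero hM0 h1, ?_, ?_⟩
  · ext i j
    rw [Matrix.smul_apply, smul_eq_mul]
    have e1 := hent i j k₀ l₀
    field_simp
    have e2 : M i j * G₁ i₀ j₀ * N k₀ l₀ = M i₀ j₀ * G₁ i j * N k₀ l₀ := by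
      calc M i j * G₁ i₀ j₀ * N k₀ l₀ = (M i j * N k₀ l₀) * G₁ i₀ j₀ := by ring
        _ = (G₁ i j * G₂ k₀ l₀) * G₁ i₀ j₀ := by rw [e1]
        _ = G₁ i j * (G₁ i₀ j₀ * G₂ k₀ l₀) := by ring
        _ = G₁ i j * (M i₀ j₀ * N k₀ l₀) := by rw [h00]
        _ = M i₀ j₀ * G₁ i j * N k₀ l₀ := by ring
    exact mul_right_cancel₀ hN0 e2
  · ext k l
    rw [Matrix.smul_apply, smul_eq_mul, inv_div]
    have e1 := hent i₀ j₀ k l
    field_simp
    rw [mul_comm, e1]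

example (hGram : Cfsg.Agent.H77.Tp.StGram.{u}) : Cfsg.Agent.H77.Tp.StForm.{u} := form hGram

end Cfsg.Agent.H13.Tp

#print axioms Cfsg.Agent.H13.Tp.form
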