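import Mathlib
import Cfsg.Prelude.Def_GeometricClasses
import Cfsg.Prelude.Def_ClassicalGeometry
import Cfsg.Agent.H77.TpDefs

/-!
# S5980-GRAM (piece for helper77's S5980 project): Gram matrices of symmetric / symplectic forms
-/

set_option autoImplicit false
open scoped MatrixGroups
open scoped Matrix
open scoped Kronecker

namespace Cfsg.Agent.H13.Tp

universe u

/-- A bilinear form (as a function) is given by its Gram matrix. -/
theorem bilin_eq_gram {F : Type u} [Field F] {n : ℕ} (f : (Fin n → F) → (Fin n → F) → F)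
    (hb : Cfsg.Geo.IsBilinearForm f) (x y : Fin n → F) :
    f x y = x ⬝ᵥ (Cfsg.Geo.gramMatrix f *ᵥ y) := by
  obtain ⟨L, hL⟩ : ∃ L : LinearMap.BilinForm F (Fin n → F), ∀ x y, L x y = f x y :=
    ⟨LinearMap.mk₂ F f hb.add_left hb.smul_left hb.add_right hb.smul_right, fun _ _ => rfl⟩
  have hM : LinearMap.BilinForm.toMatrix' L = Cfsg.Geo.gramMatrix f := by
    ext i j
    rw [LinearMap.BilinForm.toMatrix'_apply, hL]
    rfl
  rw [← hL, ← hM, ← Matrix.toBilin'_apply', Matrix.toBilin'_toMatrix']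

/-- Nondegeneracy gives an invertible Gram matrix. -/
theorem gram_det_isUnit {F : Type u} [Field F] {n : ℕ} (f : (Fin n → F) → (Fin n → F) → F)
    (hb : Cfsg.Geo.IsBilinearForm f) (hn : Cfsg.Geo.IsNondegenerateForm f) :
    IsUnit (Cfsg.Geo.gramMatrix f).det := by
  rw [isUnit_iff_ne_zero]
  intro h0
  obtain ⟨v, hv, hv0⟩ := Matrix.exists_mulVec_eq_zero_iff.mpr h0
  obtain ⟨⟨x, hx⟩, -⟩ := hn v hv
  apply hx
  rw [bilin_eq_gram f hb, hv0, dotProduct_zero]

theorem gram : Cfsg.Agent.H77.Tp.StGram.{u} := by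
  intro F _ n f
  refine ⟨fun hf => ⟨?_, gram_det_isUnit f hf.bilinear hf.nondegenerate,
    bilin_eq_gram f hf.bilinear⟩, fun hf => ⟨?_, ?_, gram_det_isUnit f hf.bilinear hf.nondegenerate,
    bilin_eq_gram f hf.bilinear⟩⟩
  · ext i j
    exact hf.symm _ _
  · ext i j
    exact hf.skew _ _
  · intro i
    exact hf.alternating _

example : Cfsg.Agent.H77.Tp.StGram.{u} := gram

end Cfsg.Agent.H13.Tp

#print axioms Cfsg.Agent.H13.Tp.gram
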