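import Mathlib
import Cfsg.Agent.H42.UnDefs

/-!
# UN-FRAMES (piece for helper42's S5954 project): the number of orthonormal `m`-frames in a
nondegenerate hermitian space
-/

set_option autoImplicit false

namespace Cfsg.Agent.H13.Un

open Cfsg.Agent.H45 Cfsg.Agent.H42.Spd Cfsg.Agent.H42.Un Module

universe u v

section

variable {F : Type u} [Field F] {σ : F →+* F} {V : Type v} [AddCommGroup V] [Module F V]

theorem mem_perp_span_range {ι : Type*} (B : V →ₗ[F] V →ₛₗ[σ] F) (f : ι → V) (w : V) :
    w ∈ perp B (Submodule.span F (Set.range f)) ↔ ∀ a, B (f a) w = 0 := by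
  constructor
  · intro h a
    exact h (f a) (Submodule.subset_span ⟨a, rfl⟩)
  · intro h s hs
    refine Submodule.span_induction ?_ ?_ ?_ ?_ hs
    · rintro _ ⟨a, rfl⟩
      exact h a
    · simp
    · intro x y _ _ hx hy
      rw [map_add, LinearMap.add_apply, hx, hy, add_zero]
    · intro c x _ hx
      rw [map_smul, LinearMap.smul_apply, hx, smul_zero]

theorem frame_coeff {m : ℕ} (B : V →ₗ[F] V →ₛₗ[σ] F) (f : Fin m → V)
    (hf : ∀ a b, B (f a) (f b) = if a = b then 1 else 0) (c : Fin m → F) (b : Fin m) :
    B (f b) (∑ a, c a • f a) = σ (c b) := by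
  rw [map_sum]
  simp only [LinearMap.map_smulₛₗ, hf, smul_eq_mul, mul_ite, mul_one, mul_zero]
  simp

theorem frame_nondeg {m : ℕ} (B : V →ₗ[F] V →ₛₗ[σ] F) (f : Fin m → V)
    (hf : ∀ a b, B (f a) (f b) = if a = b then 1 else 0) :
    Submodule.span F (Set.range f) ⊓ perp B (Submodule.span F (Set.range f)) = ⊥ := by
  rw [eq_bot_iff]
  rintro x ⟨hx1, hx2⟩
  rw [Submodule.mem_bot]
  obtain ⟨c, rfl⟩ := (Submodule.mem_span_range_iff_exists_fun F).mp hx1
  have hc : ∀ b, c b = 0 := by
    intro b
    have h1 := (mem_perp_span_range B f _).mp hx2 b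
    rw [frame_coeff B f hf c b] at h1
    exact (map_eq_zero σ).mp h1
  simp [hc]

theorem frame_li {m : ℕ} (B : V →ₗ[F] V →ₛₗ[σ] F) (f : Fin m → V)
    (hf : ∀ a b, B (f a) (f b) = if a = b then 1 else 0) : LinearIndependent F f := by
  rw [Fintype.linearIndependent_iff]
  intro c hc b
  have h1 := frame_coeff B f hf c b
  rw [hc, map_zero] at h1
  exact (map_eq_zero σ).mp h1.symm

theorem uIso_perp [Fintype F] [FiniteDimensional F V] (B : V →ₗ[F] V →ₛₗ[σ] F)
    (hI : UIso B (1 : Module.End F V)) (S : Submodule F V) (hS : S ⊓ perp B S = ⊥) :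
    UIso (B.domRestrict₁₂ (perp B S) (perp B S)) (1 : Module.End F ↥(perp B S)) := by
  refine ⟨hI.invol, hI.nontriv, fun x y => ?_, ?_, fun x y => rfl⟩
  · simp only [LinearMap.domRestrict₁₂_apply]
    exact hI.herm x y
  · intro x hx
    have h0 : (x : V) = 0 := by
      apply hI.nondeg
      intro y
      have hy : y ∈ S ⊔ perp B S := by
        rw [(isCompl_perp B S hS).sup_eq_top]
        exact Submodule.mem_top
      obtain ⟨s, hs, y', hy', rfl⟩ := Submodule.mem_sup.mp hy
      have h1 : B x s = 0 := by
        rw [hI.herm s x, x.2 s hs, map_zero]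
      have h2 := hx ⟨y', hy'⟩
      simp only [LinearMap.domRestrict₁₂_apply] at h2
      rw [map_add, h1, h2, add_zero]
    exact Subtype.ext h0

end

theorem uFrames (hU : StUUnit.{u, v}) : StUFrames.{u, v} := by
  classical
  intro F _ _ q σ V _ _ _ B hF hσq hI m
  have : Finite V := Module.finite_of_finite F
  induction m with
  | zero =>
    intro _
    rw [Finset.prod_range_zero]
    have : Unique {v : Fin 0 → V // ∀ a b, B (v a) (v b) = if a = b then 1 else 0} :=
      { default := ⟨fun i => i.elim0, fun a => a.elim0⟩
        uniq := fun x => Subtype.ext (Subsingleton.elim _ _) }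
    exact Nat.card_unique
  | succ m ih =>
    intro hm
    have ih' := ih (by omega)
    rw [Finset.prod_range_succ, ← ih']
    let g : {v : Fin (m + 1) → V // ∀ a b, B (v a) (v b) = if a = b then 1 else 0} →
        {v : Fin m → V // ∀ a b, B (v a) (v b) = if a = b then 1 else 0} :=
      fun u => ⟨Fin.init u.1, fun a b => by
        have := u.2 a.castSucc b.castSucc
        simpa [Fin.init] using this⟩
    have hfib : ∀ v : {v : Fin m → V // ∀ a b, B (v a) (v b) = if a = b then 1 else 0},
        Nat.card {u // g u = v} =
          (if Even (Module.finrank F V - m) then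
            q ^ (Module.finrank F V - m - 1) * (q ^ (Module.finrank F V - m) - 1)
          else q ^ (Module.finrank F V - m - 1) * (q ^ (Module.finrank F V - m) + 1)) := by
      intro v
      obtain ⟨S, hSdef⟩ : ∃ S, S = Submodule.span F (Set.range v.1) := ⟨_, rfl⟩
      have hS : S ⊓ perp B S = ⊥ := by
        rw [hSdef]
        exact frame_nondeg B v.1 v.2
      have hSr : Module.finrank F S = m := by
        rw [hSdef, finrank_span_eq_card (frame_li B v.1 v.2), Fintype.card_fin]
      have hWr : Module.finrank F ↥(perp B S) = Module.finrank F V - m := by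
        have := Submodule.finrank_add_eq_of_isCompl (isCompl_perp B S hS)
        omega
      have hcount := hU F q σ ↥(perp B S) (B.domRestrict₁₂ (perp B S) (perp B S)) hF hσq
        (uIso_perp B hI S hS)
      rw [hWr] at hcount
      rw [← hcount]
      refine Nat.card_congr ?_
      have hmem : ∀ w : V, w ∈ perp B S ↔ ∀ a, B (v.1 a) w = 0 := by
        intro w
        rw [hSdef]
        exact mem_perp_span_range B v.1 w
      refine
        { toFun := fun u => ⟨⟨u.1.1 (Fin.last m), ?_⟩, ?_⟩
          invFun := fun w => ⟨⟨Fin.snoc v.1 w.1.1, ?_⟩, ?_⟩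
          left_inv := ?_
          right_inv := ?_ }
      · rw [hmem]
        intro a
        have h1 : Fin.init u.1.1 = v.1 := congrArg Subtype.val u.2
        rw [← h1]
        have := u.1.2 a.castSucc (Fin.last m)
        simpa [Fin.init, Fin.castSucc_ne_last] using this
      · show B (u.1.1 (Fin.last m)) (u.1.1 (Fin.last m)) = 1
        have := u.1.2 (Fin.last m) (Fin.last m)
        simpa using this
      · intro a b
        have hw : ∀ a, B (v.1 a) w.1.1 = 0 := (hmem _).mp w.1.2
        have hww : B w.1.1 w.1.1 = 1 := w.2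
        induction a using Fin.lastCases with
        | last =>
          induction b using Fin.lastCases with
          | last =>
            rw [Fin.snoc_last, hww, if_pos rfl]
          | cast b =>
            rw [Fin.snoc_last, Fin.snoc_castSucc, hI.herm (v.1 b) w.1.1, hw b, map_zero,
              if_neg (Fin.castSucc_ne_last b).symm]
        | cast a =>
          induction b using Fin.lastCases with
          | last =>
            rw [Fin.snoc_last, Fin.snoc_castSucc, hw a, if_neg (Fin.castSucc_ne_last a)]
          | cast b =>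
            rw [Fin.snoc_castSucc, Fin.snoc_castSucc, v.2 a b]
            simp only [Fin.castSucc_inj]
      · refine Subtype.ext ?_
        show Fin.init (Fin.snoc (α := fun _ => V) v.1 w.1.1) = v.1
        exact Fin.init_snoc _ _
      · intro u
        have h1 : Fin.init u.1.1 = v.1 := congrArg Subtype.val u.2
        refine Subtype.ext (Subtype.ext ?_)
        show Fin.snoc v.1 (u.1.1 (Fin.last m)) = u.1.1
        rw [← h1]
        exact Fin.snoc_init_self _
      · intro w
        refine Subtype.ext (Subtype.ext ?_)
        show Fin.snoc (α := fun _ => V) v.1 w.1.1 (Fin.last m) = w.1.1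
        exact Fin.snoc_last _ _
    have : Fintype {v : Fin m → V // ∀ a b, B (v a) (v b) = if a = b then 1 else 0} :=
      Fintype.ofFinite _
    rw [← Nat.card_congr (Equiv.sigmaFiberEquiv g), Nat.card_sigma,
      Finset.sum_congr rfl (fun v _ => hfib v), Finset.sum_const, Finset.card_univ,
      smul_eq_mul, Nat.card_eq_fintype_card]

example (hU : Cfsg.Agent.H42.Un.StUUnit.{u, v}) : Cfsg.Agent.H42.Un.StUFrames.{u, v} :=
  uFrames hU

end Cfsg.Agent.H13.Un

#print axioms Cfsg.Agent.H13.Un.uFrames
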