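import Mathlib
import Cfsg.Agent.H42.UnDefs

/-!
# UN-PEEL (piece for helper42's S5954 project): peeling off nondegenerate blocks
-/

set_option autoImplicit false

namespace Cfsg.Agent.H13.Un

open Cfsg.Agent.H45 Cfsg.Agent.H42.Spd Cfsg.Agent.H42.Un Module

universe u v

theorem uPeel (hC : StUCompl.{u, v}) (hS : StUSum.{u, v}) : StUPeel.{u, v} := by
  intro F _ _ σ V _ _ _ B T hI a W₁ hW₁ hyp k
  induction k with
  | zero =>
    intro _
    refine ⟨⊥, bot_le, ⟨?_, bot_inf_eq _⟩, by simp⟩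
    rw [Module.End.mem_invtSubmodule]
    exact bot_le
  | succ k ih =>
    intro hk
    rw [Nat.mul_succ] at hk
    obtain ⟨U, hUW, hU, hUr⟩ := ih (le_trans (Nat.le_add_right _ _) hk)
    by_cases ha : a = 0
    · exact ⟨U, hUW, hU, by rw [hUr, ha]; simp⟩
    obtain ⟨hW', hsup, hfr⟩ := hC F σ V B T hI U W₁ hU hW₁ hUW
    have hne : W₁ ⊓ perp B U ≠ ⊥ := by
      intro h0
      rw [h0, finrank_bot] at hfr
      omega
    obtain ⟨P, hPW, hP, hPr⟩ := hyp (W₁ ⊓ perp B U) inf_le_left hW' hne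
    obtain ⟨hUP, hUPr⟩ := hS F σ V B T hI U P hU hP (le_trans hPW inf_le_right)
    exact ⟨U ⊔ P, sup_le hUW (le_trans hPW inf_le_left), hUP, by
      rw [hUPr, hUr, hPr, Nat.mul_succ]⟩

example (hC : Cfsg.Agent.H42.Un.StUCompl.{u, v}) (hS : Cfsg.Agent.H42.Un.StUSum.{u, v}) :
    Cfsg.Agent.H42.Un.StUPeel.{u, v} := uPeel hC hS

end Cfsg.Agent.H13.Un

#print axioms Cfsg.Agent.H13.Un.uPeel
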