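import Mathlib
import Cfsg.Agent.H42.UnDefs

/-!
# UN-UMODALL (piece for helper42's S5954 project): models of all Jordan types
-/

set_option autoImplicit false

namespace Cfsg.Agent.H13.Un

open Cfsg.Agent.H45 Cfsg.Agent.H42.Spd Cfsg.Agent.H42.Un Module

universe u v

/-- The zero model. -/
theorem uModelN_zero (F : Type u) [Field F] (σ : F →+* F) : UModelN F σ 0 0 := by
  refine ⟨PUnit.{u + 1}, inferInstance, inferInstance, inferInstance, 0, 0, ?_, ?_, ?_, ?_, ?_⟩
  · intro x y
    simp
  · intro x _
    exact Subsingleton.elim _ _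
  · intro x y
    simp
  · exact Module.finrank_zero_of_subsingleton
  · intro e
    rw [Multiset.map_zero, Multiset.sum_zero]
    exact Module.finrank_zero_of_subsingleton

theorem uModAll (h1 : StUModOne.{u}) (hS : StUModSum.{u}) : StUModAll.{u} := by
  intro F _ σ hinv hnt h2 μ
  induction μ using Multiset.induction_on with
  | empty =>
    intro _
    rw [Multiset.sum_zero]
    exact uModelN_zero F σ
  | cons a μ' ih =>
    intro hpos
    have ha : 0 < a := hpos a (Multiset.mem_cons_self a μ')
    have hμ' : UModelN F σ μ'.sum μ' := ih (fun b hb => hpos b (Multiset.mem_cons_of_mem hb))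
    have hone : UModelN F σ a {a} := h1 F σ hinv hnt h2 a ha
    have := hS F σ a μ'.sum {a} μ' hone hμ'
    rw [Multiset.singleton_add] at this
    rw [Multiset.sum_cons]
    exact this

example (h1 : Cfsg.Agent.H42.Un.StUModOne.{u}) (hS : Cfsg.Agent.H42.Un.StUModSum.{u}) :
    Cfsg.Agent.H42.Un.StUModAll.{u} := uModAll h1 hS

end Cfsg.Agent.H13.Un

#print axioms Cfsg.Agent.H13.Un.uModAll
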