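import Mathlib
import Cfsg.Agent.H42.UnDefs
import Cfsg.Agent.S0284

/-!
# UN-UNIT (piece for helper42's S5954 project): the number of vectors of norm 1 in a
nondegenerate hermitian space
-/

set_option autoImplicit false

namespace Cfsg.Agent.H13.Un

open Cfsg.Agent.H45 Cfsg.Agent.H42.Spd Cfsg.Agent.H42.Un Module

universe u v

/-- A nondegenerate hermitian space is isometric to the standard one. -/
theorem exists_isometry_hermB {F : Type u} [Field F] [Fintype F] (σ : F →+* F) {V : Type v}
    [AddCommGroup V] [Module F V] [FiniteDimensional F V] (B : V →ₗ[F] V →ₛₗ[σ] F)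
    (hI : UIso B (1 : Module.End F V)) (n : ℕ) (hn : Module.finrank F V = n) :
    ∃ e : V ≃ₗ[F] (Fin n → F), ∀ x y, hermB σ n (e x) (e y) = B x y := by
  have hσ := hI.invol
  have hne : σ = RingHom.id F → False := by
    intro h
    obtain ⟨a, ha⟩ := hI.nontriv
    apply ha
    rw [h]
    rfl
  have hg : Good σ 1 B (1 : Module.End F V) :=
    ⟨fun x y => by rw [one_mul]; exact hI.herm x y, hI.nondeg, fun h x => (hne h).elim,
      hI.isom, Module.End.isSemisimple_id⟩
  have hg' : Good σ 1 (hermB σ n) (1 : Module.End F (Fin n → F)) := by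
    refine ⟨?_, ?_, fun h x => (hne h).elim, fun x y => rfl, Module.End.isSemisimple_id⟩
    · intro x y
      rw [hermB_apply, hermB_apply, one_mul, map_sum]
      apply Finset.sum_congr rfl
      intro i _
      rw [map_mul, hσ, mul_comm]
    · intro x hx
      funext i
      have h1 := hx (Pi.single i 1)
      rw [hermB_apply] at h1
      simp only [Pi.single_apply, apply_ite σ, map_one, map_zero, mul_ite, mul_one, mul_zero,
        Finset.sum_ite_eq', Finset.mem_univ, if_true] at h1
      exact h1
  obtain ⟨e, -, hiso⟩ := isoConj_of_charpoly_eq σ hσ 1 n B (hermB σ n) 1 1 hn hg hg'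
    (by rw [LinearMap.charpoly_one, LinearMap.charpoly_one, hn, Module.finrank_fin_fun])
  exact ⟨e, hiso⟩

theorem uUnit : StUUnit.{u, v} := by
  intro F _ _ q σ V _ _ _ B hF hσq hI
  obtain ⟨n, hn⟩ : ∃ n, Module.finrank F V = n := ⟨_, rfl⟩
  obtain ⟨e, hiso⟩ := exists_isometry_hermB σ B hI n hn
  have hcard : Nat.card {v : V // B v v = 1} =
      Nat.card {w : Fin n → F // Cfsg.hermForm n F q w w = 1} := by
    apply Nat.card_congr
    refine e.toEquiv.subtypeEquiv (fun v => ?_)
    rw [← hermB_eq_hermForm σ hσq]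
    show B v v = 1 ↔ hermB σ n (e v) (e v) = 1
    rw [hiso]
  rw [hcard, hn, Cfsg.Agent.S0284.result hF n]

example : Cfsg.Agent.H42.Un.StUUnit.{u, v} := uUnit

end Cfsg.Agent.H13.Un

#print axioms Cfsg.Agent.H13.Un.uUnit
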