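import Cfsg.Agent.H58.UqDefs
import Cfsg.Agent.H14.UqNormW

/-!
# UQ-SABS (piece of helper58's S2950 project), helper13

A subgroup `K ≤ J(X)` of order 3 modulo `C_X(V)` with `|[V, K]| = 4` has `[V, K]` normalized by
`J(X)`: directly from helper14's `Cfsg.Agent.H14.Uq.normW` applied to an element of odd order of
`K` outside `C_X(V)`.
-/

set_option autoImplicit false
open Cfsg
open scoped commutatorElement

namespace Cfsg.Agent.H13.Uq

open Cfsg.Agent.H58.Uq

universe u

/-- **UQ-SABS**. -/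
theorem sAbs : StSAbs.{u} := by
  intro X _ _ V _ hV hsep hO K O hKJ hOK hOC hidx hcard
  -- `K` is not inside `C_X(V)`
  have hKC : ¬ K ≤ Subgroup.centralizer (V : Set X) := by
    intro h
    have h0 : ⁅K, V⁆ = ⊥ := Subgroup.commutator_eq_bot_iff_le_centralizer.mpr h
    rw [Subgroup.commutator_comm, h0, Subgroup.card_bot] at hcard
    omega
  obtain ⟨k, hkK, hkC⟩ := SetLike.not_le_iff_exists.mp hKC
  -- the image of `K` modulo `C_X(V)` has order dividing 3
  have hC3 : Nat.card ↥(K.map (QuotientGroup.mk' (Subgroup.centralizer (V : Set X)))) ∣ 3 := by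
    rw [← Subgroup.relIndex_ker, QuotientGroup.ker_mk', ← hidx]
    exact Subgroup.relIndex_dvd_of_le_left K hOC
  have hk3 : (QuotientGroup.mk' (Subgroup.centralizer (V : Set X)) k) ^ 3 = 1 := by
    have hmem : QuotientGroup.mk' (Subgroup.centralizer (V : Set X)) k ∈
        K.map (QuotientGroup.mk' (Subgroup.centralizer (V : Set X))) :=
      Subgroup.mem_map_of_mem _ hkK
    have h1 : (⟨_, hmem⟩ : ↥(K.map (QuotientGroup.mk' (Subgroup.centralizer (V : Set X))))) ^
        Nat.card ↥(K.map (QuotientGroup.mk' (Subgroup.centralizer (V : Set X)))) = 1 :=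
      pow_card_eq_one'
    obtain ⟨c, hc⟩ := hC3
    have h2 := congrArg Subtype.val h1
    simp only [Subgroup.coe_pow, Subgroup.coe_one] at h2
    rw [hc, pow_mul, h2, one_pow]
  -- the odd part of `k`
  have hn0 : orderOf k ≠ 0 := (orderOf_pos k).ne'
  obtain ⟨a, m, hm, hnam⟩ := Nat.exists_eq_two_pow_mul_odd hn0
  have hko : Odd (orderOf (k ^ 2 ^ a)) := by
    rw [orderOf_pow_of_dvd (pow_ne_zero a (by norm_num)) ⟨m, hnam⟩, hnam,
      Nat.mul_div_cancel_left m (pow_pos (by norm_num) a)]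
    exact hm
  have hkC' : k ^ 2 ^ a ∉ Subgroup.centralizer (V : Set X) := by
    intro h
    apply hkC
    have h2 : (QuotientGroup.mk' (Subgroup.centralizer (V : Set X)) k) ^ 2 ^ a = 1 := by
      rw [← map_pow]
      exact (QuotientGroup.eq_one_iff _).mpr h
    have d1 := orderOf_dvd_of_pow_eq_one hk3
    have d2 := orderOf_dvd_of_pow_eq_one h2
    have hcop : Nat.gcd 3 (2 ^ a) = 1 := Nat.Coprime.pow_right a (by decide)
    have d3 := Nat.dvd_gcd d1 d2
    rw [hcop, Nat.dvd_one, orderOf_eq_one_iff] at d3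
    exact (QuotientGroup.eq_one_iff _).mp d3
  have hk'K : k ^ 2 ^ a ∈ K := K.pow_mem hkK _
  obtain ⟨-, hnorm⟩ := Cfsg.Agent.H14.Uq.normW V hV hsep hO (k ^ 2 ^ a) (hKJ hk'K) hko hkC'
    ⁅V, K⁆ hcard (by
      intro v hv
      have h1 : ⁅k ^ 2 ^ a, v⁆ ∈ ⁅K, V⁆ := Subgroup.commutator_mem_commutator hk'K hv
      rw [Subgroup.commutator_comm, commutatorElement_def] at h1
      exact h1)
  intro g hg
  rw [Subgroup.mem_normalizer_iff]
  intro w
  constructor
  · intro hw
    exact hnorm g hg w hw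
  · intro hw
    have h1 := hnorm g⁻¹ (Subgroup.inv_mem _ hg) _ hw
    have e : g⁻¹ * (g * w * g⁻¹) * g⁻¹⁻¹ = w := by group
    rw [e] at h1
    exact h1

example : Cfsg.Agent.H58.Uq.StSAbs.{u} := sAbs

end Cfsg.Agent.H13.Uq

#print axioms Cfsg.Agent.H13.Uq.sAbs
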